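import Cfsg.Agent.Lib.Helper18.TwOut.ADefs

set_option autoImplicit false

namespace Cfsg.Agent.Lib.Helper18.TwOut

open Cfsg.Lie Matrix Cfsg.Agent.Lib.Helper6 Cfsg.Agent.Lib.Helper18 Cfsg.Agent.Lib.Lead.FixTwist

variable {D : ChevalleyDatum} {K : Type*} [Field K] {X : BNData D K} (T : FixBN X)

/-- if `n ∈ N ∩ G¹` is not in `H`, some `U_{s_O}⁻` is contained in `U_n⁻`. -/
theorem exists_orb_le_Um {n : GL D.Idx K} (hn : n ∈ D.monomialSubgroup K) (hn1 : n ∈ T.G1)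
    (hH : n ∉ D.diagonalSubgroup K) : ∃ O ∈ T.orbs, Um D K (T.sO O) ≤ Um D K n := by
  obtain ⟨i, hi⟩ := X.exists_right_descent hn hH
  obtain ⟨O, hO, hiO⟩ := T.cover i i.2
  have hall := T.neg_all' hn (T.G1_fixed _ hn1) O hO i hiO (X.pI i) rfl hi
  refine ⟨O, hO, ?_⟩
  rw [X.Um_eq_XP (T.sO_mem_N hO), X.Um_eq_XP hn]
  unfold BNData.XP
  apply Subgroup.closure_mono
  rintro g ⟨r, t, ⟨hr, hr2⟩, rfl⟩
  refine ⟨r, t, ⟨hr, hall r hr ?_⟩, rfl⟩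
  rw [T.act_sO hO] at hr2
  exact hr2

theorem mem_B_of_conj_orb {g : GL D.Idx K} (hg : g ∈ T.G1)
    (h : ∀ O ∈ T.orbs, ∃ x ∈ Um D K (T.sO O), x ∈ T.G1 ∧ x ≠ 1 ∧ g * x * g⁻¹ ∈ D.posUnipotent K) :
    g ∈ D.borelSubgroup K := by
  obtain ⟨u₁, h1, g1, n, hn, gn, u₂, h2, g2, rfl⟩ := T.nf_G1 hg
  by_cases hH : n ∈ D.diagonalSubgroup K
  · exact mul_mem (mul_mem (Base.U_le_B h1) (Base.H_le_B hH)) (Base.U_le_B (Um_le_U n h2))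
  · exfalso
    obtain ⟨O, hO, hle⟩ := exists_orb_le_Um T hn gn hH
    obtain ⟨x, hx, -, hne, hc⟩ := h O hO
    set c := u₁ * n * u₂ * x * (u₁ * n * u₂)⁻¹ with hcdef
    have e : u₁ * n * (u₂ * x) = (c * u₁) * n * u₂ := by
      rw [hcdef]; group
    have := (X.nf_unique h1 (mul_mem hc h1) hn hn (mul_mem h2 (hle hx)) h2 e).2.2
    exact hne (mul_eq_left.mp this)

/-- a nontrivial element of `U_{s_O}⁻ ∩ G¹`. -/
theorem exists_orb_ne {O : List ℕ} (hO : O ∈ T.orbs) : ∃ x ∈ Um D K (T.sO O), x ∈ T.G1 ∧ x ≠ 1 := by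
  obtain ⟨u, hu, hfix, hne⟩ := T.orb_ne O hO
  obtain ⟨h, hh, e'⟩ := T.sO_eq O hO
  refine ⟨u, ?_, T.rank1 O hO u hu hfix, hne⟩
  rw [e', X.hB.Um_eq_UmW X.hT.toTabs hh (T.orb_lt O hO)]; exact hu

end Cfsg.Agent.Lib.Helper18.TwOut
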