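import Cfsg.Agent.Lib.Helper18.TwOut.A1

set_option autoImplicit false

namespace Cfsg.Agent.Lib.Helper18.TwOut

open Cfsg.Lie Matrix Cfsg.Agent.Lib.Helper6 Cfsg.Agent.Lib.Helper18 Cfsg.Agent.Lib.Lead.FixTwist

variable {D : ChevalleyDatum} {K : Type*} [Field K] {X : BNData D K} (T : FixBN X)

theorem U_le_XP (X : BNData D K) : D.posUnipotent K ≤ X.XP (fun r => D.IsPosRoot r) := by
  rw [X.hB.posUnipotent_eq]
  unfold BNData.XP
  apply Subgroup.closure_mono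
  rintro g ⟨r, t, hr, rfl⟩
  exact ⟨⟨r, hr.1⟩, t, hr, rfl⟩

theorem V_le_XP (X : BNData D K) : D.negUnipotent K ≤ X.XP (fun r => D.IsNegRoot r) := by
  rw [X.hB.negUnipotent_eq]
  unfold BNData.XP
  apply Subgroup.closure_mono
  rintro g ⟨r, t, hr, rfl⟩
  exact ⟨⟨r, hr.1⟩, t, hr, rfl⟩

theorem act_n0 : X.act (T.cn T.chain) (FixB.cn_mem_N T) =
    wPerm X.hT.tab (cw T.chain) (T.cw_lt T.chain_mem) := by
  obtain ⟨h, hh, e⟩ := T.cn_eq T.chain_mem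
  rw [X.act_congr e, X.act_hnW hh (T.cw_lt T.chain_mem)]

theorem conj_n0_U {u : GL D.Idx K} (hu : u ∈ D.posUnipotent K) :
    T.cn T.chain * u * (T.cn T.chain)⁻¹ ∈ D.negUnipotent K :=
  X.hB.conj_Um_mem_V (by rw [FixB.Um_cn]; exact hu)

theorem conj_n0_V {v : GL D.Idx K} (hv : v ∈ D.negUnipotent K) :
    T.cn T.chain * v * (T.cn T.chain)⁻¹ ∈ D.posUnipotent K := by
  apply X.XP_le_U (P := fun r => D.IsPosRoot r) (fun _ h => h)
  apply X.conj_XP (FixB.cn_mem_N T) (P := fun r => D.IsNegRoot r) _ (V_le_XP X hv)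
  intro r hr
  rw [act_n0]
  exact Cfsg.Agent.Lib.Helper36.isLong_neg_pos X.hT.tab T.chain_long hr

theorem conj_n0_inv_U {u : GL D.Idx K} (hu : u ∈ D.posUnipotent K) :
    (T.cn T.chain)⁻¹ * u * T.cn T.chain ∈ D.negUnipotent K := by
  apply X.XP_le_V (P := fun r => D.IsNegRoot r) (fun _ h => h)
  have := X.conj_XP (inv_mem (FixB.cn_mem_N T)) (P := fun r => D.IsPosRoot r)
    (Q := fun r => D.IsNegRoot r) (by
      intro r hr
      rw [X.act_inv (FixB.cn_mem_N T), act_n0]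
      exact Cfsg.Agent.Lib.Helper36.isLong_pos_neg_rev X.hT.tab T.chain_long hr) (U_le_XP X hu)
  rwa [inv_inv] at this

variable {T} in
theorem conj_n0_neg (hopp : Opp T) {O : List ℕ} (hO : O ∈ T.orbs) {u : GL D.Idx K}
    (hu : u ∈ Um D K (T.sO O)) :
    T.cn T.chain * (T.sO O * u * (T.sO O)⁻¹) * (T.cn T.chain)⁻¹ ∈ Um D K (T.sO O) := by
  have hs := T.sO_mem_N hO
  have hn := FixB.cn_mem_N T
  have e : T.cn T.chain * (T.sO O * u * (T.sO O)⁻¹) * (T.cn T.chain)⁻¹ =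
      (T.cn T.chain * T.sO O) * u * (T.cn T.chain * T.sO O)⁻¹ := by group
  rw [e]
  rw [X.Um_eq_XP hs] at hu ⊢
  apply X.conj_XP (mul_mem hn hs) _ hu
  rintro r ⟨hr, hr2⟩
  rw [X.act_mul hn hs, Equiv.Perm.mul_apply, act_n0]
  rw [T.act_sO hO] at hr2 ⊢
  exact hopp O hO r hr hr2

variable {T} in
theorem exists_conj_n0 [Finite K] (hopp : Opp T) {O : List ℕ} (hO : O ∈ T.orbs) {u : GL D.Idx K}
    (hu : u ∈ Um D K (T.sO O)) :
    ∃ u' ∈ Um D K (T.sO O), u = T.cn T.chain * (T.sO O * u' * (T.sO O)⁻¹) * (T.cn T.chain)⁻¹ := by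
  let φ : ↥(Um D K (T.sO O)) → ↥(Um D K (T.sO O)) := fun z =>
    ⟨T.cn T.chain * (T.sO O * z * (T.sO O)⁻¹) * (T.cn T.chain)⁻¹, conj_n0_neg hopp hO z.2⟩
  have hinj : Function.Injective φ := by
    intro a b hab
    have h1 : T.cn T.chain * (T.sO O * a * (T.sO O)⁻¹) * (T.cn T.chain)⁻¹ =
        T.cn T.chain * (T.sO O * b * (T.sO O)⁻¹) * (T.cn T.chain)⁻¹ := congrArg Subtype.val hab
    apply Subtype.ext
    simpa using h1
  obtain ⟨z, hz⟩ := Finite.injective_iff_surjective.mp hinj ⟨u, hu⟩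
  exact ⟨z, z.2, (congrArg Subtype.val hz).symm⟩

variable {T} in
theorem mem_H_of_conj_orb (hopp : Opp T) {g : GL D.Idx K} (hg : g ∈ T.G1)
    (h : ∀ O ∈ T.orbs, ∃ x ∈ Um D K (T.sO O), x ∈ T.G1 ∧ x ≠ 1 ∧ g * x * g⁻¹ ∈ D.posUnipotent K)
    (h' : ∀ O ∈ T.orbs, ∃ x ∈ Um D K (T.sO O), x ∈ T.G1 ∧ x ≠ 1 ∧
      g * (T.sO O * x * (T.sO O)⁻¹) * g⁻¹ ∈ D.negUnipotent K) :
    g ∈ D.diagonalSubgroup K := by
  have hgB := mem_B_of_conj_orb T hg h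
  have hn1 := T.cn_mem T.chain_mem
  have hn := FixB.cn_mem_N T
  set n0 := T.cn T.chain with hn0
  have hg'B : n0 * g * n0⁻¹ ∈ D.borelSubgroup K := by
    apply mem_B_of_conj_orb T (mul_mem (mul_mem hn1 hg) (inv_mem hn1))
    intro O hO
    obtain ⟨x, hx, hx1, hne, hV⟩ := h' O hO
    have hs1 := T.sO_mem O hO
    have hm1 : T.sO O * x * (T.sO O)⁻¹ ∈ T.G1 := T.G1.mul_mem (T.G1.mul_mem hs1 hx1) (T.G1.inv_mem hs1)
    have hm2 : n0 * (T.sO O * x * (T.sO O)⁻¹) * n0⁻¹ ∈ T.G1 :=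
      T.G1.mul_mem (T.G1.mul_mem hn1 hm1) (T.G1.inv_mem hn1)
    refine ⟨n0 * (T.sO O * x * (T.sO O)⁻¹) * n0⁻¹, conj_n0_neg hopp hO hx, hm2, ?_, ?_⟩
    · intro e
      apply hne
      have : x = (T.sO O)⁻¹ * (n0⁻¹ * (n0 * (T.sO O * x * (T.sO O)⁻¹) * n0⁻¹) * n0) * T.sO O := by group
      rw [this, e]; group
    · have e : n0 * g * n0⁻¹ * (n0 * (T.sO O * x * (T.sO O)⁻¹) * n0⁻¹) * (n0 * g * n0⁻¹)⁻¹ =
          n0 * (g * (T.sO O * x * (T.sO O)⁻¹) * g⁻¹) * n0⁻¹ := by group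
      rw [e]
      exact conj_n0_V T hV
  obtain ⟨u, hu, h1, hh1, rfl⟩ := X.hB.mem_B_iff.mp hgB
  have hv : n0 * u * n0⁻¹ ∈ D.negUnipotent K := conj_n0_U T hu
  have hh'' := (X.hB.N_conj_H X.hT.tab hn).1 h1 hh1
  have e : n0 * u * n0⁻¹ = (n0 * (u * h1) * n0⁻¹) * (n0 * h1 * n0⁻¹)⁻¹ := by group
  have h3 : n0 * u * n0⁻¹ ∈ D.borelSubgroup K ⊓ D.negUnipotent K :=
    ⟨by rw [e]; exact (D.borelSubgroup K).mul_mem hg'B ((D.borelSubgroup K).inv_mem (Base.H_le_B hh'')), hv⟩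
  rw [X.hB.B_inf_V X.hT.toTabs, Subgroup.mem_bot] at h3
  have hu1 : u = 1 := by
    have : u = n0⁻¹ * (n0 * u * n0⁻¹) * n0 := by group
    rw [this, h3]; group
  rw [hu1, one_mul]
  exact hh1

end Cfsg.Agent.Lib.Helper18.TwOut
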