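import Cfsg.Agent.Lib.Helper18.TwOut.A5
import Cfsg.Agent.Lib.Helper22.CoprimeP

set_option autoImplicit false

namespace Cfsg.Agent.Lib.Helper18.TwOut

open Cfsg.Lie Matrix Cfsg.Agent.Lib.Helper6 Cfsg.Agent.Lib.Helper18 Cfsg.Agent.Lib.Lead.FixTwist

variable {D : ChevalleyDatum} {K : Type*} [Field K] {X : BNData D K} (T : FixBN X)

/-- powers of `u h`. -/
theorem exists_pow_uh (hB : Base D K) {u h : GL D.Idx K} (hu : u ∈ D.posUnipotent K)
    (hh : h ∈ D.diagonalSubgroup K) (m : ℕ) : ∃ u' ∈ D.posUnipotent K, (u * h) ^ m = u' * h ^ m := by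
  induction m with
  | zero => exact ⟨1, one_mem _, by simp⟩
  | succ m ih =>
    obtain ⟨u', hu', e⟩ := ih
    refine ⟨u' * (h ^ m * u * (h ^ m)⁻¹), mul_mem hu' (hB.H_conj_U (pow_mem hh m) hu), ?_⟩
    rw [pow_succ, e, pow_succ]
    group

theorem exists_sylow_U1 [Fintype K] (p : ℕ) [Fact p.Prime] [CharP K p]
    (hD : D ∈ [chevG2, chevB2, chevD4, chevF4, chevE6, chevE7, chevE8]) :
    ∃ P : Sylow p ↥T.G1, (P : Subgroup ↥T.G1) = (D.posUnipotent K).subgroupOf T.G1 := by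
  have hp : p.Prime := Fact.out
  have hU : IsPGroup p ↥((D.posUnipotent K).subgroupOf T.G1) :=
    (Cfsg.Agent.Lib.Helper36.isPGroup_U p hD (F := K)).comap_subtype
  obtain ⟨Q, hQ⟩ := hU.exists_le_sylow
  refine ⟨Q, ?_⟩
  by_contra hne
  have hlt : (D.posUnipotent K).subgroupOf T.G1 < (Q : Subgroup ↥T.G1) :=
    lt_of_le_of_ne hQ (fun h => hne h.symm)
  have hfin : Finite (GL D.Idx K) := inferInstance
  obtain ⟨x, hxQ, hxN, hxU⟩ := Cfsg.Agent.Lib.Helper22.exists_mem_normalizer_not_mem Q.2 hlt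
  apply hxU
  have hconj : ∀ u ∈ D.posUnipotent K, u ∈ T.G1 →
      (x : GL D.Idx K) * u * (x : GL D.Idx K)⁻¹ ∈ D.posUnipotent K := by
    intro u hu hu1
    have := (Subgroup.mem_normalizer_iff.1 hxN ⟨u, hu1⟩).1 (Subgroup.mem_subgroupOf.2 hu)
    exact Subgroup.mem_subgroupOf.1 this
  have hxB : (x : GL D.Idx K) ∈ D.borelSubgroup K := by
    apply mem_B_of_conj_orb T x.2
    intro O hO
    obtain ⟨y, hy, hy1, hyne⟩ := exists_orb_elt T hO
    exact ⟨y, hy, hy1, hyne, hconj y (Um_le_U _ hy) hy1⟩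
  obtain ⟨u, hu, h, hh, e⟩ := X.hB.mem_B_iff.1 hxB
  obtain ⟨k, hk⟩ := Q.2 ⟨x, hxQ⟩
  have hk' : (x : GL D.Idx K) ^ p ^ k = 1 := by
    have := congrArg (fun z : ↥(Q : Subgroup ↥T.G1) => ((z : ↥T.G1) : GL D.Idx K)) hk
    simpa using this
  obtain ⟨u', hu', e'⟩ := exists_pow_uh X.hB hu hh (p ^ k)
  rw [← e, hk'] at e'
  have h1 : h ^ p ^ k ∈ D.posUnipotent K ⊓ D.diagonalSubgroup K := by
    refine ⟨?_, (D.diagonalSubgroup K).pow_mem hh _⟩
    have : h ^ p ^ k = u'⁻¹ := by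
      calc h ^ p ^ k = u'⁻¹ * (u' * h ^ p ^ k) := by group
        _ = u'⁻¹ := by rw [← e', mul_one]
    rw [this]
    exact (D.posUnipotent K).inv_mem hu'
  rw [X.hB.U_inf_H X.hT.toTabs, Subgroup.mem_bot] at h1
  have h2 : orderOf h ∣ p ^ k := orderOf_dvd_of_pow_eq_one h1
  have h3 : orderOf h ∣ Nat.card (D.diagonalSubgroup K) := by
    have := orderOf_dvd_natCard (⟨h, hh⟩ : ↥(D.diagonalSubgroup K))
    rwa [Subgroup.orderOf_mk] at this
  have h4 : Nat.Coprime (p ^ k) (Nat.card (D.diagonalSubgroup K)) :=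
    Nat.Coprime.pow_left _ ((Nat.Prime.coprime_iff_not_dvd hp).2
      (Cfsg.Agent.Lib.Helper36.not_dvd_card_H p X.hB X.hT.tab))
  have h5 : h = 1 := orderOf_eq_one_iff.1 (Nat.eq_one_of_dvd_coprimes h4 h2 h3)
  rw [Subgroup.mem_subgroupOf, e, h5, mul_one]
  exact hu

end Cfsg.Agent.Lib.Helper18.TwOut
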