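import Cfsg.Agent.Lib.Helper18.TwOut.A3

set_option autoImplicit false

namespace Cfsg.Agent.Lib.Helper18.TwOut

open Cfsg.Lie Matrix Cfsg.Agent.Lib.Helper6 Cfsg.Agent.Lib.Helper18 Cfsg.Agent.Lib.Lead.FixTwist
open Cfsg.Agent.Lib.Helper36 (mem_iff_of_forall_mem conj_mem_U_of_mem_B)

variable {D : ChevalleyDatum} {K : Type*} [Field K] {X : BNData D K} (T : FixBN X)

theorem std1_of_forall [Finite K] {θ : ↥T.G1 ≃* ↥T.G1}
    (hU : ∀ g : ↥T.G1, (g : GL D.Idx K) ∈ D.posUnipotent K →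
      ((θ g : ↥T.G1) : GL D.Idx K) ∈ D.posUnipotent K)
    (hV : ∀ g : ↥T.G1, (g : GL D.Idx K) ∈ D.negUnipotent K →
      ((θ g : ↥T.G1) : GL D.Idx K) ∈ D.negUnipotent K) : Std1 T θ :=
  have : Finite (GL D.Idx K) := inferInstance
  ⟨fun g => mem_iff_of_forall_mem θ ((D.posUnipotent K).subgroupOf T.G1) hU g,
   fun g => mem_iff_of_forall_mem θ ((D.negUnipotent K).subgroupOf T.G1) hV g⟩

theorem exists_std1 [Finite K] (hD : D ∈ [chevG2, chevB2, chevD4, chevF4, chevE6, chevE7, chevE8])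
    (θ : ↥T.G1 ≃* ↥T.G1) :
    ∃ (x : ↥T.G1) (θ' : ↥T.G1 ≃* ↥T.G1), Std1 T θ' ∧ ∀ y, θ y = x * θ' y * x⁻¹ := by
  classical
  have hfin : Finite (GL D.Idx K) := inferInstance
  have : Fintype K := Fintype.ofFinite K
  obtain ⟨p, hp⟩ := CharP.exists K
  have hpp : Fact p.Prime := ⟨CharP.char_is_prime K p⟩
  obtain ⟨P, hP⟩ := exists_sylow_U1 T p hD
  -- first step : `U`
  have hS : IsPGroup p ↥((P : Subgroup ↥T.G1).map θ.toMonoidHom) := P.isPGroup'.map _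
  obtain ⟨Q, hQ⟩ := hS.exists_le_sylow
  obtain ⟨g, hg⟩ := MulAction.exists_smul_eq ↥T.G1 Q P
  have hgQ : ∀ s ∈ (Q : Subgroup ↥T.G1), g * s * g⁻¹ ∈ (P : Subgroup ↥T.G1) := by
    intro s hs
    rw [← hg]
    exact Subgroup.smul_mem_pointwise_smul s (MulAut.conj g) (Q : Subgroup ↥T.G1) hs
  let θ₀ : ↥T.G1 ≃* ↥T.G1 := θ.trans (MulAut.conj g)
  have hθ₀ : ∀ y, θ₀ y = g * θ y * g⁻¹ := fun y => rfl
  have hU₀ : ∀ y : ↥T.G1, ((θ₀ y : ↥T.G1) : GL D.Idx K) ∈ D.posUnipotent K ↔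
      (y : GL D.Idx K) ∈ D.posUnipotent K := by
    apply mem_iff_of_forall_mem θ₀ ((D.posUnipotent K).subgroupOf T.G1)
    intro y hy
    rw [← hP] at hy ⊢
    exact hgQ _ (hQ ⟨y, hy, rfl⟩)
  -- second step : `V`
  have hn01 := T.cn_mem T.chain_mem
  set n0 := T.cn T.chain with hn0
  let n0G : ↥T.G1 := ⟨n0, hn01⟩
  obtain ⟨u₁, hu₁, gu₁, n, hn, gn, u₂, hu₂, gu₂, e⟩ := T.nf_G1 (θ₀ n0G).2
  have hu₂' := Um_le_U n hu₂
  have hH : n0 * n ∈ D.diagonalSubgroup K := by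
    by_contra hnH
    obtain ⟨O, hO, hle⟩ := exists_orb_le_Um T (mul_mem (FixB.cn_mem_N T) hn) (mul_mem hn01 gn) hnH
    obtain ⟨x, hx, hx1, hne⟩ := exists_orb_elt T hO
    have h0 := X.hB.conj_Um_mem_V (hle hx)
    have hnx : n * x * n⁻¹ ∈ D.posUnipotent K := by
      have := FixB.conj_cn_V T h0
      have e1 : (T.cn T.chain)⁻¹ * (n0 * n * x * (n0 * n)⁻¹) * T.cn T.chain = n * x * n⁻¹ := by
        rw [← hn0]; group
      rwa [e1] at this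
    have hz : u₂⁻¹ * x * u₂ ∈ D.posUnipotent K :=
      mul_mem (mul_mem (inv_mem hu₂') (Um_le_U _ hx)) hu₂'
    let z : ↥T.G1 := ⟨_, mul_mem (mul_mem (inv_mem gu₂) hx1) gu₂⟩
    have hz' : ((θ₀.symm z : ↥T.G1) : GL D.Idx K) ∈ D.posUnipotent K := by
      rw [← hU₀, MulEquiv.apply_symm_apply]; exact hz
    have h1 : ((θ₀ (n0G * θ₀.symm z * n0G⁻¹) : ↥T.G1) : GL D.Idx K) ∈ D.posUnipotent K := by
      rw [map_mul, map_mul, map_inv, MulEquiv.apply_symm_apply]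
      show ((θ₀ n0G : ↥T.G1) : GL D.Idx K) * (u₂⁻¹ * x * u₂) *
        ((θ₀ n0G : ↥T.G1) : GL D.Idx K)⁻¹ ∈ _
      rw [e]
      have e2 : u₁ * n * u₂ * (u₂⁻¹ * x * u₂) * (u₁ * n * u₂)⁻¹ = u₁ * (n * x * n⁻¹) * u₁⁻¹ := by
        group
      rw [e2]
      exact mul_mem (mul_mem hu₁ hnx) (inv_mem hu₁)
    rw [hU₀] at h1
    have h2 : n0 * ((θ₀.symm z : ↥T.G1) : GL D.Idx K) * n0⁻¹ ∈ D.negUnipotent K := conj_n0_U T hz'
    have h3 : n0 * ((θ₀.symm z : ↥T.G1) : GL D.Idx K) * n0⁻¹ ∈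
        D.posUnipotent K ⊓ D.negUnipotent K := ⟨h1, h2⟩
    rw [X.hB.U_inf_V X.hT.toTabs, Subgroup.mem_bot] at h3
    have h4 : ((θ₀.symm z : ↥T.G1) : GL D.Idx K) = 1 := by
      calc ((θ₀.symm z : ↥T.G1) : GL D.Idx K)
          = n0⁻¹ * (n0 * ((θ₀.symm z : ↥T.G1) : GL D.Idx K) * n0⁻¹) * n0 := by group
        _ = 1 := by rw [h3]; group
    have h5 : θ₀.symm z = 1 := Subtype.ext h4
    have h6 : z = 1 := by
      have := congrArg θ₀ h5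
      rwa [MulEquiv.apply_symm_apply, map_one] at this
    have h7 : u₂⁻¹ * x * u₂ = 1 := congrArg Subtype.val h6
    apply hne
    calc x = u₂ * (u₂⁻¹ * x * u₂) * u₂⁻¹ := by group
      _ = 1 := by rw [h7]; group
  let bG : ↥T.G1 := ⟨u₁, gu₁⟩
  let θ₁ : ↥T.G1 ≃* ↥T.G1 := θ₀.trans (MulAut.conj bG⁻¹)
  have hθ₁ : ∀ y, θ₁ y = bG⁻¹ * θ₀ y * bG := fun y => by
    show bG⁻¹ * θ₀ y * bG⁻¹⁻¹ = _
    rw [inv_inv]
  refine ⟨g⁻¹ * bG, θ₁, std1_of_forall T ?_ ?_, ?_⟩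
  · intro y hy
    rw [hθ₁]
    exact mul_mem (mul_mem (inv_mem hu₁) ((hU₀ y).mpr hy)) hu₁
  · intro y hy
    have ha : n0⁻¹ * (y : GL D.Idx K) * n0 ∈ D.posUnipotent K := FixB.conj_cn_V T hy
    have ha1 : n0⁻¹ * (y : GL D.Idx K) * n0 ∈ T.G1 := mul_mem (mul_mem (inv_mem hn01) y.2) hn01
    have e2 : y = n0G * ⟨_, ha1⟩ * n0G⁻¹ := by
      apply Subtype.ext
      show (y : GL D.Idx K) = n0 * (n0⁻¹ * (y : GL D.Idx K) * n0) * n0⁻¹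
      group
    rw [hθ₁, e2, map_mul, map_mul, map_inv]
    have ha' := (hU₀ ⟨_, ha1⟩).mpr ha
    set a' := θ₀ ⟨_, ha1⟩ with ha'def
    show u₁⁻¹ * (((θ₀ n0G : ↥T.G1) : GL D.Idx K) * (a' : GL D.Idx K) *
      ((θ₀ n0G : ↥T.G1) : GL D.Idx K)⁻¹) * u₁ ∈ _
    rw [e]
    have e3 : u₁⁻¹ * (u₁ * n * u₂ * (a' : GL D.Idx K) * (u₁ * n * u₂)⁻¹) * u₁ =
        n0⁻¹ * ((n0 * n) * (u₂ * (a' : GL D.Idx K) * u₂⁻¹) * (n0 * n)⁻¹) * n0 := by group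
    rw [e3]
    exact conj_n0_inv_U T (X.hB.H_conj_U hH (mul_mem (mul_mem hu₂' ha') (inv_mem hu₂')))
  · intro y
    rw [hθ₁, hθ₀]
    group

end Cfsg.Agent.Lib.Helper18.TwOut
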