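import Cfsg.Agent.Lib.Helper18.TwOut.A2

set_option autoImplicit false

namespace Cfsg.Agent.Lib.Helper18.TwOut

open Cfsg.Lie Matrix Cfsg.Agent.Lib.Helper6 Cfsg.Agent.Lib.Helper18 Cfsg.Agent.Lib.Lead.FixTwist

variable {D : ChevalleyDatum} {K : Type*} [Field K] {X : BNData D K} {T : FixBN X}

/-- a nontrivial element of `X_O ∩ G¹`. -/
theorem exists_orb_elt (T : FixBN X) {O : List ℕ} (hO : O ∈ T.orbs) :
    ∃ x ∈ Um D K (T.sO O), x ∈ T.G1 ∧ x ≠ 1 := by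
  obtain ⟨u, hu, hfix, hne⟩ := T.orb_ne O hO
  obtain ⟨h, hh, e'⟩ := T.sO_eq O hO
  refine ⟨u, ?_, T.rank1 O hO u hu hfix, hne⟩
  rw [e', X.hB.Um_eq_UmW X.hT.toTabs hh (T.orb_lt O hO)]
  exact hu

theorem Std1.symm {θ : ↥T.G1 ≃* ↥T.G1} (h : Std1 T θ) : Std1 T θ.symm :=
  ⟨fun g => by rw [← h.U (θ.symm g), MulEquiv.apply_symm_apply],
   fun g => by rw [← h.V (θ.symm g), MulEquiv.apply_symm_apply]⟩

/-- transport of "conjugation by `g` sends `x` into `U`". -/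
theorem Std1.conj_U {θ : ↥T.G1 ≃* ↥T.G1} (h : Std1 T θ) (g : ↥T.G1)
    (hg : ∀ u ∈ D.posUnipotent K, (g : GL D.Idx K) * u * (g : GL D.Idx K)⁻¹ ∈ D.posUnipotent K)
    {x : GL D.Idx K} (hx : x ∈ D.posUnipotent K) (hx1 : x ∈ T.G1) :
    ((θ g : ↥T.G1) : GL D.Idx K) * x * ((θ g : ↥T.G1) : GL D.Idx K)⁻¹ ∈ D.posUnipotent K := by
  have hx' : ((θ.symm ⟨x, hx1⟩ : ↥T.G1) : GL D.Idx K) ∈ D.posUnipotent K := (h.symm.U _).mpr hx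
  have h1 := hg _ hx'
  have h2 := (h.U (g * θ.symm ⟨x, hx1⟩ * g⁻¹)).mpr h1
  simpa using h2

theorem Std1.conj_V {θ : ↥T.G1 ≃* ↥T.G1} (h : Std1 T θ) (g : ↥T.G1)
    (hg : ∀ u ∈ D.negUnipotent K, (g : GL D.Idx K) * u * (g : GL D.Idx K)⁻¹ ∈ D.negUnipotent K)
    {x : GL D.Idx K} (hx : x ∈ D.negUnipotent K) (hx1 : x ∈ T.G1) :
    ((θ g : ↥T.G1) : GL D.Idx K) * x * ((θ g : ↥T.G1) : GL D.Idx K)⁻¹ ∈ D.negUnipotent K := by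
  have hx' : ((θ.symm ⟨x, hx1⟩ : ↥T.G1) : GL D.Idx K) ∈ D.negUnipotent K := (h.symm.V _).mpr hx
  have h1 := hg _ hx'
  have h2 := (h.V (g * θ.symm ⟨x, hx1⟩ * g⁻¹)).mpr h1
  simpa using h2

theorem Std1.B_of {θ : ↥T.G1 ≃* ↥T.G1} (h : Std1 T θ) {g : ↥T.G1}
    (hg : (g : GL D.Idx K) ∈ D.borelSubgroup K) :
    ((θ g : ↥T.G1) : GL D.Idx K) ∈ D.borelSubgroup K := by
  apply mem_B_of_conj_orb T (θ g).2
  intro O hO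
  obtain ⟨x, hx, hx1, hne⟩ := exists_orb_elt T hO
  exact ⟨x, hx, hx1, hne, h.conj_U g
    (fun u hu => Cfsg.Agent.Lib.Helper36.conj_mem_U_of_mem_B X.hB hg hu) (Um_le_U _ hx) hx1⟩

theorem Std1.B {θ : ↥T.G1 ≃* ↥T.G1} (h : Std1 T θ) (g : ↥T.G1) :
    ((θ g : ↥T.G1) : GL D.Idx K) ∈ D.borelSubgroup K ↔ (g : GL D.Idx K) ∈ D.borelSubgroup K := by
  refine ⟨fun hg => ?_, h.B_of⟩
  have := h.symm.B_of hg
  rwa [MulEquiv.symm_apply_apply] at this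

theorem Std1.H_of (hopp : Opp T) {θ : ↥T.G1 ≃* ↥T.G1} (h : Std1 T θ) {g : ↥T.G1}
    (hg : (g : GL D.Idx K) ∈ D.diagonalSubgroup K) :
    ((θ g : ↥T.G1) : GL D.Idx K) ∈ D.diagonalSubgroup K := by
  apply mem_H_of_conj_orb hopp (θ g).2
  · intro O hO
    obtain ⟨x, hx, hx1, hne⟩ := exists_orb_elt T hO
    exact ⟨x, hx, hx1, hne, h.conj_U g (fun u hu => X.hB.H_conj_U hg hu) (Um_le_U _ hx) hx1⟩
  · intro O hO
    obtain ⟨x, hx, hx1, hne⟩ := exists_orb_elt T hO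
    exact ⟨x, hx, hx1, hne, h.conj_V g (fun u hu => X.hB.H_conj_V hg hu) (X.hB.conj_Um_mem_V hx)
      (mul_mem (mul_mem (T.sO_mem O hO) hx1) (inv_mem (T.sO_mem O hO)))⟩

theorem Std1.H (hopp : Opp T) {θ : ↥T.G1 ≃* ↥T.G1} (h : Std1 T θ) (g : ↥T.G1) :
    ((θ g : ↥T.G1) : GL D.Idx K) ∈ D.diagonalSubgroup K ↔ (g : GL D.Idx K) ∈ D.diagonalSubgroup K := by
  refine ⟨fun hg => ?_, h.H_of hopp⟩
  have := h.symm.H_of hopp hg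
  rwa [MulEquiv.symm_apply_apply] at this

/-- `θ(n₀) ∈ n₀ H`. -/
theorem Std1.n0 (hopp : Opp T) {θ : ↥T.G1 ≃* ↥T.G1} (h : Std1 T θ) :
    ∃ h0 ∈ D.diagonalSubgroup K,
      ((θ ⟨T.cn T.chain, T.cn_mem T.chain_mem⟩ : ↥T.G1) : GL D.Idx K) = T.cn T.chain * h0 := by
  set n0 : ↥T.G1 := ⟨T.cn T.chain, T.cn_mem T.chain_mem⟩ with hn0
  refine ⟨(T.cn T.chain)⁻¹ * ((θ n0 : ↥T.G1) : GL D.Idx K), ?_, by group⟩
  apply mem_H_of_conj_orb hopp (mul_mem (inv_mem n0.2) (θ n0).2)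
  · intro O hO
    obtain ⟨x, hx, hx1, hne⟩ := exists_orb_elt T hO
    refine ⟨x, hx, hx1, hne, ?_⟩
    have hx' : ((θ.symm ⟨x, hx1⟩ : ↥T.G1) : GL D.Idx K) ∈ D.posUnipotent K :=
      (h.symm.U _).mpr (Um_le_U _ hx)
    have h1 := conj_n0_U T hx'
    have h2 := (h.V (n0 * θ.symm ⟨x, hx1⟩ * n0⁻¹)).mpr h1
    have h3 : ((θ n0 : ↥T.G1) : GL D.Idx K) * x * ((θ n0 : ↥T.G1) : GL D.Idx K)⁻¹
        ∈ D.negUnipotent K := by simpa using h2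
    have h4 := FixB.conj_cn_V T h3
    have e : (T.cn T.chain)⁻¹ * ((θ n0 : ↥T.G1) : GL D.Idx K) * x *
        ((T.cn T.chain)⁻¹ * ((θ n0 : ↥T.G1) : GL D.Idx K))⁻¹
        = (T.cn T.chain)⁻¹ * (((θ n0 : ↥T.G1) : GL D.Idx K) * x *
          ((θ n0 : ↥T.G1) : GL D.Idx K)⁻¹) * T.cn T.chain := by group
    rw [e]
    exact h4
  · intro O hO
    obtain ⟨x, hx, hx1, hne⟩ := exists_orb_elt T hO
    refine ⟨x, hx, hx1, hne, ?_⟩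
    have hy1 : T.sO O * x * (T.sO O)⁻¹ ∈ T.G1 :=
      mul_mem (mul_mem (T.sO_mem O hO) hx1) (inv_mem (T.sO_mem O hO))
    have hx' : ((θ.symm ⟨_, hy1⟩ : ↥T.G1) : GL D.Idx K) ∈ D.negUnipotent K :=
      (h.symm.V _).mpr (X.hB.conj_Um_mem_V hx)
    have h1 := conj_n0_V T hx'
    have h2 := (h.U (n0 * θ.symm ⟨_, hy1⟩ * n0⁻¹)).mpr h1
    have h3 : ((θ n0 : ↥T.G1) : GL D.Idx K) * (T.sO O * x * (T.sO O)⁻¹) *
        ((θ n0 : ↥T.G1) : GL D.Idx K)⁻¹ ∈ D.posUnipotent K := by simpa using h2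
    have h4 := conj_n0_inv_U T h3
    have e : (T.cn T.chain)⁻¹ * ((θ n0 : ↥T.G1) : GL D.Idx K) * (T.sO O * x * (T.sO O)⁻¹) *
        ((T.cn T.chain)⁻¹ * ((θ n0 : ↥T.G1) : GL D.Idx K))⁻¹
        = (T.cn T.chain)⁻¹ * (((θ n0 : ↥T.G1) : GL D.Idx K) * (T.sO O * x * (T.sO O)⁻¹) *
          ((θ n0 : ↥T.G1) : GL D.Idx K)⁻¹) * T.cn T.chain := by group
    rw [e]
    exact h4

end Cfsg.Agent.Lib.Helper18.TwOut
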