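import Cfsg.Agent.Lib.Helper18.TwOut.A5

set_option autoImplicit false

namespace Cfsg.Agent.Lib.Helper18.TwOut

open Cfsg.Lie Matrix Cfsg.Agent.Lib.Helper6 Cfsg.Agent.Lib.Helper18 Cfsg.Agent.Lib.Lead.FixTwist

variable {D : ChevalleyDatum} {K : Type*} [Field K] {X : BNData D K} {T : FixBN X}

/-- `s_O ∉ B`. -/
theorem sO_not_mem_B (T : FixBN X) {O : List ℕ} (hO : O ∈ T.orbs) :
    T.sO O ∉ D.borelSubgroup K := by
  intro hs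
  obtain ⟨x, hx, hx1, hne⟩ := exists_orb_elt T hO
  have h1 := Cfsg.Agent.Lib.Helper36.conj_mem_U_of_mem_B X.hB hs (Um_le_U _ hx)
  have h2 : T.sO O * x * (T.sO O)⁻¹ ∈ D.posUnipotent K ⊓ D.negUnipotent K :=
    ⟨h1, X.hB.conj_Um_mem_V hx⟩
  rw [X.hB.U_inf_V X.hT.toTabs, Subgroup.mem_bot] at h2
  apply hne
  calc x = (T.sO O)⁻¹ * (T.sO O * x * (T.sO O)⁻¹) * T.sO O := by group
    _ = 1 := by rw [h2]; group

theorem Std1.exists_dc {θ : ↥T.G1 ≃* ↥T.G1} (h : Std1 T θ) {O : List ℕ} (hO : O ∈ T.orbs) :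
    ∃ O' ∈ T.orbs, ∀ g : ↥T.G1,
      (∃ b1 ∈ D.borelSubgroup K, ∃ b2 ∈ D.borelSubgroup K, b1 ∈ T.G1 ∧ b2 ∈ T.G1 ∧
        (g : GL D.Idx K) = b1 * T.sO O * b2) →
      ∃ b1 ∈ D.borelSubgroup K, ∃ b2 ∈ D.borelSubgroup K, b1 ∈ T.G1 ∧ b2 ∈ T.G1 ∧
        ((θ g : ↥T.G1) : GL D.Idx K) = b1 * T.sO O' * b2 := by
  set P := T.bnPair with hP
  have hPB : ∀ g : ↥T.G1, g ∈ P.B ↔ (g : GL D.Idx K) ∈ D.borelSubgroup K := fun g => T.mem_B1 g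
  have hθB : ∀ g : ↥T.G1, θ g ∈ P.B ↔ g ∈ P.B := fun g => by rw [hPB, hPB]; exact h.B g
  have hθB' : ∀ g : ↥T.G1, θ.symm g ∈ P.B ↔ g ∈ P.B := fun g => by
    rw [← hθB (θ.symm g), MulEquiv.apply_symm_apply]
  set s : ↥T.G1 := ⟨T.sO O, T.sO_mem O hO⟩ with hs
  have hsS : s ∈ P.S := ⟨O, hO, rfl⟩
  have hsN : s ∈ P.N := P.subset hsS
  have hsB : s ∉ P.B := fun hc => sO_not_mem_B T hO ((hPB s).1 hc)
  obtain ⟨M, hM⟩ := (Cfsg.Agent.S0321.result P hsN hsB).2 ⟨s, hsS, by rw [inv_mul_cancel]; exact one_mem _⟩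
  obtain ⟨n, hn, hθs⟩ := Cfsg.Agent.S0308.result P (θ s)
  rw [DoubleCoset.mem_doubleCoset] at hθs
  obtain ⟨c1, hc1, c2, hc2, e⟩ := hθs
  have hc1' : c1 ∈ P.B := hc1
  have hc2' : c2 ∈ P.B := hc2
  have hnB : n ∉ P.B := by
    intro hc
    apply hsB
    rw [← hθB, e]
    exact mul_mem (mul_mem hc1' hc) hc2'
  obtain ⟨s', hs'S, hs'⟩ := (Cfsg.Agent.S0321.result P hn hnB).1 ⟨M.map θ.toMonoidHom, by
    ext x
    have hx : x ∈ ((M.map θ.toMonoidHom : Subgroup ↥T.G1) : Set ↥T.G1) ↔ θ.symm x ∈ (M : Set ↥T.G1) := by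
      constructor
      · rintro ⟨y, hy, rfl⟩
        show θ.symm (θ y) ∈ _
        rw [MulEquiv.symm_apply_apply]
        exact hy
      · intro hy
        exact ⟨θ.symm x, hy, MulEquiv.apply_symm_apply θ x⟩
    rw [hx, hM, Set.mem_union, Set.mem_union, SetLike.mem_coe, SetLike.mem_coe, hθB',
      DoubleCoset.mem_doubleCoset, DoubleCoset.mem_doubleCoset]
    apply or_congr Iff.rfl
    constructor
    · rintro ⟨b1, hb1, b2, hb2, e1⟩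
      refine ⟨θ b1 * c1, mul_mem ((hθB b1).2 hb1) hc1', c2 * θ b2, mul_mem hc2' ((hθB b2).2 hb2), ?_⟩
      have : x = θ (b1 * s * b2) := by rw [← e1, MulEquiv.apply_symm_apply]
      rw [this, map_mul, map_mul, e]
      group
    · rintro ⟨d1, hd1, d2, hd2, e1⟩
      refine ⟨θ.symm (d1 * c1⁻¹), (hθB' _).2 (mul_mem hd1 (inv_mem hc1')),
        θ.symm (c2⁻¹ * d2), (hθB' _).2 (mul_mem (inv_mem hc2') hd2), ?_⟩
      have e2 : s = θ.symm (c1 * n * c2) := by rw [← e, MulEquiv.symm_apply_apply]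
      rw [e2, ← map_mul, ← map_mul, e1]
      congr 1
      group⟩
  obtain ⟨O', hO', e'⟩ := hs'S
  refine ⟨O', hO', ?_⟩
  rintro g ⟨b1, hb1, b2, hb2, g1, g2, eg⟩
  have eg' : g = (⟨b1, g1⟩ : ↥T.G1) * s * ⟨b2, g2⟩ := Subtype.ext eg
  have hB1 : θ ⟨b1, g1⟩ ∈ P.B := (hθB _).2 ((hPB _).2 hb1)
  have hB2 : θ ⟨b2, g2⟩ ∈ P.B := (hθB _).2 ((hPB _).2 hb2)
  refine ⟨((θ ⟨b1, g1⟩ * c1 : ↥T.G1) : GL D.Idx K), (hPB _).1 (mul_mem hB1 hc1'),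
    ((s'⁻¹ * n * c2 * θ ⟨b2, g2⟩ : ↥T.G1) : GL D.Idx K),
    (hPB _).1 (mul_mem (mul_mem hs' hc2') hB2), (θ ⟨b1, g1⟩ * c1 : ↥T.G1).2,
    (s'⁻¹ * n * c2 * θ ⟨b2, g2⟩ : ↥T.G1).2, ?_⟩
  rw [← e', ← Subgroup.coe_mul, ← Subgroup.coe_mul]
  congr 1
  rw [eg', map_mul, map_mul, e]
  group

end Cfsg.Agent.Lib.Helper18.TwOut
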