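import Cfsg.Agent.Lib.Helper18.TwOut.A5

set_option autoImplicit false

namespace Cfsg.Agent.Lib.Helper18.TwOut

open Cfsg.Lie Matrix Cfsg.Agent.Lib.Helper6 Cfsg.Agent.Lib.Helper18 Cfsg.Agent.Lib.Lead.FixTwist

variable {D : ChevalleyDatum} {K : Type*} [Field K] {X : BNData D K} {T : FixBN X}

theorem neg_mem_dc {O : List ℕ} (hO : O ∈ T.orbs) {u : GL D.Idx K} (hu : u ∈ Um D K (T.sO O))
    (hu1 : u ∈ T.G1) (hne : u ≠ 1) :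
    ∃ b1 ∈ D.borelSubgroup K, ∃ b2 ∈ D.borelSubgroup K, b1 ∈ T.G1 ∧ b2 ∈ T.G1 ∧
      T.sO O * u * (T.sO O)⁻¹ = b1 * T.sO O * b2 := by
  have hsN := T.sO_mem_N hO
  have hs1 := T.sO_mem O hO
  rcases T.main_axiom hO (inv_mem hsN) (inv_mem hs1) (Base.U_le_B (Um_le_U _ hu)) hu1 with
    ⟨b1, hb1, g1, b2, hb2, g2, e⟩ | ⟨b1, hb1, g1, b2, hb2, g2, e⟩
  · exfalso
    have h3 : T.sO O * u * (T.sO O)⁻¹ ∈ D.borelSubgroup K ⊓ D.negUnipotent K := by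
      refine ⟨?_, X.hB.conj_Um_mem_V hu⟩
      rw [e, mul_inv_cancel, mul_one]
      exact mul_mem hb1 hb2
    rw [X.hB.B_inf_V X.hT.toTabs, Subgroup.mem_bot] at h3
    apply hne
    calc u = (T.sO O)⁻¹ * (T.sO O * u * (T.sO O)⁻¹) * T.sO O := by group
      _ = 1 := by rw [h3]; group
  · refine ⟨b1, hb1, (T.sO O * T.sO O)⁻¹ * b2,
      mul_mem (inv_mem (Base.H_le_B (T.sO_sq_mem_H hO))) hb2, g1,
      mul_mem (inv_mem (mul_mem hs1 hs1)) g2, ?_⟩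
    rw [e]
    group

/-- an element of `B s B ∩ G¹` lies in `x s B` with `x ∈ X_O`. -/
theorem exists_form {O : List ℕ} (hO : O ∈ T.orbs) {v b1 b2 : GL D.Idx K}
    (h1 : b1 ∈ D.borelSubgroup K) (h2 : b2 ∈ D.borelSubgroup K)
    (g1 : b1 ∈ T.G1) (g2 : b2 ∈ T.G1) (e : v = b1 * T.sO O * b2) :
    ∃ x ∈ Um D K (T.sO O), x ∈ T.G1 ∧ ∃ b ∈ D.borelSubgroup K, v = x * T.sO O * b := by
  have hsN := T.sO_mem_N hO
  have hs1 := T.sO_mem O hO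
  have hv1 : v ∈ T.G1 := by rw [e]; exact mul_mem (mul_mem g1 hs1) g2
  obtain ⟨u₁, hu₁, gu₁, n, hn, gn, u₂, hu₂, gu₂, e2⟩ := T.nf_G1 (inv_mem hv1)
  have e3 : n = (u₁⁻¹ * b2⁻¹) * (T.sO O)⁻¹ * (b1⁻¹ * u₂⁻¹) := by
    calc n = u₁⁻¹ * (u₁ * n * u₂) * u₂⁻¹ := by group
      _ = u₁⁻¹ * v⁻¹ * u₂⁻¹ := by rw [e2]
      _ = _ := by rw [e]; group
  have hH := X.dc_unique (inv_mem hsN) hn
    (mul_mem (inv_mem (Base.U_le_B hu₁)) (inv_mem h2))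
    (mul_mem (inv_mem h1) (inv_mem (Base.U_le_B (Um_le_U _ hu₂)))) e3
  rw [inv_inv] at hH
  set h := T.sO O * n with hh
  have hn' : n = ((T.sO O)⁻¹ * h * T.sO O * (T.sO O * T.sO O)⁻¹) * T.sO O := by
    rw [hh]; group
  have hH1 : (T.sO O)⁻¹ * h * T.sO O ∈ D.diagonalSubgroup K := (X.hB.N_conj_H X.hT.tab hsN).2 h hH
  have hH2 : (T.sO O)⁻¹ * h * T.sO O * (T.sO O * T.sO O)⁻¹ ∈ D.diagonalSubgroup K :=
    mul_mem hH1 (inv_mem (T.sO_sq_mem_H hO))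
  rw [hn', X.hB.Um_H_mul hH2] at hu₂
  refine ⟨u₂⁻¹, inv_mem hu₂, inv_mem gu₂, ((T.sO O)⁻¹ * h * T.sO O)⁻¹ * u₁⁻¹,
    mul_mem (inv_mem (Base.H_le_B hH1)) (inv_mem (Base.U_le_B hu₁)), ?_⟩
  calc v = (v⁻¹)⁻¹ := by group
    _ = (u₁ * n * u₂)⁻¹ := by rw [e2]
    _ = u₂⁻¹ * T.sO O * (((T.sO O)⁻¹ * (T.sO O * n) * T.sO O)⁻¹ * u₁⁻¹) := by group

theorem form_ne_one {O : List ℕ} (hO : O ∈ T.orbs) {v b : GL D.Idx K}
    (hv : v ∈ D.negUnipotent K) (hb : b ∈ D.borelSubgroup K) : v ≠ 1 * T.sO O * b := by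
  intro e
  rw [one_mul] at e
  obtain ⟨u0, hu0, _, hne⟩ := exists_orb_elt T hO
  have h1 : v⁻¹ * (T.sO O * u0 * (T.sO O)⁻¹) * v ∈ D.negUnipotent K :=
    mul_mem (mul_mem (inv_mem hv) (X.hB.conj_Um_mem_V hu0)) hv
  have e1 : v⁻¹ * (T.sO O * u0 * (T.sO O)⁻¹) * v = b⁻¹ * u0 * b⁻¹⁻¹ := by rw [e]; group
  have h2 : b⁻¹ * u0 * b⁻¹⁻¹ ∈ D.posUnipotent K ⊓ D.negUnipotent K :=
    ⟨Cfsg.Agent.Lib.Helper36.conj_mem_U_of_mem_B X.hB (inv_mem hb) (Um_le_U _ hu0), e1 ▸ h1⟩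
  rw [X.hB.U_inf_V X.hT.toTabs, Subgroup.mem_bot] at h2
  apply hne
  calc u0 = b * (b⁻¹ * u0 * b⁻¹⁻¹) * b⁻¹ := by group
    _ = 1 := by rw [h2]; group

theorem form_inj (T : FixBN X) {v v' y b b' : GL D.Idx K} (hv : v ∈ D.negUnipotent K)
    (hv' : v' ∈ D.negUnipotent K) (hb : b ∈ D.borelSubgroup K) (hb' : b' ∈ D.borelSubgroup K)
    (e : v = y * b) (e' : v' = y * b') : v = v' := by
  have h1 : v⁻¹ * v' ∈ D.borelSubgroup K ⊓ D.negUnipotent K := by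
    refine ⟨?_, (D.negUnipotent K).mul_mem ((D.negUnipotent K).inv_mem hv) hv'⟩
    have : v⁻¹ * v' = b⁻¹ * b' := by rw [e, e']; group
    rw [this]
    exact (D.borelSubgroup K).mul_mem ((D.borelSubgroup K).inv_mem hb) hb'
  rw [X.hB.B_inf_V X.hT.toTabs, Subgroup.mem_bot] at h1
  exact inv_mul_eq_one.1 h1

theorem mem_negRoot_of_dc [Finite K] {O : List ℕ} (hO : O ∈ T.orbs) {v b1 b2 : GL D.Idx K}
    (hv : v ∈ D.negUnipotent K) (h1 : b1 ∈ D.borelSubgroup K) (h2 : b2 ∈ D.borelSubgroup K)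
    (g1 : b1 ∈ T.G1) (g2 : b2 ∈ T.G1) (e : v = b1 * T.sO O * b2) :
    ∃ u ∈ Um D K (T.sO O), u ∈ T.G1 ∧ v = T.sO O * u * (T.sO O)⁻¹ := by
  classical
  have key : ∀ u : {x : GL D.Idx K // x ∈ Um D K (T.sO O) ∧ x ∈ T.G1 ∧ x ≠ 1},
      ∃ x : {x : GL D.Idx K // x ∈ Um D K (T.sO O) ∧ x ∈ T.G1 ∧ x ≠ 1},
        ∃ b ∈ D.borelSubgroup K, T.sO O * (u : GL D.Idx K) * (T.sO O)⁻¹ = (x : GL D.Idx K) * T.sO O * b := by
    rintro ⟨u, hu, hu1, hne⟩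
    obtain ⟨c1, hc1, c2, hc2, k1, k2, e1⟩ := neg_mem_dc hO hu hu1 hne
    obtain ⟨x, hx, hx1, b, hb, e2⟩ := exists_form hO hc1 hc2 k1 k2 e1
    refine ⟨⟨x, hx, hx1, ?_⟩, b, hb, e2⟩
    rintro rfl
    exact form_ne_one hO (X.hB.conj_Um_mem_V hu) hb e2
  choose f hf using key
  have hfin : Finite (GL D.Idx K) := inferInstance
  have hinj : Function.Injective f := by
    intro u u' huu
    obtain ⟨b, hb, e1⟩ := hf u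
    obtain ⟨b', hb', e2⟩ := hf u'
    rw [← huu] at e2
    have h3 := form_inj T (X.hB.conj_Um_mem_V u.2.1) (X.hB.conj_Um_mem_V u'.2.1) hb hb' e1 e2
    apply Subtype.ext
    calc (u : GL D.Idx K) = (T.sO O)⁻¹ * (T.sO O * (u : GL D.Idx K) * (T.sO O)⁻¹) * T.sO O := by group
      _ = (T.sO O)⁻¹ * (T.sO O * (u' : GL D.Idx K) * (T.sO O)⁻¹) * T.sO O := by rw [h3]
      _ = u' := by group
  have hsurj : Function.Surjective f := Finite.injective_iff_surjective.1 hinj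
  obtain ⟨x, hx, hx1, b, hb, e2⟩ := exists_form hO h1 h2 g1 g2 e
  have hx0 : x ≠ 1 := by
    rintro rfl
    exact form_ne_one hO hv hb e2
  obtain ⟨u, hu⟩ := hsurj ⟨x, hx, hx1, hx0⟩
  obtain ⟨b', hb', e3⟩ := hf u
  rw [hu] at e3
  exact ⟨u, u.2.1, u.2.2.1, form_inj T hv (X.hB.conj_Um_mem_V u.2.1) hb hb' e2 e3⟩

end Cfsg.Agent.Lib.Helper18.TwOut
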