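import Cfsg.Agent.Lib.Helper18.TwOut.A6
import Cfsg.Agent.Lib.Helper18.TwOut.A7

set_option autoImplicit false

namespace Cfsg.Agent.Lib.Helper18.TwOut

open Cfsg.Lie Matrix Cfsg.Agent.Lib.Helper6 Cfsg.Agent.Lib.Helper18 Cfsg.Agent.Lib.Lead.FixTwist

variable {D : ChevalleyDatum} {K : Type*} [Field K] {X : BNData D K} {T : FixBN X}

theorem Std1.root [Finite K] (hopp : Opp T) {θ : ↥T.G1 ≃* ↥T.G1} (h : Std1 T θ) {O : List ℕ}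
    (hO : O ∈ T.orbs) : ∃ O' ∈ T.orbs,
    (∀ (u : GL D.Idx K) (hu : u ∈ T.G1), u ∈ Um D K (T.sO O) →
      ((θ ⟨u, hu⟩ : ↥T.G1) : GL D.Idx K) ∈ Um D K (T.sO O')) ∧
    (∀ (u : GL D.Idx K) (hu : u ∈ T.G1), (T.sO O)⁻¹ * u * T.sO O ∈ Um D K (T.sO O) →
      (T.sO O')⁻¹ * ((θ ⟨u, hu⟩ : ↥T.G1) : GL D.Idx K) * T.sO O' ∈ Um D K (T.sO O')) := by
  obtain ⟨O', hO', hdc⟩ := h.exists_dc hO
  have hs1 := T.sO_mem O hO
  have hneg : ∀ (u : GL D.Idx K) (hu : u ∈ T.G1), (T.sO O)⁻¹ * u * T.sO O ∈ Um D K (T.sO O) →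
      (T.sO O')⁻¹ * ((θ ⟨u, hu⟩ : ↥T.G1) : GL D.Idx K) * T.sO O' ∈ Um D K (T.sO O') := by
    intro u hu hu0
    by_cases h1 : (T.sO O)⁻¹ * u * T.sO O = 1
    · have hu1 : u = 1 := by
        calc u = T.sO O * ((T.sO O)⁻¹ * u * T.sO O) * (T.sO O)⁻¹ := by group
          _ = 1 := by rw [h1]; group
      have : (⟨u, hu⟩ : ↥T.G1) = 1 := Subtype.ext hu1
      rw [this, map_one]
      simp
    · have hu0G : (T.sO O)⁻¹ * u * T.sO O ∈ T.G1 := mul_mem (mul_mem (inv_mem hs1) hu) hs1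
      have eu : T.sO O * ((T.sO O)⁻¹ * u * T.sO O) * (T.sO O)⁻¹ = u := by group
      obtain ⟨b1, hb1, b2, hb2, g1, g2, e⟩ := neg_mem_dc hO hu0 hu0G h1
      rw [eu] at e
      obtain ⟨c1, hc1, c2, hc2, k1, k2, e2⟩ := hdc ⟨u, hu⟩ ⟨b1, hb1, b2, hb2, g1, g2, e⟩
      have huV : u ∈ D.negUnipotent K := eu ▸ X.hB.conj_Um_mem_V hu0
      have hθV : ((θ ⟨u, hu⟩ : ↥T.G1) : GL D.Idx K) ∈ D.negUnipotent K := (h.V ⟨u, hu⟩).2 huV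
      obtain ⟨u'', hu'', _, e3⟩ := mem_negRoot_of_dc hO' hθV hc1 hc2 k1 k2 e2
      rw [e3]
      have : (T.sO O')⁻¹ * (T.sO O' * u'' * (T.sO O')⁻¹) * T.sO O' = u'' := by group
      rw [this]
      exact hu''
  refine ⟨O', hO', ?_, hneg⟩
  intro u hu huU
  obtain ⟨u', hu', e⟩ := exists_conj_n0 hopp hO huU
  have hn1 := T.cn_mem T.chain_mem
  obtain ⟨h0, hh0, e0⟩ := h.n0 hopp
  set n0 : ↥T.G1 := ⟨T.cn T.chain, hn1⟩ with hn0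
  have hy : T.sO O * u' * (T.sO O)⁻¹ ∈ T.G1 := by
    have : T.sO O * u' * (T.sO O)⁻¹ = (T.cn T.chain)⁻¹ * u * T.cn T.chain := by rw [e]; group
    rw [this]
    exact mul_mem (mul_mem (inv_mem hn1) hu) hn1
  have h2 := hneg _ hy (by
    have : (T.sO O)⁻¹ * (T.sO O * u' * (T.sO O)⁻¹) * T.sO O = u' := by group
    rw [this]; exact hu')
  set w := (T.sO O')⁻¹ * ((θ ⟨_, hy⟩ : ↥T.G1) : GL D.Idx K) * T.sO O' with hw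
  have eθ : (⟨u, hu⟩ : ↥T.G1) = n0 * ⟨_, hy⟩ * n0⁻¹ := Subtype.ext e
  have hH : (T.sO O')⁻¹ * h0 * T.sO O' ∈ D.diagonalSubgroup K :=
    (X.hB.N_conj_H X.hT.tab (T.sO_mem_N hO')).2 h0 hh0
  have h3 := X.hB.H_conj_Um hH h2
  have h4 := conj_n0_neg hopp hO' h3
  have e4 : ((θ ⟨u, hu⟩ : ↥T.G1) : GL D.Idx K) = T.cn T.chain * (T.sO O' *
      ((T.sO O')⁻¹ * h0 * T.sO O' * w * ((T.sO O')⁻¹ * h0 * T.sO O')⁻¹) * (T.sO O')⁻¹) *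
      (T.cn T.chain)⁻¹ := by
    rw [eθ, map_mul, map_mul, map_inv, Subgroup.coe_mul, Subgroup.coe_mul, Subgroup.coe_inv, e0, hw]
    group
  rw [e4]
  exact h4

end Cfsg.Agent.Lib.Helper18.TwOut
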