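import Cfsg.Agent.Lib.Helper18.TwOut.A8

set_option autoImplicit false

/-! # Standard automorphisms fixing a root subgroup pointwise -/

namespace Cfsg.Agent.Lib.Helper18.TwOut

open Cfsg.Lie Matrix Cfsg.Agent.Lib.Helper6 Cfsg.Agent.Lib.Helper18 Cfsg.Agent.Lib.Lead.FixTwist

variable {D : ChevalleyDatum} {K : Type*} [Field K] {X : BNData D K} {T : FixBN X}

theorem Std1.trans {θ θ' : ↥T.G1 ≃* ↥T.G1} (h : Std1 T θ) (h' : Std1 T θ') : Std1 T (θ.trans θ') :=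
  ⟨fun g => by rw [MulEquiv.trans_apply, h'.U, h.U], fun g => by rw [MulEquiv.trans_apply, h'.V, h.V]⟩

theorem std1_conj {g : ↥T.G1} (hg : (g : GL D.Idx K) ∈ D.diagonalSubgroup K) : Std1 T (MulAut.conj g) := by
  constructor
  · intro x
    rw [MulAut.conj_apply]
    constructor
    · intro h
      have := X.hB.H_conj_U (inv_mem hg) h
      simp only [Subgroup.coe_mul, Subgroup.coe_inv] at this
      have e : (g : GL D.Idx K)⁻¹ * ((g : GL D.Idx K) * x * (g : GL D.Idx K)⁻¹) * (g : GL D.Idx K)⁻¹⁻¹ = x := by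
        group
      rwa [e] at this
    · intro h
      exact X.hB.H_conj_U hg h
  · intro x
    rw [MulAut.conj_apply]
    constructor
    · intro h
      have := X.hB.H_conj_V (inv_mem hg) h
      simp only [Subgroup.coe_mul, Subgroup.coe_inv] at this
      have e : (g : GL D.Idx K)⁻¹ * ((g : GL D.Idx K) * x * (g : GL D.Idx K)⁻¹) * (g : GL D.Idx K)⁻¹⁻¹ = x := by
        group
      rwa [e] at this
    · intro h
      exact X.hB.H_conj_V hg h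

theorem mem_H_of_std1_conj (hopp : Opp T) {g : ↥T.G1} (h : Std1 T (MulAut.conj g)) :
    (g : GL D.Idx K) ∈ D.diagonalSubgroup K := by
  apply mem_H_of_conj_orb hopp g.2
  · intro O hO
    obtain ⟨x, hx, hx1, hne⟩ := exists_orb_elt T hO
    exact ⟨x, hx, hx1, hne, (h.U ⟨x, hx1⟩).mpr (Um_le_U _ hx)⟩
  · intro O hO
    obtain ⟨x, hx, hx1, hne⟩ := exists_orb_elt T hO
    have hs1 := T.sO_mem O hO
    exact ⟨x, hx, hx1, hne, (h.V ⟨T.sO O * x * (T.sO O)⁻¹, mul_mem (mul_mem hs1 hx1) (inv_mem hs1)⟩).mpr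
      (X.hB.conj_Um_mem_V hx)⟩

/-- `θ(s_O) ∈ s_O B` if `θ` fixes `X_O` pointwise and stabilises `Y_O`. -/
theorem Std1.sO_mem [Finite K] {θ : ↥T.G1 ≃* ↥T.G1} (h : Std1 T θ) {O : List ℕ} (hO : O ∈ T.orbs)
    (hfix : ∀ (u : GL D.Idx K) (hu : u ∈ T.G1), u ∈ Um D K (T.sO O) → θ ⟨u, hu⟩ = ⟨u, hu⟩)
    (hneg : ∀ (u : GL D.Idx K) (hu : u ∈ T.G1), (T.sO O)⁻¹ * u * T.sO O ∈ Um D K (T.sO O) →
      (T.sO O)⁻¹ * ((θ ⟨u, hu⟩ : ↥T.G1) : GL D.Idx K) * T.sO O ∈ Um D K (T.sO O)) :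
    ∃ b ∈ D.borelSubgroup K, ((θ ⟨T.sO O, T.sO_mem O hO⟩ : ↥T.G1) : GL D.Idx K) = T.sO O * b := by
  have hsN := T.sO_mem_N hO
  have hs1 := T.sO_mem O hO
  obtain ⟨x0, hx0, hx01, hne0⟩ := exists_orb_elt T hO
  have hy01 : (T.sO O) * x0 * (T.sO O)⁻¹ ∈ T.G1 := mul_mem (mul_mem hs1 hx01) (inv_mem hs1)
  obtain ⟨b1, hb1, b2, hb2, g1, g2, e⟩ := neg_mem_dc hO hx0 hx01 hne0
  set θs : ↥T.G1 := θ ⟨(T.sO O), hs1⟩ with hθs
  set θy : ↥T.G1 := θ ⟨(T.sO O) * x0 * (T.sO O)⁻¹, hy01⟩ with hθy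
  -- `θ y₀ = θ((T.sO O)) x₀ θ((T.sO O))⁻¹`
  have eθy : θy = θs * ⟨x0, hx01⟩ * θs⁻¹ := by
    have : (⟨(T.sO O) * x0 * (T.sO O)⁻¹, hy01⟩ : ↥T.G1) = ⟨(T.sO O), hs1⟩ * ⟨x0, hx01⟩ * ⟨(T.sO O), hs1⟩⁻¹ := rfl
    rw [hθy, this, map_mul, map_mul, map_inv, hfix x0 hx01 hx0]
  have hx0' : (T.sO O)⁻¹ * (θy : GL D.Idx K) * (T.sO O) ∈ Um D K (T.sO O) :=
    hneg _ hy01 (by
      have : (T.sO O)⁻¹ * ((T.sO O) * x0 * (T.sO O)⁻¹) * (T.sO O) = x0 := by group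
      rw [this]; exact hx0)
  have hx0'1 : (T.sO O)⁻¹ * (θy : GL D.Idx K) * (T.sO O) ∈ T.G1 := mul_mem (mul_mem (inv_mem hs1) θy.2) hs1
  have hx0'ne : (T.sO O)⁻¹ * (θy : GL D.Idx K) * (T.sO O) ≠ 1 := by
    intro e1
    have e2 : (θy : GL D.Idx K) = 1 := by
      calc (θy : GL D.Idx K) = (T.sO O) * ((T.sO O)⁻¹ * (θy : GL D.Idx K) * (T.sO O)) * (T.sO O)⁻¹ := by group
        _ = 1 := by rw [e1]; group
    have e3 : θy = 1 := Subtype.ext e2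
    have e4 : (⟨(T.sO O) * x0 * (T.sO O)⁻¹, hy01⟩ : ↥T.G1) = 1 := θ.injective (e3.trans (map_one θ).symm)
    have e5 : (T.sO O) * x0 * (T.sO O)⁻¹ = 1 := congrArg Subtype.val e4
    apply hne0
    calc x0 = (T.sO O)⁻¹ * ((T.sO O) * x0 * (T.sO O)⁻¹) * (T.sO O) := by group
      _ = 1 := by rw [e5]; group
  obtain ⟨c1, hc1, c2, hc2, k1, k2, e'⟩ := neg_mem_dc hO hx0' hx0'1 hx0'ne
  have e'' : (θy : GL D.Idx K) = c1 * (T.sO O) * c2 := by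
    rw [← e']; group
  -- `θ((T.sO O)) ∈ B (T.sO O) B`
  have es : (⟨(T.sO O), hs1⟩ : ↥T.G1) = ⟨b1, g1⟩⁻¹ * ⟨(T.sO O) * x0 * (T.sO O)⁻¹, hy01⟩ * ⟨b2, g2⟩⁻¹ := by
    apply Subtype.ext
    show (T.sO O) = b1⁻¹ * ((T.sO O) * x0 * (T.sO O)⁻¹) * b2⁻¹
    rw [e]; group
  have hθb1 : ((θ ⟨b1, g1⟩ : ↥T.G1) : GL D.Idx K) ∈ D.borelSubgroup K := (h.B _).mpr hb1
  have hθb2 : ((θ ⟨b2, g2⟩ : ↥T.G1) : GL D.Idx K) ∈ D.borelSubgroup K := (h.B _).mpr hb2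
  have eθs : (θs : GL D.Idx K) = (((θ ⟨b1, g1⟩ : ↥T.G1) : GL D.Idx K)⁻¹ * c1) * (T.sO O) *
      (c2 * ((θ ⟨b2, g2⟩ : ↥T.G1) : GL D.Idx K)⁻¹) := by
    rw [hθs, es, map_mul, map_mul, map_inv, map_inv]
    simp only [Subgroup.coe_mul, Subgroup.coe_inv]
    rw [← hθy, e'']
    group
  obtain ⟨x, hx, hx1, b, hb, ex⟩ := exists_form hO
    (mul_mem (inv_mem hθb1) hc1) (mul_mem hc2 (inv_mem hθb2))
    (mul_mem (inv_mem (θ _).2) k1) (mul_mem k2 (inv_mem (θ _).2)) eθs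
  by_cases hx1' : x = 1
  · exact ⟨b, hb, by rw [ex, hx1', one_mul]⟩
  · exfalso
    obtain ⟨d1, hd1, d2, hd2, l1, l2, ed⟩ := neg_mem_dc hO hx hx1 hx1'
    have hsq : (T.sO O) * (T.sO O) ∈ D.diagonalSubgroup K := T.sO_sq_mem_H hO
    set g := (T.sO O)⁻¹ * (θs : GL D.Idx K) with hg
    have hg1 : g ∈ T.G1 := mul_mem (inv_mem hs1) θs.2
    have eg : g = (((T.sO O) * (T.sO O))⁻¹ * d1) * (T.sO O) * (d2 * ((T.sO O) * (T.sO O)) * b) := by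
      have : g = ((T.sO O) * (T.sO O))⁻¹ * ((T.sO O) * x * (T.sO O)⁻¹) * ((T.sO O) * (T.sO O)) * b := by rw [hg, ex]; group
      rw [this, ed]; group
    -- `g x₀ g⁻¹ ∈ U`
    have hc : g * x0 * g⁻¹ ∈ D.posUnipotent K := by
      have : g * x0 * g⁻¹ = (T.sO O)⁻¹ * (θy : GL D.Idx K) * (T.sO O) := by
        rw [eθy, hg]
        simp only [Subgroup.coe_mul, Subgroup.coe_inv]
        group
      rw [this]
      exact Um_le_U _ hx0'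
    obtain ⟨u₁, h1, gu1, n, hn, gn, u₂, h2, gu2, enf⟩ := T.nf_G1 hg1
    have e3 : n = (u₁⁻¹ * (((T.sO O) * (T.sO O))⁻¹ * d1)) * (T.sO O) * ((d2 * ((T.sO O) * (T.sO O)) * b) * u₂⁻¹) := by
      calc n = u₁⁻¹ * (u₁ * n * u₂) * u₂⁻¹ := by group
        _ = u₁⁻¹ * g * u₂⁻¹ := by rw [enf]
        _ = _ := by rw [eg]; group
    have hH := X.dc_unique hsN hn
      (mul_mem (inv_mem (Base.U_le_B h1)) (mul_mem (inv_mem (Base.H_le_B hsq)) hd1))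
      (mul_mem (mul_mem (mul_mem hd2 (Base.H_le_B hsq)) hb) (inv_mem (Base.U_le_B (Um_le_U _ h2)))) e3
    have hH1 : (T.sO O) * ((T.sO O)⁻¹ * n) * (T.sO O)⁻¹ ∈ D.diagonalSubgroup K := (X.hB.N_conj_H X.hT.tab hsN).1 _ hH
    have hn' : n = ((T.sO O) * ((T.sO O)⁻¹ * n) * (T.sO O)⁻¹) * (T.sO O) := by group
    have hx0n : x0 ∈ Um D K n := by
      rw [hn', X.hB.Um_H_mul hH1]; exact hx0
    have e4 : u₁ * n * (u₂ * x0) = ((g * x0 * g⁻¹) * u₁) * n * u₂ := by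
      rw [enf]; group
    have := (X.nf_unique h1 (mul_mem hc h1) hn hn (mul_mem h2 hx0n) h2 e4).2.2
    exact hne0 (mul_eq_left.mp this)

/-- `θ` fixes `Y_O` pointwise if it fixes `X_O` pointwise and stabilises `Y_O`. -/
theorem Std1.fix_neg [Finite K] {θ : ↥T.G1 ≃* ↥T.G1} (h : Std1 T θ) {O : List ℕ} (hO : O ∈ T.orbs)
    (hfix : ∀ (u : GL D.Idx K) (hu : u ∈ T.G1), u ∈ Um D K (T.sO O) → θ ⟨u, hu⟩ = ⟨u, hu⟩)
    (hneg : ∀ (u : GL D.Idx K) (hu : u ∈ T.G1), (T.sO O)⁻¹ * u * T.sO O ∈ Um D K (T.sO O) →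
      (T.sO O)⁻¹ * ((θ ⟨u, hu⟩ : ↥T.G1) : GL D.Idx K) * T.sO O ∈ Um D K (T.sO O)) :
    ∀ (u : GL D.Idx K) (hu : u ∈ T.G1), (T.sO O)⁻¹ * u * T.sO O ∈ Um D K (T.sO O) → θ ⟨u, hu⟩ = ⟨u, hu⟩ := by
  intro y hy hy'
  obtain ⟨b, hb, eb⟩ := h.sO_mem hO hfix hneg
  have hs1 := T.sO_mem O hO
  by_cases hy1 : (T.sO O)⁻¹ * y * (T.sO O) = 1
  · have e1 : y = 1 := by
      calc y = (T.sO O) * ((T.sO O)⁻¹ * y * (T.sO O)) * (T.sO O)⁻¹ := by group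
        _ = 1 := by rw [hy1]; group
    have : (⟨y, hy⟩ : ↥T.G1) = 1 := Subtype.ext e1
    rw [this, map_one]
  · have hu01 : (T.sO O)⁻¹ * y * (T.sO O) ∈ T.G1 := mul_mem (mul_mem (inv_mem hs1) hy) hs1
    obtain ⟨b1, hb1, b2, hb2, g1, g2, e⟩ := neg_mem_dc hO hy' hu01 hy1
    have ey : (T.sO O) * ((T.sO O)⁻¹ * y * (T.sO O)) * (T.sO O)⁻¹ = y := by group
    rw [ey] at e
    obtain ⟨x, hx, hx1, b', hb', ex⟩ := exists_form hO hb1 hb2 g1 g2 e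
    have hb'1 : b' ∈ T.G1 := by
      have : b' = (T.sO O)⁻¹ * x⁻¹ * y := by rw [ex]; group
      rw [this]
      exact mul_mem (mul_mem (inv_mem hs1) (inv_mem hx1)) hy
    have hyV : y ∈ D.negUnipotent K := ey ▸ X.hB.conj_Um_mem_V hy'
    have hθV : ((θ ⟨y, hy⟩ : ↥T.G1) : GL D.Idx K) ∈ D.negUnipotent K := (h.V ⟨y, hy⟩).mpr hyV
    have hθb' : ((θ ⟨b', hb'1⟩ : ↥T.G1) : GL D.Idx K) ∈ D.borelSubgroup K := (h.B _).mpr hb'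
    have e1 : (⟨y, hy⟩ : ↥T.G1) = ⟨x, hx1⟩ * ⟨(T.sO O), hs1⟩ * ⟨b', hb'1⟩ := Subtype.ext ex
    have e2 : ((θ ⟨y, hy⟩ : ↥T.G1) : GL D.Idx K) = (x * (T.sO O)) * (b * ((θ ⟨b', hb'1⟩ : ↥T.G1) : GL D.Idx K)) := by
      rw [e1, map_mul, map_mul, hfix x hx1 hx]
      simp only [Subgroup.coe_mul]
      rw [eb]
      group
    have := form_inj T hyV hθV hb' (mul_mem hb hθb') ex e2
    exact Subtype.ext this.symm

end Cfsg.Agent.Lib.Helper18.TwOut
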