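import Cfsg.Agent.Lib.Helper18.FixH
import Cfsg.Agent.Lib.Helper36.ChevAut4
import Cfsg.Agent.S0308
import Cfsg.Agent.S0309
import Cfsg.Agent.S0321

set_option autoImplicit false

/-!
# Automorphisms of twisted groups: definitions for the (B,N)-pair layer
-/

namespace Cfsg.Agent.Lib.Helper18.TwOut

open Cfsg.Lie Matrix Cfsg.Agent.Lib.Helper6 Cfsg.Agent.Lib.Helper18 Cfsg.Agent.Lib.Lead.FixTwist

variable {D : ChevalleyDatum} {K : Type*} [Field K] {X : BNData D K}

/-- an automorphism stabilising `U¹` and `V¹`. -/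
structure Std1 (T : FixBN X) (θ : ↥T.G1 ≃* ↥T.G1) : Prop where
  U : ∀ g : ↥T.G1, ((θ g : ↥T.G1) : GL D.Idx K) ∈ D.posUnipotent K ↔ (g : GL D.Idx K) ∈ D.posUnipotent K
  V : ∀ g : ↥T.G1, ((θ g : ↥T.G1) : GL D.Idx K) ∈ D.negUnipotent K ↔ (g : GL D.Idx K) ∈ D.negUnipotent K

/-- the longest element induces the trivial permutation of the orbits: `w₀ w_O` stabilises the set of the positive roots
made negative by `w_O`. -/
def Opp (T : FixBN X) : Prop := ∀ O ∈ T.orbs, ∀ r, D.IsPosRoot r → D.IsNegRoot (wAct D O r) →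
  D.IsPosRoot (wAct D (cw T.chain) (wAct D O r)) ∧
    D.IsNegRoot (wAct D O (wAct D (cw T.chain) (wAct D O r)))

end Cfsg.Agent.Lib.Helper18.TwOut
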