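import Cfsg.Agent.Lib.Helper18.TwOut.C3

set_option autoImplicit false

/-! # Field automorphisms of the twisted groups -/

namespace Cfsg.Agent.Lib.Helper18.TwOut

open Cfsg.Lie Matrix Cfsg.Agent.Lib.Helper6 Cfsg.Agent.Lib.Helper18 Cfsg.Agent.Lib.Lead.FixTwist
open Cfsg.Agent.Lib.Helper36

variable {D : ChevalleyDatum} {K : Type*} [Field K] {X : BNData D K}

theorem GLm_yl (hB : Base D K) (σ : K →+* K) (R : ℕ → ℕ) (O : List ℕ) (g : ℕ → K) :
    GLm σ D (hB.yl R O g) = hB.yl R O (fun j => σ (g j)) := by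
  induction O with
  | nil => simp
  | cons a O ih => rw [hB.yl_cons, hB.yl_cons, map_mul, ih, GLm_xg σ hB hB]

namespace OD

variable {T : CommData X} {ι : Type*} (S : OD T ι)

include S in
theorem comm_f (σ : K ≃+* K) (t : K) : T.f (σ t) = σ (T.f t) := by
  rw [S.hf, S.hf, map_pow]

include S in
theorem comm_iter (σ : K ≃+* K) (n : ℕ) (t : K) : T.f^[n] (σ t) = σ (T.f^[n] t) := by
  induction n with
  | zero => rfl
  | succ n ih => rw [Function.iterate_succ_apply', Function.iterate_succ_apply', ih, S.comm_f]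

theorem k_stable : ∀ σ : K ≃+* K, ∀ i, ∀ t ∈ S.k i, σ t ∈ S.k i := by
  intro σ i t ht
  show T.f^[(S.o i).length] (σ t) = σ t
  rw [S.comm_iter, show T.f^[(S.o i).length] t = t from ht]

include S in
theorem GLm_mem_G1 (σ : K ≃+* K) {g : GL D.Idx K} (hg : g ∈ T.G1) :
    GLm (σ : K →+* K) D g ∈ T.G1 := by
  have : T.G1 ≤ T.G1.comap (GLm (σ : K →+* K) D) := by
    unfold CommData.G1
    rw [Subgroup.closure_le]
    rintro g ⟨O, hO, t, ht, hg⟩
    have hc : T.Compat O (fun j => σ (t j)) := by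
      intro j hj
      show σ (t (T.ρ j)) = T.f (σ (t j))
      rw [ht j hj, S.comm_f]
    show GLm (σ : K →+* K) D g ∈ Subgroup.closure T.genSet
    apply Subgroup.subset_closure
    rcases hg with rfl | rfl
    · exact ⟨O, hO, _, hc, Or.inl (GLm_yl X.hB _ _ _ _)⟩
    · exact ⟨O, hO, _, hc, Or.inr (GLm_yl X.hB _ _ _ _)⟩
  exact this hg

/-- the field automorphism of the twisted group. -/
noncomputable def fieldEquiv1 (σ : K ≃+* K) : ↥T.G1 ≃* ↥T.G1 where
  toFun g := ⟨GLm (σ : K →+* K) D g, S.GLm_mem_G1 σ g.2⟩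
  invFun g := ⟨GLm (σ.symm : K →+* K) D g, S.GLm_mem_G1 σ.symm g.2⟩
  left_inv g := by
    apply Subtype.ext
    apply Units.ext
    ext i j
    simp [coe_GLm]
  right_inv g := by
    apply Subtype.ext
    apply Units.ext
    ext i j
    simp [coe_GLm]
  map_mul' a b := by
    apply Subtype.ext
    simp

theorem fieldAut : ∀ σ : K ≃+* K, ∃ φ : ↥T.G1 ≃* ↥T.G1, ∀ i, ∀ t ∈ S.k i,
    φ (S.x i t) = S.x i (σ t) ∧ φ (S.y i t) = S.y i (σ t) := by
  intro σ
  refine ⟨S.fieldEquiv1 σ, fun i t ht => ⟨Subtype.ext ?_, Subtype.ext ?_⟩⟩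
  · show GLm (σ : K →+* K) D (S.x i t : GL D.Idx K) = _
    rw [S.coe_x i ht, S.coe_x i (S.k_stable σ i t ht), GLm_yl]
    exact X.hB.yl_congr (fun j _ => (S.comm_iter σ _ t).symm)
  · show GLm (σ : K →+* K) D (S.y i t : GL D.Idx K) = _
    rw [S.coe_y i ht, S.coe_y i (S.k_stable σ i t ht), GLm_yl]
    exact X.hB.yl_congr (fun j _ => (S.comm_iter σ _ t).symm)

end OD

end Cfsg.Agent.Lib.Helper18.TwOut
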