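import Cfsg.Agent.Lib.Helper18.TwOut.C4

set_option autoImplicit false

/-! # Diagonal automorphisms of a twisted group -/

namespace Cfsg.Agent.Lib.Helper18.TwOut

open Cfsg.Lie Matrix Cfsg.Agent.Lib.Helper6 Cfsg.Agent.Lib.Helper18 Cfsg.Agent.Lib.Lead.FixTwist

variable {D : ChevalleyDatum} {K : Type*} [Field K] {X : BNData D K}

theorem conj_yl_of (hB : Base D K) (P : GL D.Idx K) (R : ℕ → ℕ) (a : ℕ → K) (O : List ℕ)
    (h : ∀ j ∈ O, ∀ t : K, P * hB.xg (R j) t * P⁻¹ = hB.xg (R j) (a j * t)) (g : ℕ → K) :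
    P * hB.yl R O g * P⁻¹ = hB.yl R O (fun j => a j * g j) := by
  induction O with
  | nil => simp
  | cons b O ih =>
    rw [Base.yl_cons, Base.yl_cons, ← ih (fun j hj => h j (by simp [hj])), ← h b (by simp)]
    group

namespace OD

variable {T : CommData X} {ι : Type*} (S : OD T ι)

theorem conj_mem_G1 (P : GL D.Idx K) (β : ι → K) (hβ : ∀ i, β i ∈ S.k i)
    (h1 : ∀ i, ∀ j ∈ S.o i, ∀ t : K,
      P * X.hB.xg (D.simple j) t * P⁻¹ = X.hB.xg (D.simple j) (S.pr i (β i) j * t))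
    (h2 : ∀ i, ∀ j ∈ S.o i, ∀ t : K,
      P * X.hB.xg (CommData.nsimple D j) t * P⁻¹ = X.hB.xg (CommData.nsimple D j) (S.pr i (β i)⁻¹ j * t)) :
    ∀ g ∈ T.G1, P * g * P⁻¹ ∈ T.G1 := by
  apply Helper36.conj_mem_closure
  rintro g ⟨O, hO, t, ht, hg⟩
  obtain ⟨i, rfl⟩ := S.o_surj O hO
  rcases hg with rfl | rfl
  · refine ⟨S.o i, hO, fun j => S.pr i (β i) j * t j, ?_, Or.inl ?_⟩
    · intro j hj
      show S.pr i (β i) (T.ρ j) * t (T.ρ j) = T.f (S.pr i (β i) j * t j)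
      rw [map_mul, ← ht j hj, ← S.compat_pr i (hβ i) j hj]
    · exact conj_yl_of X.hB P _ _ _ (h1 i) t
  · refine ⟨S.o i, hO, fun j => S.pr i (β i)⁻¹ j * t j, ?_, Or.inr ?_⟩
    · intro j hj
      show S.pr i (β i)⁻¹ (T.ρ j) * t (T.ρ j) = T.f (S.pr i (β i)⁻¹ j * t j)
      rw [map_mul, ← ht j hj, ← S.compat_pr i (inv_mem (hβ i)) j hj]
    · exact conj_yl_of X.hB P _ _ _ (h2 i) t

theorem diagAut (hD : D ∈ [chevG2, chevB2, chevD4, chevF4, chevE6, chevE7, chevE8]) :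
    ∀ α : ι → K, (∀ i, α i ∈ S.k i ∧ α i ≠ 0) → ∃ δ : ↥T.G1 ≃* ↥T.G1, ∀ i, ∀ t ∈ S.k i,
      δ (S.x i t) = S.x i (α i * t) ∧ δ (S.y i t) = S.y i ((α i)⁻¹ * t) := by
  intro α hα
  have hT := X.hT.tab
  have hex : ∀ j : Fin D.rank, ∃ i, (j : ℕ) ∈ S.o i := by
    intro j
    obtain ⟨O, hO, hj⟩ := T.cover j j.2
    obtain ⟨i, rfl⟩ := S.o_surj O hO
    exact ⟨i, hj⟩
  choose ix hix using hex
  obtain ⟨χ, hχ, hc⟩ := Helper36.exists_rootChar (F := K) hD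
    (fun j => Units.mk0 (S.pr (ix j) (α (ix j)) j) (S.pr_ne_zero _ (hα _).2 _))
  have hs : ∀ i, ∀ j ∈ S.o i, ((χ (D.simple j) : Kˣ) : K) = S.pr i (α i) j := by
    intro i j hj
    have hj' : j < D.rank := (S.orth i).lt j hj
    have e := hc ⟨j, hj'⟩
    have e2 : ix ⟨j, hj'⟩ = i := S.disj _ _ j (hix ⟨j, hj'⟩) hj
    have e3 : χ (D.simple j) = Units.mk0 (S.pr (ix ⟨j, hj'⟩) (α (ix ⟨j, hj'⟩)) j)
      (S.pr_ne_zero _ (hα _).2 _) := e
    rw [e3, Units.val_mk0, e2]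
  have hlt : ∀ i, ∀ j ∈ S.o i, D.simple j < D.nroots :=
    fun i j hj => hT.simple_lt _ ((S.orth i).lt j hj)
  have hltn : ∀ i, ∀ j ∈ S.o i, CommData.nsimple D j < D.nroots :=
    fun i => nsimple_lt hT (S.orth i)
  have hn : ∀ i, ∀ j ∈ S.o i, ((χ (CommData.nsimple D j) : Kˣ) : K) = S.pr i (α i)⁻¹ j := by
    intro i j hj
    show ((χ (D.neg (D.simple j)) : Kˣ) : K) = _
    rw [hχ.1 _ (hlt i j hj), Units.val_inv_eq_inv_val, hs i j hj, S.pr_inv]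
  have A1 : ∀ i, ∀ j ∈ S.o i, ∀ t : K, Helper36.charGL D χ * X.hB.xg (D.simple j) t * (Helper36.charGL D χ)⁻¹ =
      X.hB.xg (D.simple j) (S.pr i (α i) j * t) := by
    intro i j hj t
    rw [Helper36.charGL_conj hD X.hB hχ (hlt i j hj), hs i j hj]
  have A2 : ∀ i, ∀ j ∈ S.o i, ∀ t : K,
      Helper36.charGL D χ * X.hB.xg (CommData.nsimple D j) t * (Helper36.charGL D χ)⁻¹ =
      X.hB.xg (CommData.nsimple D j) (S.pr i (α i)⁻¹ j * t) := by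
    intro i j hj t
    rw [Helper36.charGL_conj hD X.hB hχ (hltn i j hj), hn i j hj]
  have B1 : ∀ i, ∀ j ∈ S.o i, ∀ t : K,
      (Helper36.charGL D χ)⁻¹ * X.hB.xg (D.simple j) t * ((Helper36.charGL D χ)⁻¹)⁻¹ =
      X.hB.xg (D.simple j) (S.pr i (α i)⁻¹ j * t) := by
    intro i j hj t
    rw [inv_inv, Helper36.charGL_inv_conj hD X.hB hχ (hlt i j hj), Units.val_inv_eq_inv_val, hs i j hj, S.pr_inv]
  have B2 : ∀ i, ∀ j ∈ S.o i, ∀ t : K,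
      (Helper36.charGL D χ)⁻¹ * X.hB.xg (CommData.nsimple D j) t * ((Helper36.charGL D χ)⁻¹)⁻¹ =
      X.hB.xg (CommData.nsimple D j) (S.pr i ((α i)⁻¹)⁻¹ j * t) := by
    intro i j hj t
    rw [inv_inv, Helper36.charGL_inv_conj hD X.hB hχ (hltn i j hj), Units.val_inv_eq_inv_val, hn i j hj,
      S.pr_inv i (α i)⁻¹]
  have M1 := S.conj_mem_G1 (Helper36.charGL D χ) α (fun i => (hα i).1) A1 A2
  have M2 := S.conj_mem_G1 (Helper36.charGL D χ)⁻¹ (fun i => (α i)⁻¹) (fun i => inv_mem (hα i).1) B1 B2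
  refine ⟨Helper36.conjEquiv T.G1 (Helper36.charGL D χ) M1 (fun g hg => by simpa using M2 g hg), ?_⟩
  intro i t ht
  constructor
  · apply Subtype.ext
    show Helper36.charGL D χ * ((S.x i t : ↥T.G1) : GL D.Idx K) * (Helper36.charGL D χ)⁻¹ = _
    rw [S.coe_x i ht, S.coe_x i (mul_mem (hα i).1 ht), conj_yl_of X.hB _ _ _ _ (A1 i)]
    exact X.hB.yl_congr (fun j _ => (S.pr_mul i _ _ j).symm)
  · apply Subtype.ext
    show Helper36.charGL D χ * ((S.y i t : ↥T.G1) : GL D.Idx K) * (Helper36.charGL D χ)⁻¹ = _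
    rw [S.coe_y i ht, S.coe_y i (mul_mem (inv_mem (hα i).1) ht), conj_yl_of X.hB _ _ _ _ (A2 i)]
    exact X.hB.yl_congr (fun j _ => (S.pr_mul i _ _ j).symm)

end OD

end Cfsg.Agent.Lib.Helper18.TwOut
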