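import Cfsg.Agent.Lib.Helper18.TwOut.C4
import Cfsg.Agent.Lib.Helper18.TwOut.A2
import Cfsg.Agent.Lib.Helper18.FixCoreInst

set_option autoImplicit false

/-! # The diagonal subgroup of a twisted group and the orbit elements -/

namespace Cfsg.Agent.Lib.Helper18.TwOut

open Cfsg.Lie Matrix Cfsg.Agent.Lib.Helper6 Cfsg.Agent.Lib.Helper18 Cfsg.Agent.Lib.Lead.FixTwist

variable {D : ChevalleyDatum} {K : Type*} [Field K] {X : BNData D K}

theorem chiL_neg (hneg : ∀ i < D.rank, ∀ s < D.nroots, D.cartan i (D.neg s) = - D.cartan i s)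
    (c : ℕ → K) (L : List ℕ) (hL : ∀ i ∈ L, i < D.rank) {s : ℕ} (hs : s < D.nroots) :
    chiL D c L (D.neg s) = (chiL D c L s)⁻¹ := by
  unfold chiL
  rw [List.prod_inv, List.map_map]
  congr 1
  apply List.map_congr_left
  intro i hi
  show c i ^ D.cartan i (D.neg s) = (c i ^ D.cartan i s)⁻¹
  rw [hneg i (hL i hi) s hs, _root_.zpow_neg]

namespace OD

variable {T : CommData X} {ι : Type*} (S : OD T ι)

theorem mem_H (hopp : Opp (fb T)) : ∀ g : ↥T.G1,
    (∀ i, ∀ t ∈ S.k i, (∃ s ∈ S.k i, g * S.x i t * g⁻¹ = S.x i s) ∧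
      (∃ s ∈ S.k i, g * S.y i t * g⁻¹ = S.y i s)) → g ∈ H1 T := by
  intro g h
  show (g : GL D.Idx K) ∈ D.diagonalSubgroup K
  apply mem_H_of_conj_orb (T := fb T) hopp g.2
  · intro O hO
    obtain ⟨i, rfl⟩ := S.o_surj O hO
    obtain ⟨s, hs, e⟩ := (h i 1 (one_mem _)).1
    refine ⟨(S.x i 1 : ↥T.G1), ?_, (S.x i 1).2, ?_, ?_⟩
    · rw [S.coe_x i (one_mem _)]
      exact yl_pos_mem_Um T (S.o_mem i) _
    · intro e1
      exact one_ne_zero (S.x_inj i 1 (one_mem _) (Subtype.ext e1))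
    · have e' := congrArg (fun z : ↥T.G1 => (z : GL D.Idx K)) e
      simp only [Subgroup.coe_mul, Subgroup.coe_inv] at e'
      rw [e', S.coe_x i hs]
      exact yl_pos_mem_U X.hB X.hT.tab (S.orth i) _
  · intro O hO
    obtain ⟨i, rfl⟩ := S.o_surj O hO
    obtain ⟨s, hs, e⟩ := (h i 1 (one_mem _)).2
    have hn1 : X.hB.nW (S.o i) ∈ T.G1 := T.nW_mem_G1 (S.o_mem i)
    refine ⟨(X.hB.nW (S.o i))⁻¹ * (S.y i 1 : ↥T.G1) * X.hB.nW (S.o i), ?_,
      T.G1.mul_mem (T.G1.mul_mem (T.G1.inv_mem hn1) (S.y i 1).2) hn1, ?_, ?_⟩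
    · rw [S.coe_y i (one_mem _)]
      exact yl_neg_mem_Um T (S.o_mem i) _
    · intro e1
      apply one_ne_zero (α := K)
      apply S.y_inj i 1 (one_mem _)
      apply Subtype.ext
      have : ((S.y i 1 : ↥T.G1) : GL D.Idx K) = X.hB.nW (S.o i) *
          ((X.hB.nW (S.o i))⁻¹ * (S.y i 1 : ↥T.G1) * X.hB.nW (S.o i)) * (X.hB.nW (S.o i))⁻¹ := by group
      rw [this, e1]; simp
    · have e' := congrArg (fun z : ↥T.G1 => (z : GL D.Idx K)) e
      simp only [Subgroup.coe_mul, Subgroup.coe_inv] at e'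
      have e2 : (fb T).sO (S.o i) * ((X.hB.nW (S.o i))⁻¹ * (S.y i 1 : ↥T.G1) * X.hB.nW (S.o i)) *
          ((fb T).sO (S.o i))⁻¹ = (S.y i 1 : ↥T.G1) := by
        show X.hB.nW (S.o i) * ((X.hB.nW (S.o i))⁻¹ * (S.y i 1 : ↥T.G1) * X.hB.nW (S.o i)) *
          (X.hB.nW (S.o i))⁻¹ = (S.y i 1 : ↥T.G1)
        group
      rw [e2, e', S.coe_y i hs]
      exact yl_neg_mem_V X.hB X.hT.tab (S.orth i) _

theorem H_act (hD : D ∈ [chevG2, chevB2, chevD4, chevF4, chevE6, chevE7, chevE8]) :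
    ∀ h ∈ H1 T, ∃ α : ι → K, (∀ i, α i ∈ S.k i ∧ α i ≠ 0) ∧ ∀ i, ∀ t ∈ S.k i,
      h * S.x i t * h⁻¹ = S.x i (α i * t) ∧ h * S.y i t * h⁻¹ = S.y i ((α i)⁻¹ * t) := by
  intro h hh
  have hh' : (h : GL D.Idx K) ∈ D.diagonalSubgroup K := hh
  obtain ⟨c, hc, e⟩ := X.hB.exists_hprod hh'
  have hT := X.hT.tab
  have hL : ∀ a ∈ List.range D.rank, a < D.rank ∧ c a ≠ 0 :=
    fun a ha => ⟨List.mem_range.mp ha, hc a (List.mem_range.mp ha)⟩
  have hx : ∀ i, ∀ t ∈ S.k i, chiL D c (List.range D.rank) (D.simple (S.base i)) * t ∈ S.k i ∧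
      h * S.x i t * h⁻¹ = S.x i (chiL D c (List.range D.rank) (D.simple (S.base i)) * t) := by
    intro i t ht
    have hu : ((h * S.x i t * h⁻¹ : ↥T.G1) : GL D.Idx K) = X.hB.yl D.simple (S.o i)
        (fun j => chiL D c (List.range D.rank) (D.simple j) * S.pr i t j) := by
      rw [Subgroup.coe_mul, Subgroup.coe_mul, Subgroup.coe_inv, S.coe_x i ht, e]
      exact X.hB.hl_conj_yl c _ hL _ _ (simple_lt' hT (S.orth i)) _
    have hcm : T.Compat (S.o i) (fun j => chiL D c (List.range D.rank) (D.simple j) * S.pr i t j) := by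
      apply T.compat_of_fixed (S.o_mem i)
      rw [← hu]
      exact T.G1_fixed _ (h * S.x i t * h⁻¹).2
    have := S.eq_x_of_compat i hcm hu
    rwa [S.pr_base] at this
  have hy : ∀ i, ∀ t ∈ S.k i,
      h * S.y i t * h⁻¹ = S.y i ((chiL D c (List.range D.rank) (D.simple (S.base i)))⁻¹ * t) := by
    intro i t ht
    have hu : ((h * S.y i t * h⁻¹ : ↥T.G1) : GL D.Idx K) = X.hB.yl (CommData.nsimple D) (S.o i)
        (fun j => chiL D c (List.range D.rank) (CommData.nsimple D j) * S.pr i t j) := by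
      rw [Subgroup.coe_mul, Subgroup.coe_mul, Subgroup.coe_inv, S.coe_y i ht, e]
      exact X.hB.hl_conj_yl c _ hL _ _ (nsimple_lt hT (S.orth i)) _
    have hcm : T.Compat (S.o i)
        (fun j => chiL D c (List.range D.rank) (CommData.nsimple D j) * S.pr i t j) := by
      apply compat_of_fixed_neg T (S.o_mem i)
      rw [← hu]
      exact T.G1_fixed _ (h * S.y i t * h⁻¹).2
    have := (S.eq_y_of_compat i hcm hu).2
    rw [S.pr_base] at this
    rw [this]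
    congr 2
    exact chiL_neg (cartan_neg_of_mem hD) c _ (fun a ha => List.mem_range.mp ha)
      (hT.simple_lt _ ((S.orth i).lt _ (S.base_mem i)))
  refine ⟨fun i => chiL D c (List.range D.rank) (D.simple (S.base i)), fun i => ⟨?_, ?_⟩,
    fun i t ht => ⟨(hx i t ht).2, hy i t ht⟩⟩
  · have := (hx i 1 (one_mem _)).1
    rwa [mul_one] at this
  · exact chiL_ne_zero c _ (fun a ha => (hL a ha).2) _

end OD

end Cfsg.Agent.Lib.Helper18.TwOut
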