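import Cfsg.Agent.Lib.Helper18.TwOut.C3
import Cfsg.Agent.Lib.Helper18.TwOut.A4
import Cfsg.Agent.Lib.Helper18.TwOut.A8

set_option autoImplicit false

/-! # Reduction to standard automorphisms -/

namespace Cfsg.Agent.Lib.Helper18.TwOut

open Cfsg.Lie Matrix Cfsg.Agent.Lib.Helper6 Cfsg.Agent.Lib.Helper18 Cfsg.Agent.Lib.Lead.FixTwist

variable {D : ChevalleyDatum} {K : Type*} [Field K] {X : BNData D K}

namespace OD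

variable {T : CommData X} {ι : Type*} (S : OD T ι)

theorem std [Finite K] (hD : D ∈ [chevG2, chevB2, chevD4, chevF4, chevE6, chevE7, chevE8])
    (hopp : Opp (fb T))
    (hperm : ∀ θ : ↥T.G1 ≃* ↥T.G1, Std1 (fb T) θ → ∀ O ∈ T.orbs, ∀ O' ∈ T.orbs,
      (∀ (u : GL D.Idx K) (hu : u ∈ T.G1), u ∈ Um D K (X.hB.nW O) →
        ((θ ⟨u, hu⟩ : ↥T.G1) : GL D.Idx K) ∈ Um D K (X.hB.nW O')) → O' = O) :
    ∀ θ : ↥T.G1 ≃* ↥T.G1, ∃ g : ↥T.G1, ∀ i, ∀ t ∈ S.k i,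
      (∃ s ∈ S.k i, θ (S.x i t) = g * S.x i s * g⁻¹) ∧ (∃ s ∈ S.k i, θ (S.y i t) = g * S.y i s * g⁻¹) := by
  intro θ
  have h0 : ∃ (g : ↥T.G1) (θ' : ↥T.G1 ≃* ↥T.G1), Std1 (fb T) θ' ∧ ∀ y, θ y = g * θ' y * g⁻¹ :=
    exists_std1 (T := fb T) hD θ
  obtain ⟨g, θ', hθ', hg⟩ := h0
  refine ⟨g, fun i t ht => ?_⟩
  obtain ⟨O', hO', h1, h2⟩ := hθ'.root hopp (S.o_mem i)
  have hOO : O' = S.o i := hperm θ' hθ' _ (S.o_mem i) _ hO' h1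
  subst hOO
  constructor
  · have hx := h1 _ (S.x i t).2 (by rw [S.coe_x i ht]; exact yl_pos_mem_Um T (S.o_mem i) _)
    obtain ⟨g', hg', e⟩ := exists_yl_pos T (S.o_mem i) hx (θ' _).2
    obtain ⟨h3, h4⟩ := S.eq_x_of_compat i hg' e
    exact ⟨_, h3, by rw [hg, ← h4]; rfl⟩
  · have hy := h2 _ (S.y i t).2 (by rw [S.coe_y i ht]; exact yl_neg_mem_Um T (S.o_mem i) _)
    obtain ⟨g', hg', e⟩ := exists_yl_neg T (S.o_mem i) hy (θ' _).2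
    obtain ⟨h3, h4⟩ := S.eq_y_of_compat i hg' e
    exact ⟨_, h3, by rw [hg, ← h4]; rfl⟩

end OD

end Cfsg.Agent.Lib.Helper18.TwOut
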