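import Cfsg.Agent.Lib.Helper18.TwOut.T2

set_option autoImplicit false

/-! # Piece T3: the count of the outer automorphism group -/

namespace Cfsg.Agent.Lib.Helper18.TwOut

variable {G : Type*} [Group G] {K : Type*} [Field K] {ι : Type*}

namespace T3

/-- `θ` acts on the generators through `(α, σ)`. -/
def Acts (R : TD G K ι) (θ : G ≃* G) (α : ι → K) (σ : K ≃+* K) : Prop :=
  ∀ i, ∀ t ∈ R.k i, θ (R.x i t) = R.x i (α i * σ t) ∧ θ (R.y i t) = R.y i ((α i)⁻¹ * σ t)

/-- admissible families of scalars -/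
def Good (R : TD G K ι) (α : ι → K) : Prop := ∀ i, α i ∈ R.k i ∧ α i ≠ 0

theorem x_injOn (R : TD G K ι) (i : ι) {a b : K} (ha : a ∈ R.k i) (hb : b ∈ R.k i)
    (h : R.x i a = R.x i b) : a = b := by
  have h1 := R.x_add i (a - b) (sub_mem ha hb) b hb
  rw [sub_add_cancel, h] at h1
  have h2 : R.x i (a - b) = 1 := by
    have := mul_right_cancel (a := 1) (b := R.x i b) (c := R.x i (a - b)) (by rw [one_mul]; exact h1)
    exact this.symm
  exact sub_eq_zero.1 (R.x_inj i _ (sub_mem ha hb) h2)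

theorem exists_acts (R : TD G K ι) {α : ι → K} (hα : Good R α) (σ : K ≃+* K) :
    ∃ θ : G ≃* G, Acts R θ α σ := by
  obtain ⟨φ, hφ⟩ := R.fieldAut σ
  obtain ⟨δ, hδ⟩ := R.diagAut α hα
  refine ⟨φ.trans δ, fun i t ht => ?_⟩
  have hσt := R.k_stable σ i t ht
  constructor
  · rw [MulEquiv.trans_apply, (hφ i t ht).1, (hδ i _ hσt).1]
  · rw [MulEquiv.trans_apply, (hφ i t ht).2, (hδ i _ hσt).2]

theorem acts_unique (R : TD G K ι) {θ θ' : G ≃* G} {α : ι → K} {σ : K ≃+* K}
    (h : Acts R θ α σ) (h' : Acts R θ' α σ) : θ = θ' :=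
  R.aut_ext θ θ' fun i t ht => ⟨(h i t ht).1.trans (h' i t ht).1.symm,
    (h i t ht).2.trans (h' i t ht).2.symm⟩

/-- the key rigidity statement -/
theorem key (R : TD G K ι) {θ θ' : G ≃* G} {α α' : ι → K} {σ σ' : K ≃+* K}
    (hα : Good R α) (hα' : Good R α') (h : Acts R θ α σ) (h' : Acts R θ' α' σ') (g : G)
    (hg : ∀ z, θ' z = g * θ z * g⁻¹) :
    g ∈ R.H ∧ σ' = σ ∧ ∀ β : ι → K, (∀ i, ∀ t ∈ R.k i, g * R.x i t * g⁻¹ = R.x i (β i * t)) →
      (∀ i, β i ∈ R.k i) → ∀ i, α' i = β i * α i := by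
  have hgH : g ∈ R.H := by
    apply R.mem_H
    intro i s hs
    constructor
    · have ht : σ.symm ((α i)⁻¹ * s) ∈ R.k i :=
        R.k_stable σ.symm i _ (mul_mem (inv_mem (hα i).1) hs)
      refine ⟨α' i * σ' (σ.symm ((α i)⁻¹ * s)), mul_mem (hα' i).1 (R.k_stable σ' i _ ht), ?_⟩
      rw [← (h' i _ ht).1, hg, (h i _ ht).1, RingEquiv.apply_symm_apply,
        mul_inv_cancel_left₀ (hα i).2]
    · have ht : σ.symm (α i * s) ∈ R.k i := R.k_stable σ.symm i _ (mul_mem (hα i).1 hs)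
      refine ⟨(α' i)⁻¹ * σ' (σ.symm (α i * s)),
        mul_mem (inv_mem (hα' i).1) (R.k_stable σ' i _ ht), ?_⟩
      rw [← (h' i _ ht).2, hg, (h i _ ht).2, RingEquiv.apply_symm_apply,
        inv_mul_cancel_left₀ (hα i).2]
  have hrel : ∀ β : ι → K, (∀ i, ∀ t ∈ R.k i, g * R.x i t * g⁻¹ = R.x i (β i * t)) →
      (∀ i, β i ∈ R.k i) → ∀ i, ∀ t ∈ R.k i, α' i * σ' t = β i * (α i * σ t) := by
    intro β hβ hβk i t ht
    have hσt := R.k_stable σ i t ht
    apply x_injOn R i (mul_mem (hα' i).1 (R.k_stable σ' i t ht))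
      (mul_mem (hβk i) (mul_mem (hα i).1 hσt))
    rw [← (h' i t ht).1, hg, (h i t ht).1, hβ i _ (mul_mem (hα i).1 hσt)]
  have hrel1 : ∀ β : ι → K, (∀ i, ∀ t ∈ R.k i, g * R.x i t * g⁻¹ = R.x i (β i * t)) →
      (∀ i, β i ∈ R.k i) → ∀ i, α' i = β i * α i := by
    intro β hβ hβk i
    have := hrel β hβ hβk i 1 (one_mem _)
    simpa using this
  refine ⟨hgH, ?_, hrel1⟩
  obtain ⟨β, hβ1, hβ2⟩ := R.H_act g hgH
  have hβx : ∀ i, ∀ t ∈ R.k i, g * R.x i t * g⁻¹ = R.x i (β i * t) := fun i t ht => (hβ2 i t ht).1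
  have hβk : ∀ i, β i ∈ R.k i := fun i => (hβ1 i).1
  ext t
  have e1 := hrel β hβx hβk R.i0 t (R.k_root t)
  have e2 := hrel1 β hβx hβk R.i0
  rw [← mul_assoc, ← e2] at e1
  exact mul_left_cancel₀ (hα' R.i0).2 e1

theorem acts_conj (R : TD G K ι) {θ : G ≃* G} {α β : ι → K} {σ : K ≃+* K} (hα : Good R α)
    (h : Acts R θ α σ) (g : G)
    (hβ : ∀ i, ∀ t ∈ R.k i,
      g * R.x i t * g⁻¹ = R.x i (β i * t) ∧ g * R.y i t * g⁻¹ = R.y i ((β i)⁻¹ * t)) :
    Acts R (MulAut.conj g * θ) (fun i => β i * α i) σ := by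
  intro i t ht
  have hσt := R.k_stable σ i t ht
  constructor
  · rw [MulAut.mul_apply, MulAut.conj_apply, (h i t ht).1, (hβ i _ (mul_mem (hα i).1 hσt)).1,
      mul_assoc]
  · rw [MulAut.mul_apply, MulAut.conj_apply, (h i t ht).2,
      (hβ i _ (mul_mem (inv_mem (hα i).1) hσt)).2, mul_inv, mul_assoc]

theorem eq_of_same_action (R : TD G K ι) {g g' : G}
    (h : ∀ i, ∀ t ∈ R.k i, g * R.x i t * g⁻¹ = g' * R.x i t * g'⁻¹ ∧
      g * R.y i t * g⁻¹ = g' * R.y i t * g'⁻¹) : g = g' := by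
  have h1 : MulAut.conj g = MulAut.conj g' := R.aut_ext _ _ (fun i t ht => by
    simpa [MulAut.conj_apply] using h i t ht)
  have h2 : g'⁻¹ * g = 1 := by
    apply R.center
    intro z
    have h3 := congrArg (fun f : MulAut G => f z) h1
    simp only [MulAut.conj_apply] at h3
    calc g'⁻¹ * g * z = g'⁻¹ * (g * z * g⁻¹) * g := by group
      _ = g'⁻¹ * (g' * z * g'⁻¹) * g := by rw [h3]
      _ = z * (g'⁻¹ * g) := by group
  exact (inv_mul_eq_one.1 h2).symm

/-- the torus of admissible scalars -/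
abbrev AA (R : TD G K ι) : Type _ := (i : ι) → (R.k i)ˣ

/-- underlying family of scalars -/
def val (R : TD G K ι) (a : AA R) : ι → K := fun i => (((a i : (R.k i)ˣ) : R.k i) : K)

theorem good_val (R : TD G K ι) (a : AA R) : Good R (val R a) := fun i =>
  ⟨((a i : (R.k i)ˣ) : R.k i).2, fun h => (a i).ne_zero (Subtype.ext h)⟩

/-- admissible scalars as units -/
def toA (R : TD G K ι) (α : ι → K) (h : Good R α) : AA R := fun i =>
  Units.mk0 ⟨α i, (h i).1⟩ (fun e => (h i).2 (congrArg Subtype.val e))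

theorem val_toA (R : TD G K ι) (α : ι → K) (h : Good R α) : val R (toA R α h) = α := rfl

theorem val_mul (R : TD G K ι) (a b : AA R) (i : ι) : val R (a * b) i = val R a i * val R b i := rfl

theorem val_inj (R : TD G K ι) {a b : AA R} (h : val R a = val R b) : a = b := by
  funext i
  exact Units.ext (Subtype.ext (congrFun h i))

/-- the standard automorphism attached to `(a, σ)` -/
noncomputable def th (R : TD G K ι) (a : AA R) (σ : K ≃+* K) : MulAut G :=
  Classical.choose (exists_acts R (good_val R a) σ)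

theorem th_spec (R : TD G K ι) (a : AA R) (σ : K ≃+* K) : Acts R (th R a σ) (val R a) σ :=
  Classical.choose_spec (exists_acts R (good_val R a) σ)

/-- its class -/
noncomputable def Phi (R : TD G K ι) (p : AA R × (K ≃+* K)) : Cfsg.Out G :=
  QuotientGroup.mk (th R p.1 p.2)

theorem mk_conj_mul (g : G) (θ : MulAut G) :
    (QuotientGroup.mk (MulAut.conj g * θ) : Cfsg.Out G) = QuotientGroup.mk θ := by
  rw [QuotientGroup.mk_mul, (QuotientGroup.eq_one_iff (N := Cfsg.Inn G) (MulAut.conj g)).2 ⟨g, rfl⟩,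
    one_mul]

theorem Phi_surjective [Finite K] (R : TD G K ι) : Function.Surjective (Phi R) := by
  intro o
  obtain ⟨θ, rfl⟩ := QuotientGroup.mk_surjective o
  obtain ⟨g, σ, α, hα, h⟩ := R.decomp θ
  refine ⟨(toA R α hα, σ), ?_⟩
  have h1 : θ = MulAut.conj g * th R (toA R α hα) σ := by
    apply R.aut_ext
    intro i t ht
    have h2 : th R (toA R α hα) σ (R.x i t) = R.x i (α i * σ t) ∧
        th R (toA R α hα) σ (R.y i t) = R.y i ((α i)⁻¹ * σ t) := th_spec R (toA R α hα) σ i t ht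
    constructor
    · rw [MulAut.mul_apply, MulAut.conj_apply, h2.1, (h i t ht).1]
    · rw [MulAut.mul_apply, MulAut.conj_apply, h2.2, (h i t ht).2]
  rw [h1, mk_conj_mul]
  rfl

/-- a section of `Phi` -/
noncomputable def sec [Finite K] (R : TD G K ι) (o : Cfsg.Out G) : AA R × (K ≃+* K) :=
  Classical.choose (Phi_surjective R o)

theorem Phi_sec [Finite K] (R : TD G K ι) (o : Cfsg.Out G) : Phi R (sec R o) = o :=
  Classical.choose_spec (Phi_surjective R o)

/-- the scalars through which `h ∈ H` acts -/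
noncomputable def bet (R : TD G K ι) (h : R.H) : AA R :=
  toA R (Classical.choose (R.H_act h h.2)) (Classical.choose_spec (R.H_act h h.2)).1

theorem bet_spec (R : TD G K ι) (h : R.H) : ∀ i, ∀ t ∈ R.k i,
    (h : G) * R.x i t * (h : G)⁻¹ = R.x i (val R (bet R h) i * t) ∧
      (h : G) * R.y i t * (h : G)⁻¹ = R.y i ((val R (bet R h) i)⁻¹ * t) :=
  (Classical.choose_spec (R.H_act h h.2)).2

/-- the bijection -/
noncomputable def Psi [Finite K] (R : TD G K ι) (p : Cfsg.Out G × R.H) : AA R × (K ≃+* K) :=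
  (bet R p.2 * (sec R p.1).1, (sec R p.1).2)

theorem Phi_Psi [Finite K] (R : TD G K ι) (p : Cfsg.Out G × R.H) : Phi R (Psi R p) = p.1 := by
  have h1 := acts_conj R (good_val R (sec R p.1).1) (th_spec R (sec R p.1).1 (sec R p.1).2)
    (p.2 : G) (bet_spec R p.2)
  have h2 : th R (bet R p.2 * (sec R p.1).1) (sec R p.1).2
      = MulAut.conj (p.2 : G) * th R (sec R p.1).1 (sec R p.1).2 :=
    acts_unique R (th_spec R _ _) h1
  show (QuotientGroup.mk (th R (bet R p.2 * (sec R p.1).1) (sec R p.1).2) : Cfsg.Out G) = p.1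
  rw [h2, mk_conj_mul]
  exact Phi_sec R p.1

theorem Psi_bijective [Finite K] (R : TD G K ι) : Function.Bijective (Psi R) := by
  constructor
  · rintro ⟨o, h⟩ ⟨o', h'⟩ e
    have e1 : o = o' := by
      have := congrArg (Phi R) e
      rwa [Phi_Psi, Phi_Psi] at this
    subst e1
    have e2 : bet R h * (sec R o).1 = bet R h' * (sec R o).1 := congrArg Prod.fst e
    have e3 : bet R h = bet R h' := mul_right_cancel e2
    have e4 : (h : G) = h' := by
      apply eq_of_same_action R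
      intro i t ht
      rw [(bet_spec R h i t ht).1, (bet_spec R h i t ht).2, (bet_spec R h' i t ht).1,
        (bet_spec R h' i t ht).2, e3]
      exact ⟨rfl, rfl⟩
    rw [Subtype.ext e4]
  · rintro ⟨a', σ'⟩
    set o := Phi R (a', σ') with ho
    have h1 : Phi R (sec R o) = Phi R (a', σ') := Phi_sec R o
    obtain ⟨g, hg⟩ : (th R (sec R o).1 (sec R o).2)⁻¹ * th R a' σ' ∈ Cfsg.Inn G :=
      QuotientGroup.eq.1 h1
    have h2 : ∀ z, th R a' σ' z = th R (sec R o).1 (sec R o).2 g * th R (sec R o).1 (sec R o).2 z *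
        (th R (sec R o).1 (sec R o).2 g)⁻¹ := by
      intro z
      have h3 : th R a' σ' = th R (sec R o).1 (sec R o).2 * MulAut.conj g := by
        rw [hg]; group
      rw [h3, MulAut.mul_apply, MulAut.conj_apply, map_mul, map_mul, map_inv]
    obtain ⟨hH, hσ, hβ⟩ := key R (good_val R _) (good_val R a') (th_spec R _ _) (th_spec R a' σ') _ h2
    refine ⟨(o, ⟨_, hH⟩), ?_⟩
    have h4 := hβ (val R (bet R ⟨_, hH⟩)) (fun i t ht => (bet_spec R ⟨_, hH⟩ i t ht).1)
      (fun i => (good_val R _ i).1)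
    apply Prod.ext
    · apply val_inj
      funext i
      show val R (bet R ⟨_, hH⟩ * (sec R o).1) i = _
      rw [val_mul, h4 i]
    · exact hσ.symm

end T3

/-- T3 (file TwOut/T3.lean): the count. -/
theorem TD.card_out [Finite K] [Fintype ι] (R : TD G K ι) :
    Nat.card (Cfsg.Out G) * Nat.card R.H = (∏ i, (Nat.card (R.k i) - 1)) * Nat.card (K ≃+* K) := by
  rw [← Nat.card_prod, Nat.card_congr (Equiv.ofBijective _ (T3.Psi_bijective R)), Nat.card_prod,
    Nat.card_pi]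
  congr 1
  apply Finset.prod_congr rfl
  intro i _
  exact Nat.card_units _

end Cfsg.Agent.Lib.Helper18.TwOut
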