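import Cfsg.Agent.Lib.Helper18.TwOut.C4
import Cfsg.Agent.Lib.Helper18.TwOut.C5
import Cfsg.Agent.Lib.Helper18.TwOut.C6
import Cfsg.Agent.Lib.Helper18.TwOut.C7
import Cfsg.Agent.Lib.Helper18.TwOut.C8
import Cfsg.Agent.Lib.Helper18.TwOut.T3

set_option autoImplicit false

/-! # Outer automorphisms of twisted groups with orthogonal orbits: assembly -/

namespace Cfsg.Agent.Lib.Helper18.TwOut

open Cfsg.Lie Matrix Cfsg.Agent.Lib.Helper6 Cfsg.Agent.Lib.Helper18 Cfsg.Agent.Lib.Lead.FixTwist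

variable {D : ChevalleyDatum} {K : Type*} [Field K] {X : BNData D K}

namespace OD

variable {T : CommData X} {ι : Type*} (S : OD T ι)

/-- the abstract data of a twisted group. -/
noncomputable def toTD [Finite K] (hD : D ∈ [chevG2, chevB2, chevD4, chevF4, chevE6, chevE7, chevE8])
    (hopp : Opp (fb T))
    (hperm : ∀ θ : ↥T.G1 ≃* ↥T.G1, Std1 (fb T) θ → ∀ O ∈ T.orbs, ∀ O' ∈ T.orbs,
      (∀ (u : GL D.Idx K) (hu : u ∈ T.G1), u ∈ Um D K (X.hB.nW O) →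
        ((θ ⟨u, hu⟩ : ↥T.G1) : GL D.Idx K) ∈ Um D K (X.hB.nW O')) → O' = O)
    (hcen : ∀ g : ↥T.G1, (∀ g' : ↥T.G1, g * g' = g' * g) → g = 1) : TD ↥T.G1 K ι where
  k := S.k
  x := S.x
  y := S.y
  H := H1 T
  x_add := S.x_add
  y_add := S.y_add
  x_inj := S.x_inj
  y_inj := S.y_inj
  gen := S.gen
  n_conj := S.n_conj
  rank1 := S.rank1
  h_self := S.h_self
  i0 := S.i0
  k_root := S.k_root
  par := S.par
  μ := S.μ
  tree := S.tree'
  k_stable := S.k_stable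
  fieldAut := S.fieldAut
  diagAut := S.diagAut hD
  std := S.std hD hopp hperm
  mem_H := S.mem_H hopp
  H_act := S.H_act hD
  center := hcen

theorem card_H1 (T : CommData X) : Nat.card (H1 T) = Nat.card ↥(D.diagonalSubgroup K ⊓ T.G1) := by
  unfold H1
  rw [← Subgroup.inf_subgroupOf_right]
  exact Nat.card_congr (Subgroup.subgroupOfEquivOfLe inf_le_right).toEquiv

theorem card_out [Finite K] [Fintype ι]
    (hD : D ∈ [chevG2, chevB2, chevD4, chevF4, chevE6, chevE7, chevE8]) (hopp : Opp (fb T))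
    (hperm : ∀ θ : ↥T.G1 ≃* ↥T.G1, Std1 (fb T) θ → ∀ O ∈ T.orbs, ∀ O' ∈ T.orbs,
      (∀ (u : GL D.Idx K) (hu : u ∈ T.G1), u ∈ Um D K (X.hB.nW O) →
        ((θ ⟨u, hu⟩ : ↥T.G1) : GL D.Idx K) ∈ Um D K (X.hB.nW O')) → O' = O)
    (hcen : ∀ g : ↥T.G1, (∀ g' : ↥T.G1, g * g' = g' * g) → g = 1) :
    Nat.card (Cfsg.Out ↥T.G1) * Nat.card ↥(D.diagonalSubgroup K ⊓ T.G1) =
      (∏ i, (Nat.card (S.k i) - 1)) * Nat.card (K ≃+* K) := by
  rw [← card_H1]
  exact (S.toTD hD hopp hperm hcen).card_out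

end OD

end Cfsg.Agent.Lib.Helper18.TwOut
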