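import Cfsg.Agent.Lib.Helper18.TwOut.CDefs

set_option autoImplicit false

/-! # Orbit products: the negative side -/

namespace Cfsg.Agent.Lib.Helper18.TwOut

open Cfsg.Lie Matrix Cfsg.Agent.Lib.Helper6 Cfsg.Agent.Lib.Helper18 Cfsg.Agent.Lib.Lead.FixTwist

variable {D : ChevalleyDatum} {K : Type*} [Field K]

theorem commute_ng_xg (hB : Base D K) (hT : Tab D) {O : List ℕ} (hO : Orth D O) {i j : ℕ} (hi : i ∈ O)
    (hj : j ∈ O) (hij : i ≠ j) {b : ℕ} (hb : b ∈ [D.simple j, D.neg (D.simple j)]) (c u : K) :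
    Commute (hB.ng (D.simple i) c) (hB.xg b u) := by
  unfold Base.ng
  exact ((hB.commute_of_orth hT hO hi hj hij (by simp) hb _ _).mul_left
    (hB.commute_of_orth hT hO hi hj hij (by simp) hb _ _)).mul_left
    (hB.commute_of_orth hT hO hi hj hij (by simp) hb _ _)

theorem commute_nW_xg (hB : Base D K) (hT : Tab D) {a : ℕ} {O : List ℕ} (hO : Orth D (a :: O)) {b : ℕ}
    (hb : b ∈ [D.simple a, D.neg (D.simple a)]) (u : K) : Commute (hB.nW O) (hB.xg b u) := by
  unfold Base.nW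
  apply Commute.list_prod_left
  intro x hx
  obtain ⟨j, hj, rfl⟩ := List.mem_map.mp hx
  have hne : j ≠ a := by
    rintro rfl
    exact (List.nodup_cons.mp hO.nodup).1 hj
  exact commute_ng_xg hB hT hO (by simp [hj]) (by simp) hne hb _ _

theorem commute_ng_yl (hB : Base D K) (hT : Tab D) {a : ℕ} {O : List ℕ} (hO : Orth D (a :: O)) {R : ℕ → ℕ}
    (hR : ∀ j, R j ∈ [D.simple j, D.neg (D.simple j)]) (c : K) (g : ℕ → K) :
    Commute (hB.ng (D.simple a) c) (hB.yl R O g) := by
  apply Commute.list_prod_right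
  intro x hx
  obtain ⟨j, hj, rfl⟩ := List.mem_map.mp hx
  have hne : a ≠ j := by
    rintro rfl
    exact (List.nodup_cons.mp hO.nodup).1 hj
  exact commute_ng_xg hB hT hO (by simp) (by simp [hj]) hne (hR j) _ _

theorem nW_conj_yl (hB : Base D K) (hT : Tab D) {O : List ℕ} (hO : Orth D O) :
    ∃ η : ℕ → K, (∀ j, η j = 1 ∨ η j = -1) ∧ ∀ g : ℕ → K,
      hB.nW O * hB.yl D.simple O g * (hB.nW O)⁻¹ = hB.yl (CommData.nsimple D) O (fun j => η j * g j) ∧
      hB.nW O * hB.yl (CommData.nsimple D) O g * (hB.nW O)⁻¹ = hB.yl D.simple O (fun j => η j * g j) := by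
  induction O with
  | nil => exact ⟨fun _ => 1, fun _ => Or.inl rfl, fun g => by simp⟩
  | cons a O ih =>
    obtain ⟨η', hη', h'⟩ := ih hO.tail
    obtain ⟨ηa, hηa, ha⟩ := hB.ng_conj_self hT (hO.lt a (by simp))
    have hnd := List.nodup_cons.mp hO.nodup
    refine ⟨fun j => if j = a then ηa else η' j, fun j => ?_, fun g => ?_⟩
    · by_cases hj : j = a
      · simp only [hj, if_true]; exact hηa
      · simp only [hj, if_false]; exact hη' j
    · have hcg : ∀ R : ℕ → ℕ, hB.yl R O (fun j => (if j = a then ηa else η' j) * g j) =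
          hB.yl R O (fun j => η' j * g j) := by
        intro R
        apply hB.yl_congr
        intro j hj
        have : j ≠ a := by rintro rfl; exact hnd.1 hj
        simp only [this, if_false]
      set n := hB.ng (D.simple a) 1 with hn
      set N := hB.nW O with hN
      constructor
      · rw [Base.nW_cons, Base.yl_cons, Base.yl_cons, hcg, ← (h' g).1]
        beta_reduce
        rw [if_pos rfl]
        have c1 : N * hB.xg (D.simple a) (g a) = hB.xg (D.simple a) (g a) * N :=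
          (commute_nW_xg hB hT hO (by simp) _).eq
        have c2 := (commute_ng_yl hB hT hO CommData.hR2 1 (fun j => η' j * g j)).eq
        rw [← (h' g).1, ← hn] at c2
        show _ = hB.xg (D.neg (D.simple a)) (ηa * g a) * _
        rw [← (ha (g a)).1]
        calc n * N * (hB.xg (D.simple a) (g a) * hB.yl D.simple O g) * (n * N)⁻¹
            = n * (N * hB.xg (D.simple a) (g a)) * hB.yl D.simple O g * N⁻¹ * n⁻¹ := by group
          _ = n * hB.xg (D.simple a) (g a) * (n⁻¹ * (n * (N * hB.yl D.simple O g * N⁻¹))) * n⁻¹ := by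
              rw [c1]; group
          _ = _ := by rw [c2]; group
      · rw [Base.nW_cons, Base.yl_cons, Base.yl_cons, hcg, ← (h' g).2]
        beta_reduce
        rw [if_pos rfl]
        have c1 : N * hB.xg (D.neg (D.simple a)) (g a) = hB.xg (D.neg (D.simple a)) (g a) * N :=
          (commute_nW_xg hB hT hO (by simp) _).eq
        have c2 := (commute_ng_yl hB hT hO CommData.hR1 1 (fun j => η' j * g j)).eq
        rw [← (h' g).2, ← hn] at c2
        rw [← (ha (g a)).2]
        show n * N * (hB.xg (D.neg (D.simple a)) (g a) * hB.yl (CommData.nsimple D) O g) * (n * N)⁻¹ = _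
        calc n * N * (hB.xg (D.neg (D.simple a)) (g a) * hB.yl (CommData.nsimple D) O g) * (n * N)⁻¹
            = n * (N * hB.xg (D.neg (D.simple a)) (g a)) * hB.yl (CommData.nsimple D) O g * N⁻¹ * n⁻¹ := by
              group
          _ = n * hB.xg (D.neg (D.simple a)) (g a) *
              (n⁻¹ * (n * (N * hB.yl (CommData.nsimple D) O g * N⁻¹))) * n⁻¹ := by
              rw [c1]; group
          _ = _ := by rw [c2]; group

theorem yl_inj_neg (hB : Base D K) (hT : Tabs2 D) {O : List ℕ} (hO : Orth D O) {g g' : ℕ → K}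
    (h : hB.yl (CommData.nsimple D) O g = hB.yl (CommData.nsimple D) O g') : ∀ j ∈ O, g j = g' j := by
  obtain ⟨η, hη, hc⟩ := nW_conj_yl hB hT.tab hO
  have h1 : hB.yl D.simple O (fun j => η j * g j) = hB.yl D.simple O (fun j => η j * g' j) := by
    rw [← (hc g).2, ← (hc g').2, h]
  have h2 := hB.yl_inj hT id hO.lt (fun _ _ _ _ e => e) hO.nodup h1
  intro j hj
  have h3 := h2 j hj
  rcases hη j with e | e <;> rw [e] at h3 <;> simpa using h3

variable {X : BNData D K}

theorem compat_of_fixed_neg (T : CommData X) {O : List ℕ} (hO : O ∈ T.orbs) {g : ℕ → K}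
    (hfix : T.τ (X.hB.yl (CommData.nsimple D) O g) = X.hB.yl (CommData.nsimple D) O g) : T.Compat O g := by
  -- conjugate by `n_O`, which is fixed by `τ`
  obtain ⟨η, hη, hc⟩ := nW_conj_yl X.hB X.hT.tab (T.orth O hO)
  have hn : T.τ (X.hB.nW O) = X.hB.nW O := T.G1_fixed _ (T.nW_mem_G1 hO)
  have h1 : T.τ (X.hB.yl D.simple O (fun j => η j * g j)) = X.hB.yl D.simple O (fun j => η j * g j) := by
    rw [← (hc g).2, map_mul, map_mul, map_inv, hn, hfix]
  have h2 := T.compat_of_fixed hO h1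
  -- the signs are compatible
  have h3 : T.τ (X.hB.yl D.simple O (fun j => η j * 1)) = X.hB.yl D.simple O (fun j => η j * 1) := by
    rw [← (hc (fun _ => 1)).2, map_mul, map_mul, map_inv, hn,
      T.τ_yl_neg_fixed hO (T.compat_const O (map_one _))]
  have h4 := T.compat_of_fixed hO h3
  intro j hj
  have e2 : η (T.ρ j) * g (T.ρ j) = T.f (η j * g j) := h2 j hj
  have e4 : η (T.ρ j) * 1 = T.f (η j * 1) := h4 j hj
  rw [mul_one, mul_one] at e4
  rw [map_mul, ← e4] at e2
  have hne : η (T.ρ j) ≠ 0 := by rcases hη (T.ρ j) with e | e <;> rw [e] <;> simp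
  exact mul_left_cancel₀ hne e2

theorem Um_nW (T : CommData X) {O : List ℕ} (hO : O ∈ T.orbs) : Um D K (X.hB.nW O) = X.hB.UmW O := by
  have := X.hB.Um_eq_UmW X.hT.toTabs (one_mem _) (T.orth O hO).lt
  rwa [one_mul] at this

theorem yl_pos_mem_Um (T : CommData X) {O : List ℕ} (hO : O ∈ T.orbs) (g : ℕ → K) :
    X.hB.yl D.simple O g ∈ Um D K (X.hB.nW O) := by
  rw [Um_nW T hO]; exact T.yl_mem_UmW hO g

theorem yl_neg_mem_Um (T : CommData X) {O : List ℕ} (hO : O ∈ T.orbs) (g : ℕ → K) :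
    (X.hB.nW O)⁻¹ * X.hB.yl (CommData.nsimple D) O g * X.hB.nW O ∈ Um D K (X.hB.nW O) := by
  obtain ⟨η, hη, hc⟩ := nW_conj_yl X.hB X.hT.tab (T.orth O hO)
  have e : X.hB.yl (CommData.nsimple D) O g =
      X.hB.nW O * X.hB.yl D.simple O (fun j => η j * g j) * (X.hB.nW O)⁻¹ := by
    rw [(hc _).1]
    apply X.hB.yl_congr
    intro j _
    rcases hη j with e | e <;> rw [e] <;> simp
  rw [e]
  have : (X.hB.nW O)⁻¹ * (X.hB.nW O * X.hB.yl D.simple O (fun j => η j * g j) * (X.hB.nW O)⁻¹) * X.hB.nW O =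
      X.hB.yl D.simple O (fun j => η j * g j) := by group
  rw [this]
  exact yl_pos_mem_Um T hO _

theorem exists_yl_pos (T : CommData X) {O : List ℕ} (hO : O ∈ T.orbs) {u : GL D.Idx K}
    (hu : u ∈ Um D K (X.hB.nW O)) (hu1 : u ∈ T.G1) :
    ∃ g : ℕ → K, T.Compat O g ∧ u = X.hB.yl D.simple O g := by
  rw [Um_nW T hO] at hu
  obtain ⟨g, rfl⟩ := T.exists_yl_of_mem_UmW hO hu
  exact ⟨g, T.compat_of_fixed hO (T.G1_fixed _ hu1), rfl⟩

theorem exists_yl_neg (T : CommData X) {O : List ℕ} (hO : O ∈ T.orbs) {u : GL D.Idx K}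
    (hu : (X.hB.nW O)⁻¹ * u * X.hB.nW O ∈ Um D K (X.hB.nW O)) (hu1 : u ∈ T.G1) :
    ∃ g : ℕ → K, T.Compat O g ∧ u = X.hB.yl (CommData.nsimple D) O g := by
  rw [Um_nW T hO] at hu
  obtain ⟨g, hg⟩ := T.exists_yl_of_mem_UmW hO hu
  obtain ⟨η, hη, hc⟩ := nW_conj_yl X.hB X.hT.tab (T.orth O hO)
  have e : u = X.hB.yl (CommData.nsimple D) O (fun j => η j * g j) := by
    rw [← (hc g).1, ← hg]; group
  refine ⟨_, ?_, e⟩
  apply compat_of_fixed_neg T hO
  rw [← e]
  exact T.G1_fixed _ hu1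

end Cfsg.Agent.Lib.Helper18.TwOut
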