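import Cfsg.Agent.Lib.Helper18.TwOut.C1

set_option autoImplicit false

/-! # Rank one relations for an orbit of pairwise orthogonal fundamental roots -/

namespace Cfsg.Agent.Lib.Helper18.TwOut

open Cfsg.Lie Matrix Cfsg.Agent.Lib.Helper6 Cfsg.Agent.Lib.Helper18 Cfsg.Agent.Lib.Lead.FixTwist

variable {D : ChevalleyDatum} {K : Type*} [Field K]

theorem nl_eq_hl_mul (hB : Base D K) (hT : Tab D) {O : List ℕ} (hO : Orth D O) (c : ℕ → K) :
    hB.nl c O = hB.hl c O * hB.nW O := by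
  unfold Base.nl Base.hl Base.nW
  rw [← prod_map_mul_comm O hO.nodup]
  · congr 1
    apply List.map_congr_left
    intro j _
    exact hB.ng_eq_hg_mul _ _
  · intro i hi j hj hij
    unfold Base.hg
    exact (hB.commute_ng hT hO hi hj hij _ _).mul_right (hB.commute_ng hT hO hi hj hij _ _)

theorem chiL_ne_zero (c : ℕ → K) (L : List ℕ) (hc : ∀ i ∈ L, c i ≠ 0) (s : ℕ) : chiL D c L s ≠ 0 := by
  unfold chiL
  apply List.prod_ne_zero
  intro h
  obtain ⟨i, hi, e⟩ := List.mem_map.mp h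
  exact zpow_ne_zero _ (hc i hi) e

theorem nsimple_lt (hT : Tab D) {O : List ℕ} (hO : Orth D O) : ∀ j ∈ O, CommData.nsimple D j < D.nroots :=
  fun j hj => hT.neg_lt (hT.simple_lt j (hO.lt j hj))

theorem simple_lt' (hT : Tab D) {O : List ℕ} (hO : Orth D O) : ∀ j ∈ O, D.simple j < D.nroots :=
  fun j hj => hT.simple_lt j (hO.lt j hj)

theorem nl_conj_yl (hB : Base D K) (hT : Tab D) {O : List ℕ} (hO : Orth D O) {c : ℕ → K}
    (hc : ∀ j ∈ O, c j ≠ 0) :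
    ∃ κ : ℕ → K, (∀ j ∈ O, κ j ≠ 0) ∧ ∀ g : ℕ → K,
      hB.nl c O * hB.yl D.simple O g * (hB.nl c O)⁻¹ =
        hB.yl (CommData.nsimple D) O (fun j => κ j * g j) := by
  obtain ⟨η, hη, h⟩ := nW_conj_yl hB hT hO
  refine ⟨fun j => chiL D c O (CommData.nsimple D j) * η j, fun j _ => ?_, fun g => ?_⟩
  · apply mul_ne_zero (chiL_ne_zero c O hc _)
    rcases hη j with e | e <;> rw [e] <;> simp
  · rw [nl_eq_hl_mul hB hT hO]
    have e : hB.hl c O * hB.nW O * hB.yl D.simple O g * (hB.hl c O * hB.nW O)⁻¹ =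
        hB.hl c O * (hB.nW O * hB.yl D.simple O g * (hB.nW O)⁻¹) * (hB.hl c O)⁻¹ := by group
    rw [e, (h g).1, hB.hl_conj_yl c O (fun i hi => ⟨hO.lt i hi, hc i hi⟩) _ O (nsimple_lt hT hO)]
    apply hB.yl_congr
    intro j _
    ring

theorem yl_pos_mem_U (hB : Base D K) (hT : Tab D) {O : List ℕ} (hO : Orth D O) (g : ℕ → K) :
    hB.yl D.simple O g ∈ D.posUnipotent K := by
  apply Subgroup.list_prod_mem
  intro x hx
  obtain ⟨j, hj, rfl⟩ := List.mem_map.mp hx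
  exact hB.xg_mem_pos (hT.isPos_simple (hO.lt j hj)) _

theorem yl_neg_mem_V (hB : Base D K) (hT : Tab D) {O : List ℕ} (hO : Orth D O) (g : ℕ → K) :
    hB.yl (CommData.nsimple D) O g ∈ D.negUnipotent K := by
  apply Subgroup.list_prod_mem
  intro x hx
  obtain ⟨j, hj, rfl⟩ := List.mem_map.mp hx
  exact hB.xg_mem_neg (hT.isNeg_neg (hT.isPos_simple (hO.lt j hj))) _

theorem hl_mem_H (hB : Base D K) (hT : Tab D) {O : List ℕ} (hO : Orth D O) {c : ℕ → K}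
    (hc : ∀ j ∈ O, c j ≠ 0) : hB.hl c O ∈ D.diagonalSubgroup K := by
  apply Subgroup.list_prod_mem
  intro x hx
  obtain ⟨j, hj, rfl⟩ := List.mem_map.mp hx
  exact hB.hg_mem (hT.simple_lt j (hO.lt j hj)) (hc j hj)

theorem nl_mem_N (hB : Base D K) (hT : Tab D) {O : List ℕ} (hO : Orth D O) {c : ℕ → K}
    (hc : ∀ j ∈ O, c j ≠ 0) : hB.nl c O ∈ D.monomialSubgroup K := by
  rw [nl_eq_hl_mul hB hT hO]
  exact mul_mem (Base.H_le_N (hl_mem_H hB hT hO hc)) (hB.nW_mem hT hO.lt)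

theorem yl_mem_Um_nl (X : BNData D K) {O : List ℕ} (hO : Orth D O) {c : ℕ → K}
    (hc : ∀ j ∈ O, c j ≠ 0) (g : ℕ → K) : X.hB.yl D.simple O g ∈ Um D K (X.hB.nl c O) := by
  rw [X.mem_Um_iff (nl_mem_N X.hB X.hT.tab hO hc)]
  obtain ⟨κ, -, h⟩ := nl_conj_yl X.hB X.hT.tab hO hc
  refine ⟨yl_pos_mem_U X.hB X.hT.tab hO g, ?_⟩
  rw [h]
  exact yl_neg_mem_V X.hB X.hT.tab hO _

theorem rank1_unique_orb (X : BNData D K) {O : List ℕ} (hO : Orth D O)
    (hself : ∀ a ∈ O, ∀ j ∈ O, D.cartan a (D.simple j) = if a = j then 2 else 0)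
    {a b c a' b' c' : ℕ → K} (hc : ∀ j ∈ O, c j ≠ 0) (hc' : ∀ j ∈ O, c' j ≠ 0)
    (e : X.hB.yl D.simple O a * X.hB.nl c O * X.hB.yl D.simple O b =
      X.hB.yl D.simple O a' * X.hB.nl c' O * X.hB.yl D.simple O b') :
    ∀ j ∈ O, a j = a' j ∧ b j = b' j ∧ c j ^ 2 = c' j ^ 2 := by
  have hT := X.hT.tab
  obtain ⟨e1, e2, e3⟩ := X.nf_unique (yl_pos_mem_U X.hB hT hO a) (yl_pos_mem_U X.hB hT hO a')
    (nl_mem_N X.hB hT hO hc) (nl_mem_N X.hB hT hO hc') (yl_mem_Um_nl X hO hc b) (yl_mem_Um_nl X hO hc' b') e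
  have i1 := X.hB.yl_inj X.hT id hO.lt (fun _ _ _ _ e => e) hO.nodup e1
  have i3 := X.hB.yl_inj X.hT id hO.lt (fun _ _ _ _ e => e) hO.nodup e3
  rw [nl_eq_hl_mul X.hB hT hO, nl_eq_hl_mul X.hB hT hO] at e2
  have e4 : X.hB.hl c O = X.hB.hl c' O := mul_right_cancel e2
  have e5 := X.hB.hl_conj_yl c O (fun i hi => ⟨hO.lt i hi, hc i hi⟩) D.simple O (simple_lt' hT hO) (fun _ => 1)
  have e6 := X.hB.hl_conj_yl c' O (fun i hi => ⟨hO.lt i hi, hc' i hi⟩) D.simple O (simple_lt' hT hO)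
    (fun _ => 1)
  rw [e4, e6] at e5
  have i5 := X.hB.yl_inj X.hT id hO.lt (fun _ _ _ _ e => e) hO.nodup e5
  intro j hj
  refine ⟨i1 j hj, i3 j hj, ?_⟩
  have h7 := i5 j hj
  simp only [mul_one] at h7
  rw [chiL_of_mem c' O hO.nodup (D.simple j) j 2 (fun i hi => hself i hi j hj) hj,
    chiL_of_mem c O hO.nodup (D.simple j) j 2 (fun i hi => hself i hi j hj) hj] at h7
  exact_mod_cast h7.symm

theorem yl_neg_eq (hB : Base D K) (hT : Tab D) {O : List ℕ} (hO : Orth D O) (v : ℕ → K) :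
    hB.yl (CommData.nsimple D) O v = hB.yl D.simple O (fun j => (v j)⁻¹) *
      hB.nl (fun j => -(v j)⁻¹) O * hB.yl D.simple O (fun j => (v j)⁻¹) := by
  rw [hB.nl_eq_yl hT hO]
  have e1 : hB.yl D.simple O (fun j => -(v j)⁻¹) = (hB.yl D.simple O (fun j => (v j)⁻¹))⁻¹ := by
    rw [hB.yl_inv hT hO CommData.hR1]
  have e2 : hB.yl (CommData.nsimple D) O (fun j => -(-(v j)⁻¹)⁻¹) = hB.yl (CommData.nsimple D) O v := by
    apply hB.yl_congr
    intro j _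
    rw [inv_neg, inv_inv, neg_neg]
  rw [e1, e2]
  group

theorem rank1_conj_orb (X : BNData D K) {O : List ℕ} (hO : Orth D O)
    (hself : ∀ a ∈ O, ∀ j ∈ O, D.cartan a (D.simple j) = if a = j then 2 else 0)
    {e s s' : ℕ → K} (hs : ∀ j ∈ O, s j ≠ 0) (hs' : ∀ j ∈ O, s' j ≠ 0)
    (h : X.hB.yl D.simple O e * X.hB.yl (CommData.nsimple D) O s * X.hB.yl D.simple O (fun j => -e j) =
      X.hB.yl (CommData.nsimple D) O s') : ∀ j ∈ O, e j = 0 := by
  have hT := X.hT.tab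
  have h1 : X.hB.yl D.simple O (fun j => e j + (s j)⁻¹) * X.hB.nl (fun j => -(s j)⁻¹) O *
      X.hB.yl D.simple O (fun j => (s j)⁻¹ + -e j) =
      X.hB.yl D.simple O (fun j => (s' j)⁻¹) * X.hB.nl (fun j => -(s' j)⁻¹) O *
        X.hB.yl D.simple O (fun j => (s' j)⁻¹) := by
    rw [← yl_neg_eq X.hB hT hO, ← h, yl_neg_eq X.hB hT hO s, ← X.hB.yl_mul hT hO CommData.hR1,
      ← X.hB.yl_mul hT hO CommData.hR1]
    group
  have h2 := rank1_unique_orb X hO hself (fun j hj => neg_ne_zero.mpr (inv_ne_zero (hs j hj)))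
    (fun j hj => neg_ne_zero.mpr (inv_ne_zero (hs' j hj))) h1
  intro j hj
  obtain ⟨h3, h4, h5⟩ := h2 j hj
  have h6 : e j + e j = 0 := by linear_combination h3 - h4
  have h7 : ((s' j)⁻¹) ^ 2 = (e j + (s j)⁻¹) ^ 2 := by rw [h3]
  have h8 : e j ^ 2 = 0 := by linear_combination (-1 : K) * h5 - h7 - (s j)⁻¹ * h6
  exact pow_eq_zero_iff (two_ne_zero) |>.mp h8

theorem rank1_n_orb (X : BNData D K) {O : List ℕ} (hO : Orth D O)
    (hself : ∀ a ∈ O, ∀ j ∈ O, D.cartan a (D.simple j) = if a = j then 2 else 0)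
    {a c s s' : ℕ → K} (hc : ∀ j ∈ O, c j ≠ 0) (hs : ∀ j ∈ O, s j ≠ 0) (hs' : ∀ j ∈ O, s' j ≠ 0)
    (h : (X.hB.yl D.simple O a * X.hB.yl (CommData.nsimple D) O c * X.hB.yl D.simple O a) *
      X.hB.yl D.simple O s *
      (X.hB.yl D.simple O a * X.hB.yl (CommData.nsimple D) O c * X.hB.yl D.simple O a)⁻¹ =
      X.hB.yl (CommData.nsimple D) O s') : ∀ j ∈ O, a j + (c j)⁻¹ = 0 := by
  have hT := X.hT.tab
  obtain ⟨κ, hκ, hn⟩ := nl_conj_yl X.hB hT hO (c := fun j => -(c j)⁻¹)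
    (fun j hj => neg_ne_zero.mpr (inv_ne_zero (hc j hj)))
  apply rank1_conj_orb X hO hself (e := fun j => a j + (c j)⁻¹) (s := fun j => κ j * s j) (s' := s')
    (fun j hj => mul_ne_zero (hκ j hj) (hs j hj)) hs'
  rw [← h, ← hn, yl_neg_eq X.hB hT hO c, ← X.hB.yl_inv hT hO CommData.hR1,
    ← X.hB.yl_mul hT hO CommData.hR1]
  have comm : ∀ g g' : ℕ → K, X.hB.yl D.simple O g * X.hB.yl D.simple O g' =
      X.hB.yl D.simple O g' * X.hB.yl D.simple O g := by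
    intro g g'
    rw [X.hB.yl_mul hT hO CommData.hR1, X.hB.yl_mul hT hO CommData.hR1]
    apply X.hB.yl_congr
    intro j _
    ring
  have hcomm2 := comm a s
  have hcomm3 := comm (fun j => (c j)⁻¹) s
  set A := X.hB.yl D.simple O a
  set C := X.hB.yl D.simple O (fun j => (c j)⁻¹)
  set S := X.hB.yl D.simple O s
  set N := X.hB.nl (fun j => -(c j)⁻¹) O
  have e1 : C * A * S * (C * A)⁻¹ = S := by
    calc C * A * S * (C * A)⁻¹ = C * (A * S) * A⁻¹ * C⁻¹ := by group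
      _ = C * S * C⁻¹ := by rw [hcomm2]; group
      _ = S := by rw [hcomm3]; group
  calc A * C * (N * S * N⁻¹) * (A * C)⁻¹
      = A * C * N * (C * A * S * (C * A)⁻¹) * N⁻¹ * (A * C)⁻¹ := by rw [e1]; group
    _ = A * (C * N * C) * A * S * (A * (C * N * C) * A)⁻¹ := by group

end Cfsg.Agent.Lib.Helper18.TwOut
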