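import Cfsg.Agent.Lib.Helper18.TwOut.C2

set_option autoImplicit false

/-! # Basic properties of the orbit elements `S.x`, `S.y` -/

namespace Cfsg.Agent.Lib.Helper18.TwOut

open Cfsg.Lie Matrix Cfsg.Agent.Lib.Helper6 Cfsg.Agent.Lib.Helper18 Cfsg.Agent.Lib.Lead.FixTwist

variable {D : ChevalleyDatum} {K : Type*} [Field K] {X : BNData D K}

namespace OD

variable {T : CommData X} {ι : Type*} (S : OD T ι)

theorem len_pos (i : ι) : 0 < (S.o i).length := List.length_pos_iff.mpr (T.ne_nil _ (S.o_mem i))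

theorem iter_mem (i : ι) {k : ℕ} (hk : k < (S.o i).length) : T.ρ^[k] (S.base i) ∈ S.o i := by
  have h := S.cyc i
  rw [h]
  exact List.mem_map.mpr ⟨k, List.mem_range.mpr hk, rfl⟩

theorem exists_iter (i : ι) {j : ℕ} (hj : j ∈ S.o i) :
    ∃ k, k < (S.o i).length ∧ j = T.ρ^[k] (S.base i) := by
  have h := S.cyc i
  rw [h] at hj
  obtain ⟨k, hk, rfl⟩ := List.mem_map.mp hj
  exact ⟨k, List.mem_range.mp hk, rfl⟩

theorem idxOf_iter (i : ι) {k : ℕ} (hk : k < (S.o i).length) :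
    (S.o i).idxOf (T.ρ^[k] (S.base i)) = k := by
  have hnd : ((List.range (S.o i).length).map (fun k => T.ρ^[k] (S.base i))).Nodup :=
    S.cyc i ▸ (T.orth _ (S.o_mem i)).nodup
  have := idxOf_range_map (fun k => T.ρ^[k] (S.base i)) hnd hk
  rwa [← S.cyc i] at this

theorem base_mem (i : ι) : S.base i ∈ S.o i := S.iter_mem i (S.len_pos i)

theorem pr_base (i : ι) (t : K) : S.pr i t (S.base i) = t := by
  unfold pr
  rw [show (S.o i).idxOf (S.base i) = 0 from S.idxOf_iter i (S.len_pos i)]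
  rfl

theorem pr_add (i : ι) (s t : K) (j : ℕ) : S.pr i (s + t) j = S.pr i s j + S.pr i t j :=
  iterate_map_add T.f _ s t

theorem pr_mul (i : ι) (s t : K) (j : ℕ) : S.pr i (s * t) j = S.pr i s j * S.pr i t j :=
  iterate_map_mul T.f _ s t

theorem pr_neg (i : ι) (t : K) (j : ℕ) : S.pr i (-t) j = - S.pr i t j :=
  iterate_map_neg T.f _ t

theorem iter_inv (φ : K ≃+* K) (m : ℕ) (a : K) : φ^[m] a⁻¹ = (φ^[m] a)⁻¹ := by
  induction m with
  | zero => rfl
  | succ m ih => rw [Function.iterate_succ_apply', Function.iterate_succ_apply', ih, map_inv₀]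

theorem pr_inv (i : ι) (t : K) (j : ℕ) : S.pr i t⁻¹ j = (S.pr i t j)⁻¹ := iter_inv T.f _ t

theorem pr_one (i : ι) (j : ℕ) : S.pr i 1 j = 1 := iterate_map_one T.f _

theorem pr_zero (i : ι) (j : ℕ) : S.pr i 0 j = 0 := iterate_map_zero T.f _

theorem pr_ne_zero (i : ι) {t : K} (ht : t ≠ 0) (j : ℕ) : S.pr i t j ≠ 0 := by
  intro h
  apply ht
  have : S.pr i t j = S.pr i 0 j := by rw [h, pr_zero]
  exact (T.f.injective.iterate _) this

theorem compat_eq_pr (i : ι) {g : ℕ → K} (hg : T.Compat (S.o i) g) :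
    g (S.base i) ∈ S.k i ∧ ∀ j ∈ S.o i, g j = S.pr i (g (S.base i)) j := by
  have hJs : ∀ k, T.ρ (T.ρ^[k] (S.base i)) = T.ρ^[k + 1] (S.base i) :=
    fun k => (Function.iterate_succ_apply' T.ρ k (S.base i)).symm
  have h1 : ∀ k, k ≤ (S.o i).length → g (T.ρ^[k] (S.base i)) = T.f^[k] (g (S.base i)) := by
    intro k
    induction k with
    | zero => intro _; rfl
    | succ k ih =>
      intro hk
      rw [← hJs, hg _ (S.iter_mem i (by omega)), ih (by omega), Function.iterate_succ_apply']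
  constructor
  · show T.f^[(S.o i).length] (g (S.base i)) = g (S.base i)
    rw [← h1 _ le_rfl, S.cyc' i]
  · intro j hj
    obtain ⟨k, hk, rfl⟩ := S.exists_iter i hj
    unfold pr
    rw [S.idxOf_iter i hk, h1 k hk.le]

theorem orth (i : ι) : Orth D (S.o i) := T.orth _ (S.o_mem i)

theorem x_add : ∀ i, ∀ s ∈ S.k i, ∀ t ∈ S.k i, S.x i (s + t) = S.x i s * S.x i t := by
  intro i s hs t ht
  apply Subtype.ext
  rw [Subgroup.coe_mul, S.coe_x i hs, S.coe_x i ht, S.coe_x i (add_mem hs ht),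
    X.hB.yl_mul X.hT.tab (S.orth i) CommData.hR1]
  exact X.hB.yl_congr (fun j _ => S.pr_add i s t j)

theorem y_add : ∀ i, ∀ s ∈ S.k i, ∀ t ∈ S.k i, S.y i (s + t) = S.y i s * S.y i t := by
  intro i s hs t ht
  apply Subtype.ext
  rw [Subgroup.coe_mul, S.coe_y i hs, S.coe_y i ht, S.coe_y i (add_mem hs ht),
    X.hB.yl_mul X.hT.tab (S.orth i) CommData.hR2]
  exact X.hB.yl_congr (fun j _ => S.pr_add i s t j)

theorem x_inj : ∀ i, ∀ t ∈ S.k i, S.x i t = 1 → t = 0 := by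
  intro i t ht h
  have h1 : X.hB.yl D.simple (S.o i) (S.pr i t) = X.hB.yl D.simple (S.o i) (fun _ => 0) := by
    rw [X.hB.yl_zero, ← S.coe_x i ht, h]; rfl
  have := X.hB.yl_inj X.hT id (S.orth i).lt (fun _ _ _ _ e => e) (S.orth i).nodup h1 _ (S.base_mem i)
  rwa [S.pr_base] at this

theorem y_inj : ∀ i, ∀ t ∈ S.k i, S.y i t = 1 → t = 0 := by
  intro i t ht h
  have h1 : X.hB.yl (CommData.nsimple D) (S.o i) (S.pr i t) =
      X.hB.yl (CommData.nsimple D) (S.o i) (fun _ => 0) := by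
    rw [X.hB.yl_zero, ← S.coe_y i ht, h]; rfl
  have := yl_inj_neg X.hB X.hT (S.orth i) h1 _ (S.base_mem i)
  rwa [S.pr_base] at this

/-- a compatible positive orbit product is an `S.x`. -/
theorem eq_x_of_compat (i : ι) {g : ℕ → K} (hg : T.Compat (S.o i) g) {u : ↥T.G1}
    (hu : (u : GL D.Idx K) = X.hB.yl D.simple (S.o i) g) :
    g (S.base i) ∈ S.k i ∧ u = S.x i (g (S.base i)) := by
  obtain ⟨h1, h2⟩ := S.compat_eq_pr i hg
  refine ⟨h1, Subtype.ext ?_⟩
  rw [hu, S.coe_x i h1]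
  exact X.hB.yl_congr h2

/-- a compatible negative orbit product is an `S.y`. -/
theorem eq_y_of_compat (i : ι) {g : ℕ → K} (hg : T.Compat (S.o i) g) {u : ↥T.G1}
    (hu : (u : GL D.Idx K) = X.hB.yl (CommData.nsimple D) (S.o i) g) :
    g (S.base i) ∈ S.k i ∧ u = S.y i (g (S.base i)) := by
  obtain ⟨h1, h2⟩ := S.compat_eq_pr i hg
  refine ⟨h1, Subtype.ext ?_⟩
  rw [hu, S.coe_y i h1]
  exact X.hB.yl_congr h2

theorem gen : Subgroup.closure {g : ↥T.G1 | ∃ i, ∃ t ∈ S.k i, g = S.x i t ∨ g = S.y i t} = ⊤ := by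
  have h : Subgroup.closure ((fun g : ↥T.G1 => (g : GL D.Idx K)) ⁻¹' T.genSet) = ⊤ :=
    Subgroup.closure_closure_coe_preimage (k := T.genSet)
  rw [eq_top_iff, ← h]
  apply Subgroup.closure_mono
  rintro ⟨g, hg1⟩ ⟨O, hO, t, ht, hg⟩
  obtain ⟨i, rfl⟩ := S.o_surj O hO
  rcases hg with hg | hg
  · obtain ⟨h1, h2⟩ := S.eq_x_of_compat i ht (u := ⟨g, hg1⟩) hg
    exact ⟨i, _, h1, Or.inl h2⟩
  · obtain ⟨h1, h2⟩ := S.eq_y_of_compat i ht (u := ⟨g, hg1⟩) hg
    exact ⟨i, _, h1, Or.inr h2⟩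

end OD

end Cfsg.Agent.Lib.Helper18.TwOut
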