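import Cfsg.Agent.Lib.Helper18.TwOut.C3

set_option autoImplicit false

/-! # The rank one and torus relations for the orbit elements -/

namespace Cfsg.Agent.Lib.Helper18.TwOut

open Cfsg.Lie Matrix Cfsg.Agent.Lib.Helper6 Cfsg.Agent.Lib.Helper18 Cfsg.Agent.Lib.Lead.FixTwist

variable {D : ChevalleyDatum} {K : Type*} [Field K] {X : BNData D K}

namespace OD

variable {T : CommData X} {ι : Type*} (S : OD T ι)

theorem coe_nn (i : ι) {t : K} (ht : t ∈ S.k i) :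
    ((nn (S.x i) (S.y i) t : ↥T.G1) : GL D.Idx K) = X.hB.nl (S.pr i t) (S.o i) := by
  unfold nn
  rw [Subgroup.coe_mul, Subgroup.coe_mul, S.coe_x i ht, S.coe_y i (neg_mem (inv_mem ht)),
    X.hB.nl_eq_yl X.hT.tab (S.orth i)]
  congr 2
  exact X.hB.yl_congr (fun j _ => by rw [S.pr_neg, S.pr_inv])

theorem coe_hh (i : ι) {t : K} (ht : t ∈ S.k i) :
    ((hh (S.x i) (S.y i) t : ↥T.G1) : GL D.Idx K) = X.hB.hl (S.pr i t) (S.o i) := by
  unfold hh
  have e : S.pr i (-1) = fun _ => -1 := funext (fun j => by rw [S.pr_neg, S.pr_one])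
  rw [Subgroup.coe_mul, S.coe_nn i ht, S.coe_nn i (neg_mem (one_mem _)),
    X.hB.hl_eq_nl X.hT.tab (S.orth i), e]

theorem n_conj : ∀ i, ∀ t ∈ S.k i, t ≠ 0 → ∃ κ ∈ S.k i, κ ≠ 0 ∧
    nn (S.x i) (S.y i) t * S.x i 1 * (nn (S.x i) (S.y i) t)⁻¹ = S.y i κ := by
  intro i t ht h0
  obtain ⟨κ, hκ, hn⟩ := nl_conj_yl X.hB X.hT.tab (S.orth i) (c := S.pr i t)
    (fun j _ => S.pr_ne_zero i h0 j)
  set u : ↥T.G1 := nn (S.x i) (S.y i) t * S.x i 1 * (nn (S.x i) (S.y i) t)⁻¹ with hu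
  have hu' : (u : GL D.Idx K) = X.hB.yl (CommData.nsimple D) (S.o i) (fun j => κ j * S.pr i 1 j) := by
    rw [hu, Subgroup.coe_mul, Subgroup.coe_mul, Subgroup.coe_inv, S.coe_nn i ht, S.coe_x i (one_mem _), hn]
  have hc : T.Compat (S.o i) (fun j => κ j * S.pr i 1 j) := by
    apply compat_of_fixed_neg T (S.o_mem i)
    rw [← hu']
    exact T.G1_fixed _ u.2
  obtain ⟨h1, h2⟩ := S.eq_y_of_compat i hc hu'
  refine ⟨_, h1, ?_, h2⟩
  exact mul_ne_zero (hκ _ (S.base_mem i)) (S.pr_ne_zero i one_ne_zero _)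

theorem y_zero (i : ι) : S.y i 0 = 1 := by
  apply Subtype.ext
  rw [S.coe_y i (zero_mem _)]
  have : S.pr i 0 = fun _ => 0 := funext (fun j => S.pr_zero i j)
  rw [this, X.hB.yl_zero]
  rfl

theorem rank1 : ∀ i, ∀ a ∈ S.k i, ∀ c ∈ S.k i, ∀ s ∈ S.k i, ∀ s' ∈ S.k i, c ≠ 0 → s ≠ 0 →
    (S.x i a * S.y i c * S.x i a) * S.x i s * (S.x i a * S.y i c * S.x i a)⁻¹ = S.y i s' →
    a + c⁻¹ = 0 := by
  intro i a ha c hc s hs s' hs' hc0 hs0 h
  have hs'0 : s' ≠ 0 := by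
    rintro rfl
    rw [S.y_zero] at h
    apply hs0
    apply S.x_inj i s hs
    have : S.x i s = (S.x i a * S.y i c * S.x i a)⁻¹ *
        ((S.x i a * S.y i c * S.x i a) * S.x i s * (S.x i a * S.y i c * S.x i a)⁻¹) *
        (S.x i a * S.y i c * S.x i a) := by group
    rw [this, h]; group
  have h' := congrArg (fun g : ↥T.G1 => (g : GL D.Idx K)) h
  simp only [Subgroup.coe_mul, Subgroup.coe_inv, S.coe_x i ha, S.coe_x i hs, S.coe_y i hc,
    S.coe_y i hs'] at h'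
  have := rank1_n_orb X (S.orth i) (S.self i) (fun j _ => S.pr_ne_zero i hc0 j)
    (fun j _ => S.pr_ne_zero i hs0 j) (fun j _ => S.pr_ne_zero i hs'0 j) h' _ (S.base_mem i)
  rwa [S.pr_base, S.pr_base] at this

theorem h_self : ∀ i, ∀ c ∈ S.k i, c ≠ 0 → ∀ t ∈ S.k i,
    hh (S.x i) (S.y i) c * S.x i t * (hh (S.x i) (S.y i) c)⁻¹ = S.x i (c ^ 2 * t) := by
  intro i c hc hc0 t ht
  apply Subtype.ext
  rw [Subgroup.coe_mul, Subgroup.coe_mul, Subgroup.coe_inv, S.coe_hh i hc, S.coe_x i ht,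
    S.coe_x i (mul_mem (pow_mem hc 2) ht),
    X.hB.hl_conj_yl _ _ (fun a ha => ⟨(S.orth i).lt a ha, S.pr_ne_zero i hc0 a⟩) _ _
      (simple_lt' X.hT.tab (S.orth i))]
  apply X.hB.yl_congr
  intro j hj
  rw [chiL_of_mem _ _ (S.orth i).nodup (D.simple j) j 2 (fun a ha => S.self i a ha j hj) hj, S.pr_mul,
    pow_two, S.pr_mul]
  congr 1
  exact_mod_cast pow_two (S.pr i c j)

theorem k_root : ∀ t, t ∈ S.k S.i0 := S.root

theorem iter_mod (i : ι) {c : K} (hc : c ∈ S.k i) (n : ℕ) :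
    T.f^[n % (S.o i).length] c = T.f^[n] c := by
  conv_rhs => rw [← Nat.mod_add_div n (S.o i).length]
  rw [Function.iterate_add_apply, Function.iterate_mul]
  congr 1
  exact (Function.iterate_fixed hc _).symm

theorem tree' : ∀ i, i = S.i0 ∨ (S.μ (S.par i) < S.μ i ∧ S.k i ≤ S.k (S.par i) ∧
    ∀ c ∈ S.k i, c ≠ 0 → ∀ t ∈ S.k (S.par i),
      hh (S.x i) (S.y i) c * S.x (S.par i) t * (hh (S.x i) (S.y i) c)⁻¹ = S.x (S.par i) (c⁻¹ * t)) := by
  intro i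
  rcases S.tree i with h | ⟨h1, ⟨d, hd⟩, h3⟩
  · exact Or.inl h
  · right
    have hle : S.k i ≤ S.k (S.par i) := by
      intro t ht
      show T.f^[(S.o (S.par i)).length] t = t
      rw [hd, Function.iterate_mul]
      exact Function.iterate_fixed ht _
    refine ⟨h1, hle, ?_⟩
    intro c hc hc0 t ht
    apply Subtype.ext
    rw [Subgroup.coe_mul, Subgroup.coe_mul, Subgroup.coe_inv, S.coe_hh i hc, S.coe_x _ ht,
      S.coe_x _ (mul_mem (inv_mem (hle hc)) ht),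
      X.hB.hl_conj_yl _ _ (fun a ha => ⟨(S.orth i).lt a ha, S.pr_ne_zero i hc0 a⟩) _ _
        (simple_lt' X.hT.tab (S.orth _))]
    apply X.hB.yl_congr
    intro j hj
    obtain ⟨m1, m2, m3⟩ := h3 j hj
    rw [chiL_of_mem _ _ (S.orth i).nodup (D.simple j) (S.m i j) (-1) m3 m1, S.pr_mul, S.pr_inv,
      _root_.zpow_neg_one]
    congr 2
    unfold pr
    rw [m2, S.iter_mod i hc]

end OD

end Cfsg.Agent.Lib.Helper18.TwOut
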