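import Cfsg.Agent.Lib.Helper18.TwOut.Defs
import Cfsg.Agent.Lib.Helper18.TwOut.ADefs
import Cfsg.Agent.Lib.Helper18.TwistPerf
import Cfsg.Agent.Lib.Helper18.FixOfTwist
import Cfsg.Agent.Lib.Helper36.ChevOut3

set_option autoImplicit false

/-!
# Outer automorphisms of twisted groups with orthogonal orbits: definitions for the instantiation
-/

namespace Cfsg.Agent.Lib.Helper18.TwOut

open Cfsg.Lie Matrix Cfsg.Agent.Lib.Helper6 Cfsg.Agent.Lib.Helper18 Cfsg.Agent.Lib.Lead.FixTwist

variable {D : ChevalleyDatum} {K : Type*} [Field K] {X : BNData D K}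

/-- the fixed field of `φ ^ n`. -/
def fixSub (φ : K ≃+* K) (n : ℕ) : Subfield K where
  carrier := {t | φ^[n] t = t}
  mul_mem' := by
    intro a b ha hb
    show φ^[n] (a * b) = a * b
    rw [iterate_map_mul, ha, hb]
  one_mem' := iterate_map_one φ n
  add_mem' := by
    intro a b ha hb
    show φ^[n] (a + b) = a + b
    rw [iterate_map_add, ha, hb]
  zero_mem' := iterate_map_zero φ n
  neg_mem' := by
    intro a ha
    show φ^[n] (-a) = -a
    rw [iterate_map_neg, ha]
  inv_mem' := by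
    intro a ha
    show φ^[n] a⁻¹ = a⁻¹
    have h : ∀ m : ℕ, φ^[m] a⁻¹ = (φ^[m] a)⁻¹ := by
      intro m
      induction m with
      | zero => rfl
      | succ m ih => rw [Function.iterate_succ_apply', Function.iterate_succ_apply', ih, map_inv₀]
    rw [h, ha]

lemma mem_fixSub {φ : K ≃+* K} {n : ℕ} {t : K} : t ∈ fixSub φ n ↔ φ^[n] t = t := Iff.rfl

/-- the combinatorial data: the orbits `o i`, listed as `base i, ρ (base i), ρ² (base i), …`, and a spanning tree of the
diagram of the orbits. -/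
structure OD (T : CommData X) (ι : Type*) where
  o : ι → List ℕ
  base : ι → ℕ
  o_mem : ∀ i, o i ∈ T.orbs
  o_surj : ∀ O ∈ T.orbs, ∃ i, o i = O
  disj : ∀ i i', ∀ j ∈ o i, j ∈ o i' → i = i'
  cyc : ∀ i, o i = (List.range (o i).length).map (fun k => T.ρ^[k] (base i))
  cyc' : ∀ i, T.ρ^[(o i).length] (base i) = base i
  self : ∀ i, ∀ a ∈ o i, ∀ j ∈ o i, D.cartan a (D.simple j) = if a = j then 2 else 0
  i0 : ι
  root : ∀ t, T.f^[(o i0).length] t = t
  par : ι → ι
  μ : ι → ℕ
  m : ι → ℕ → ℕ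
  tree : ∀ i, i = i0 ∨ (μ (par i) < μ i ∧ (o i).length ∣ (o (par i)).length ∧
    ∀ j ∈ o (par i), m i j ∈ o i ∧ (o i).idxOf (m i j) = (o (par i)).idxOf j % (o i).length ∧
      ∀ a ∈ o i, D.cartan a (D.simple j) = if a = m i j then -1 else 0)
  q : ℕ
  hf : ∀ t, T.f t = t ^ q

namespace OD

variable {T : CommData X} {ι : Type*} (S : OD T ι)

/-- the parameters of an orbit element. -/
def pr (i : ι) (t : K) : ℕ → K := fun j => T.f^[(S.o i).idxOf j] t

/-- the field of an orbit. -/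
def k (i : ι) : Subfield K := fixSub T.f (S.o i).length

lemma compat_pr (i : ι) {t : K} (ht : t ∈ S.k i) : T.Compat (S.o i) (S.pr i t) :=
  T.compat_iter (S.o_mem i) (S.cyc i) (S.cyc' i) ht

open Classical in
/-- truncation to the field of the orbit. -/
noncomputable def clip (i : ι) (t : K) : K := if t ∈ S.k i then t else 0

lemma clip_mem (i : ι) (t : K) : S.clip i t ∈ S.k i := by
  unfold clip
  split_ifs with h
  · exact h
  · exact zero_mem _

lemma clip_of_mem (i : ι) {t : K} (ht : t ∈ S.k i) : S.clip i t = t := if_pos ht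

/-- the positive orbit elements. -/
noncomputable def x (i : ι) (t : K) : ↥T.G1 :=
  ⟨X.hB.yl D.simple (S.o i) (S.pr i (S.clip i t)), T.yl_pos_mem (S.o_mem i) (S.compat_pr i (S.clip_mem i t))⟩

/-- the negative orbit elements. -/
noncomputable def y (i : ι) (t : K) : ↥T.G1 :=
  ⟨X.hB.yl (CommData.nsimple D) (S.o i) (S.pr i (S.clip i t)),
    T.yl_neg_mem (S.o_mem i) (S.compat_pr i (S.clip_mem i t))⟩

lemma coe_x (i : ι) {t : K} (ht : t ∈ S.k i) :
    ((S.x i t : ↥T.G1) : GL D.Idx K) = X.hB.yl D.simple (S.o i) (S.pr i t) := by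
  show X.hB.yl D.simple (S.o i) (S.pr i (S.clip i t)) = _
  rw [S.clip_of_mem i ht]

lemma coe_y (i : ι) {t : K} (ht : t ∈ S.k i) :
    ((S.y i t : ↥T.G1) : GL D.Idx K) = X.hB.yl (CommData.nsimple D) (S.o i) (S.pr i t) := by
  show X.hB.yl (CommData.nsimple D) (S.o i) (S.pr i (S.clip i t)) = _
  rw [S.clip_of_mem i ht]

/-- the diagonal subgroup. -/
def H1 (T : CommData X) : Subgroup ↥T.G1 := (D.diagonalSubgroup K).subgroupOf T.G1

end OD

/-- the `FixBN` of a `CommData`. -/
abbrev fb (T : CommData X) : FixBN X := T.toTwistBN.toFixBN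

end Cfsg.Agent.Lib.Helper18.TwOut
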