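import Cfsg.Agent.Lib.Helper18.TwOut.CDefs
import Cfsg.Agent.Lib.Helper18.TwistD4
import Cfsg.Agent.Lib.Helper18.TwistE6

set_option autoImplicit false

/-! # Table checks for the outer automorphism groups of `³D₄(q)` and `²E₆(q)` -/

namespace Cfsg.Agent.Lib.Helper18.TwOut

open Cfsg.Lie Matrix Cfsg.Agent.Lib.Helper6 Cfsg.Agent.Lib.Helper18 Cfsg.Agent.Lib.Lead.FixTwist

/-- packed version of `Opp`. -/
def OppChk (n T : ℕ) (orbs chain : List (List ℕ)) : Prop :=
  ∀ O ∈ orbs, ∀ r < n, n / 2 ≤ r → wActT T n O r < n / 2 →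
    n / 2 ≤ wActT T n (cw chain) (wActT T n O r) ∧
      wActT T n O (wActT T n (cw chain) (wActT T n O r)) < n / 2

instance (n T : ℕ) (orbs chain : List (List ℕ)) : Decidable (OppChk n T orbs chain) := by
  unfold OppChk; infer_instance

theorem opp_of_check {D : ChevalleyDatum} {S T : ℕ} {orbs chain : List (List ℕ)} (hT : Tab D)
    (h1 : agreeB D S T = true) (hlt : ∀ O ∈ orbs, ∀ i ∈ O, i < D.rank) (hcw : ∀ i ∈ cw chain, i < D.rank)
    (h : OppChk D.nroots T orbs chain) :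
    ∀ O ∈ orbs, ∀ r, D.IsPosRoot r → D.IsNegRoot (wAct D O r) →
      D.IsPosRoot (wAct D (cw chain) (wAct D O r)) ∧
        D.IsNegRoot (wAct D O (wAct D (cw chain) (wAct D O r))) := by
  intro O hO r hp hn
  have hO' := hlt O hO
  have l1 := hT.wAct_lt hO' hp.1
  have l2 := hT.wAct_lt hcw l1
  have l3 := hT.wAct_lt hO' l2
  rw [hT.neg_iff _ l1, wAct_eq_wActT hT h1 hO' hp.1] at hn
  rw [hT.pos_iff _ l2, hT.neg_iff _ l3, wAct_eq_wActT hT h1 hO' l2, wAct_eq_wActT hT h1 hcw l1,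
    wAct_eq_wActT hT h1 hO' hp.1]
  exact h O hO r hp.1 ((hT.pos_iff r hp.1).mp hp) hn

set_option maxRecDepth 100000 in
theorem oppD4 : ∀ O ∈ orbsD4, ∀ r, chevD4.IsPosRoot r → chevD4.IsNegRoot (wAct chevD4 O r) →
    chevD4.IsPosRoot (wAct chevD4 (cw chainD4t) (wAct chevD4 O r)) ∧
      chevD4.IsNegRoot (wAct chevD4 O (wAct chevD4 (cw chainD4t) (wAct chevD4 O r))) :=
  opp_of_check tabD4 agreeD4 (by decide +kernel) (by decide +kernel) (by decide +kernel)

set_option maxRecDepth 100000 in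
theorem oppE6 : ∀ O ∈ orbsE6, ∀ r, chevE6.IsPosRoot r → chevE6.IsNegRoot (wAct chevE6 O r) →
    chevE6.IsPosRoot (wAct chevE6 (cw chainE6t) (wAct chevE6 O r)) ∧
      chevE6.IsNegRoot (wAct chevE6 O (wAct chevE6 (cw chainE6t) (wAct chevE6 O r))) :=
  opp_of_check tabE6 agreeE6 (by decide +kernel) (by decide +kernel) (by decide +kernel)

end Cfsg.Agent.Lib.Helper18.TwOut
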