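import Cfsg.Agent.Lib.Helper18.TwOut.C3
import Cfsg.Agent.Lib.Helper18.TwOut.A8

set_option autoImplicit false

/-! # The permutation of the orbits induced by a standard automorphism -/

namespace Cfsg.Agent.Lib.Helper18.TwOut

open Cfsg.Lie Matrix Cfsg.Agent.Lib.Helper6 Cfsg.Agent.Lib.Helper18 Cfsg.Agent.Lib.Lead.FixTwist

variable {D : ChevalleyDatum} {K : Type*} [Field K] {X : BNData D K}

theorem yl_append (hB : Base D K) (R : ℕ → ℕ) (O O' : List ℕ) (g : ℕ → K) :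
    hB.yl R (O ++ O') g = hB.yl R O g * hB.yl R O' g := by
  unfold Base.yl
  rw [List.map_append, List.prod_append]

namespace OD

variable {T : CommData X} {ι : Type*} (S : OD T ι)

theorem x_inj' (i : ι) {s t : K} (hs : s ∈ S.k i) (ht : t ∈ S.k i) (h : S.x i s = S.x i t) : s = t := by
  have h1 : X.hB.yl D.simple (S.o i) (S.pr i s) = X.hB.yl D.simple (S.o i) (S.pr i t) := by
    rw [← S.coe_x i hs, ← S.coe_x i ht, h]
  have := X.hB.yl_inj X.hT id (S.orth i).lt (fun _ _ _ _ e => e) (S.orth i).nodup h1 _ (S.base_mem i)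
  rwa [S.pr_base, S.pr_base] at this

open Classical in
/-- distinct orbits have distinct root subgroups. -/
theorem eq_of_x_eq {i i' : ι} {s t : K} (hs : s ∈ S.k i) (ht : t ∈ S.k i') (h0 : s ≠ 0)
    (h : S.x i s = S.x i' t) : i = i' := by
  by_contra hne
  have hdisj : ∀ j ∈ S.o i, j ∉ S.o i' := fun j hj hj' => hne (S.disj i i' j hj hj')
  have hnd : (S.o i ++ S.o i').Nodup :=
    List.nodup_append.mpr ⟨(S.orth i).nodup, (S.orth i').nodup, fun a ha b hb e => hdisj a ha (e ▸ hb)⟩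
  have h1 : X.hB.yl D.simple (S.o i) (S.pr i s) = X.hB.yl D.simple (S.o i') (S.pr i' t) := by
    rw [← S.coe_x i hs, ← S.coe_x i' ht, h]
  have h2 : X.hB.yl D.simple (S.o i ++ S.o i') (fun j => if j ∈ S.o i then S.pr i s j else 0) =
      X.hB.yl D.simple (S.o i ++ S.o i') (fun j => if j ∈ S.o i then 0 else S.pr i' t j) := by
    rw [yl_append, yl_append]
    have a1 : X.hB.yl D.simple (S.o i) (fun j => if j ∈ S.o i then S.pr i s j else 0) =
        X.hB.yl D.simple (S.o i) (S.pr i s) := X.hB.yl_congr (fun j hj => if_pos hj)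
    have a2 : X.hB.yl D.simple (S.o i') (fun j => if j ∈ S.o i then S.pr i s j else 0) = 1 := by
      rw [← X.hB.yl_zero D.simple (S.o i')]
      exact X.hB.yl_congr (fun j hj => if_neg (fun hj' => hdisj j hj' hj))
    have a3 : X.hB.yl D.simple (S.o i) (fun j => if j ∈ S.o i then 0 else S.pr i' t j) = 1 := by
      rw [← X.hB.yl_zero D.simple (S.o i)]
      exact X.hB.yl_congr (fun j hj => if_pos hj)
    have a4 : X.hB.yl D.simple (S.o i') (fun j => if j ∈ S.o i then 0 else S.pr i' t j) =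
        X.hB.yl D.simple (S.o i') (S.pr i' t) :=
      X.hB.yl_congr (fun j hj => if_neg (fun hj' => hdisj j hj' hj))
    rw [a1, a2, a3, a4, mul_one, one_mul, h1]
  have h3 := X.hB.yl_inj X.hT id
    (fun j hj => by
      rcases List.mem_append.mp hj with hj | hj
      · exact (S.orth i).lt j hj
      · exact (S.orth i').lt j hj)
    (fun _ _ _ _ e => e) hnd h2 (S.base i) (List.mem_append.mpr (Or.inl (S.base_mem i)))
  simp only [if_pos (S.base_mem i), S.pr_base] at h3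
  exact h0 h3

theorem into_of {θ : ↥T.G1 ≃* ↥T.G1} {i i' : ι}
    (h : ∀ (u : GL D.Idx K) (hu : u ∈ T.G1), u ∈ Um D K (X.hB.nW (S.o i)) →
      ((θ ⟨u, hu⟩ : ↥T.G1) : GL D.Idx K) ∈ Um D K (X.hB.nW (S.o i'))) :
    ∀ t ∈ S.k i, ∃ s ∈ S.k i', θ (S.x i t) = S.x i' s := by
  intro t ht
  have hx := h _ (S.x i t).2 (by rw [S.coe_x i ht]; exact yl_pos_mem_Um T (S.o_mem i) _)
  obtain ⟨g', hg', e⟩ := exists_yl_pos T (S.o_mem i') hx (θ _).2
  obtain ⟨h3, h4⟩ := S.eq_x_of_compat i' hg' e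
  exact ⟨_, h3, h4⟩

/-- `θ` maps the root subgroup of `o i` ONTO the root subgroup of `o i'`. -/
theorem root_onto [Finite K] (hopp : Opp (fb T)) {θ : ↥T.G1 ≃* ↥T.G1} (hθ : Std1 (fb T) θ) {i i' : ι}
    (h : ∀ (u : GL D.Idx K) (hu : u ∈ T.G1), u ∈ Um D K (X.hB.nW (S.o i)) →
      ((θ ⟨u, hu⟩ : ↥T.G1) : GL D.Idx K) ∈ Um D K (X.hB.nW (S.o i'))) :
    (∀ t ∈ S.k i, ∃ s ∈ S.k i', θ (S.x i t) = S.x i' s) ∧
    (∀ s ∈ S.k i', ∃ t ∈ S.k i, θ (S.x i t) = S.x i' s) ∧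
    Nat.card (S.k i) = Nat.card (S.k i') := by
  have h1 := S.into_of h
  obtain ⟨O'', hO'', h2, -⟩ := hθ.symm.root hopp (S.o_mem i')
  obtain ⟨i'', rfl⟩ := S.o_surj O'' hO''
  have h3 : ∀ t ∈ S.k i', ∃ s ∈ S.k i'', θ.symm (S.x i' t) = S.x i'' s := S.into_of h2
  have hii : i = i'' := by
    obtain ⟨s, hs, e⟩ := h1 1 (one_mem _)
    obtain ⟨s', hs', e'⟩ := h3 s hs
    rw [← e, MulEquiv.symm_apply_apply] at e'
    exact S.eq_of_x_eq (one_mem _) hs' one_ne_zero e'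
  subst hii
  have h4 : ∀ s ∈ S.k i', ∃ t ∈ S.k i, θ (S.x i t) = S.x i' s := by
    intro s hs
    obtain ⟨t, ht, e⟩ := h3 s hs
    exact ⟨t, ht, by rw [← e, MulEquiv.apply_symm_apply]⟩
  refine ⟨h1, h4, ?_⟩
  choose f hf hf' using h1
  apply Nat.card_eq_of_bijective (fun t : S.k i => (⟨f t.1 t.2, hf t.1 t.2⟩ : S.k i'))
  constructor
  · intro a b hab
    have e : f a.1 a.2 = f b.1 b.2 := congrArg Subtype.val hab
    have e1 : θ (S.x i a.1) = θ (S.x i b.1) := by rw [hf' a.1 a.2, hf' b.1 b.2, e]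
    exact Subtype.ext (S.x_inj' i a.2 b.2 (θ.injective e1))
  · intro s
    obtain ⟨t, ht, e⟩ := h4 s.1 s.2
    refine ⟨⟨t, ht⟩, Subtype.ext ?_⟩
    show f t ht = s.1
    apply S.x_inj' i' (hf t ht) s.2
    rw [← hf' t ht, e]

end OD

end Cfsg.Agent.Lib.Helper18.TwOut
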