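import Cfsg.Agent.Lib.Helper18.TwOut.CDefs
import Cfsg.Agent.Lib.Helper18.TwistHLem

set_option autoImplicit false

namespace Cfsg.Agent.Lib.Helper18.TwOut

open Cfsg.Lie Matrix Cfsg.Agent.Lib.Helper6 Cfsg.Agent.Lib.Helper18 Cfsg.Agent.Lib.Lead.FixTwist

variable {D : ChevalleyDatum} {K : Type*} [Field K] {X : BNData D K}

theorem card_fixSub_top [Finite K] (φ : K ≃+* K) (n : ℕ) (h : ∀ t, φ^[n] t = t) :
    Nat.card (fixSub φ n) = Nat.card K :=
  Nat.card_congr (Equiv.subtypeUnivEquiv (fun t => h t))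

theorem card_fixSub_one [Fintype K] (φ : K ≃+* K) {q e : ℕ} (hq : 1 ≤ q) (hφ : ∀ t, φ t = t ^ q)
    (hK : Fintype.card K = q ^ e) : Nat.card (fixSub φ 1) - 1 = q - 1 := by
  classical
  rw [← Nat.card_units]
  have hG : Nat.card Kˣ = q ^ e - 1 := by
    rw [Nat.card_units, Nat.card_eq_fintype_card, hK]
  rw [← card_pow_fixed_cyc (G := Kˣ) hq hG]
  have hmem : ∀ t : K, t ∈ fixSub φ 1 ↔ t = t ^ q := by
    intro t
    rw [mem_fixSub, Function.iterate_one, hφ, eq_comm]
  let f : (fixSub φ 1)ˣ → {x : Kˣ // x = x ^ q} := fun u =>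
    ⟨Units.map ((fixSub φ 1).subtype : fixSub φ 1 →+* K).toMonoidHom u, by
      apply Units.ext
      rw [Units.val_pow_eq_pow_val]
      exact (hmem _).1 (u : fixSub φ 1).2⟩
  apply Nat.card_congr (Equiv.ofBijective f ⟨?_, ?_⟩)
  · intro u v huv
    have h1 := congrArg (fun x : {x : Kˣ // x = x ^ q} => ((x : Kˣ) : K)) huv
    exact Units.ext (Subtype.ext h1)
  · rintro ⟨x, hx⟩
    have hx' : (x : K) ∈ fixSub φ 1 := by
      rw [hmem]
      have := congrArg (fun y : Kˣ => (y : K)) hx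
      simpa using this
    refine ⟨Units.mk0 ⟨x, hx'⟩ (fun h => x.ne_zero (congrArg Subtype.val h)), ?_⟩
    apply Subtype.ext
    apply Units.ext
    rfl

/-- the centre of a nonabelian simple group is trivial. -/
theorem center_trivial {G : Type*} [Group G] (h1 : IsSimpleGroup G) (h2 : ¬ IsMulCommutative G) :
    ∀ g : G, (∀ g' : G, g * g' = g' * g) → g = 1 := by
  intro g hg
  have hc : g ∈ Subgroup.center G := Subgroup.mem_center_iff.2 (fun g' => (hg g').symm)
  rcases (inferInstance : (Subgroup.center G).Normal).eq_bot_or_eq_top with h | h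
  · rwa [h, Subgroup.mem_bot] at hc
  · exfalso
    apply h2
    refine ⟨⟨fun a b => ?_⟩⟩
    have ha : a ∈ Subgroup.center G := by rw [h]; trivial
    exact (Subgroup.mem_center_iff.1 ha b).symm

end Cfsg.Agent.Lib.Helper18.TwOut
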