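import Cfsg.Agent.Lib.Helper18.TwOut.Asm
import Cfsg.Agent.Lib.Helper18.TwOut.P1
import Cfsg.Agent.Lib.Helper18.TwOut.P2
import Cfsg.Agent.Lib.Helper18.TwOut.Chk
import Cfsg.Agent.Lib.Helper18.TwistHD4
import Cfsg.Agent.Lib.Helper18.TwistSimple
import Cfsg.Agent.Lib.Helper43.PA.FieldAut

set_option autoImplicit false

namespace Cfsg.Agent.Lib.Helper18.TwOut

open Cfsg.Lie Matrix Cfsg.Agent.Lib.Helper6 Cfsg.Agent.Lib.Helper18 Cfsg.Agent.Lib.Lead.FixTwist

variable {K : Type*} [Field K]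

set_option maxRecDepth 100000 in
theorem selfD4 : ∀ i : Fin 2, ∀ a ∈ (![[0, 2, 3], [1]] : Fin 2 → List ℕ) i, ∀ j ∈ (![[0, 2, 3], [1]] : Fin 2 → List ℕ) i,
    chevD4.cartan a (chevD4.simple j) = if a = j then 2 else 0 := by decide +kernel

set_option maxRecDepth 100000 in
theorem edgeD4 : ∀ j ∈ [0, 2, 3], 1 ∈ [1] ∧ [1].idxOf 1 = [0, 2, 3].idxOf j % [1].length ∧
      ∀ a ∈ [1], chevD4.cartan a (chevD4.simple j) = if a = 1 then -1 else 0 := by decide +kernel

/-- the combinatorial data of `³D₄(q)`. -/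
noncomputable def odD4 [Fintype K] {q : ℕ} (hK : Fintype.card K = q ^ 3) (T : CommData (bnData_of_mem K memD4))
    (hf : ∀ t, T.f t = t ^ q) (hO : T.orbs = orbsD4) (hρ : T.ρ = byte rhoTD4) : OD T (Fin 2) where
  o := ![[0, 2, 3], [1]]
  base := ![0, 1]
  o_mem := by
    rw [hO]; decide
  o_surj := by
    rw [hO]; decide
  disj := by decide
  cyc := by
    rw [hρ]; decide +kernel
  cyc' := by
    rw [hρ]; decide +kernel
  self := selfD4
  i0 := 0
  root := by
    intro t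
    show T.f (T.f (T.f t)) = t
    have e : q * (q * q) = q ^ 3 := by ring
    rw [hf, hf, hf, ← pow_mul, ← pow_mul, e, ← hK, FiniteField.pow_card]
  par := ![0, 0]
  μ := ![0, 1]
  m := fun _ _ => 1
  tree := by
    intro i
    fin_cases i
    · left; rfl
    · right
      exact ⟨by decide, by decide, edgeD4⟩
  q := q
  hf := hf

theorem cube_sub_one (q : ℕ) (hq : 1 ≤ q) : q ^ 3 - 1 = (q - 1) * (q ^ 2 + q + 1) := by
  obtain ⟨m, rfl⟩ : ∃ m, q = m + 1 := ⟨q - 1, by omega⟩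
  apply Nat.sub_eq_of_eq_add
  simp only [Nat.add_sub_cancel]
  ring

theorem cube_sub_one_ne (q : ℕ) (hq : 2 ≤ q) : q ^ 3 - 1 ≠ q - 1 := by
  rw [cube_sub_one q (by omega)]
  intro h
  have h1 : 0 < q - 1 := by omega
  have h2 : (q - 1) * (q ^ 2 + q + 1) = (q - 1) * 1 := by rw [h, mul_one]
  have h3 := Nat.eq_of_mul_eq_mul_left h1 h2
  have : 0 < q ^ 2 := by positivity
  omega

theorem card_out_D4 [Fintype K] (p f : ℕ) [Fact p.Prime] [CharP K p] (hK : Fintype.card K = p ^ (3 * f))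
    (hf : 1 ≤ f) : Nat.card (Cfsg.Out ↥(twistedD4 K (p ^ f))) = 3 * f := by
  have hp : p.Prime := Fact.out
  set q := p ^ f with hq0
  have hq : IsPrimePow q := ⟨p, f, hp.prime, by omega, rfl⟩
  have hK' : Fintype.card K = q ^ 3 := by rw [hK, hq0, ← pow_mul, mul_comm]
  have hq2 : 2 ≤ q := hq.two_le
  obtain ⟨T, hG, hf', hO, hρ, -, hch⟩ := exists_commData_D4 hq hK'
  let S := odD4 hK' T hf' hO hρ
  have hopp : Opp (fb T) := by
    intro O hO' r
    have hO'' : O ∈ orbsD4 := hO ▸ hO'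
    have := oppD4 O hO'' r
    rw [← hch] at this
    exact this
  have hsim := simple_D4 hq hK'
  rw [← hG] at hsim
  have hcen := center_trivial hsim.1 hsim.2
  have c0 : Nat.card (S.k 0) = q ^ 3 := by
    rw [← hK', ← Nat.card_eq_fintype_card]
    exact card_fixSub_top T.f _ S.root
  have c1 : Nat.card (S.k 1) - 1 = q - 1 := card_fixSub_one T.f (by omega) hf' hK'
  have hperm : ∀ θ : ↥T.G1 ≃* ↥T.G1, Std1 (fb T) θ → ∀ O ∈ T.orbs, ∀ O' ∈ T.orbs,
      (∀ (u : GL chevD4.Idx K) (hu : u ∈ T.G1), u ∈ Um chevD4 K ((bnData_of_mem K memD4).hB.nW O) →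
        ((θ ⟨u, hu⟩ : ↥T.G1) : GL chevD4.Idx K) ∈ Um chevD4 K ((bnData_of_mem K memD4).hB.nW O')) → O' = O := by
    intro θ hθ O hO1 O' hO2 h
    obtain ⟨i, rfl⟩ := S.o_surj O hO1
    obtain ⟨i', rfl⟩ := S.o_surj O' hO2
    have hc := (S.root_onto hopp hθ h).2.2
    have hne : Nat.card (S.k 0) ≠ Nat.card (S.k 1) := by
      intro e
      rw [← e, c0] at c1
      exact cube_sub_one_ne q hq2 c1
    fin_cases i <;> fin_cases i'
    · rfl
    · exact absurd hc hne
    · exact absurd hc.symm hne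
    · rfl
  have key := S.card_out memD4 hopp hperm hcen
  rw [hG, card_H1_D4 hq hK', Fin.prod_univ_two, c0, c1, Cfsg.Agent.Lib.Helper43.PA.card_ringAut hK] at key
  rw [cube_sub_one q (by omega)] at key
  have hpos : 0 < (q - 1) ^ 2 * (q ^ 2 + q + 1) := by
    have : 0 < q - 1 := by omega
    positivity
  apply Nat.eq_of_mul_eq_mul_right hpos
  rw [key]; ring

end Cfsg.Agent.Lib.Helper18.TwOut
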