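import Mathlib
import Cfsg.Prelude.Def_KGroupFacts

set_option autoImplicit false

/-!
# Outer automorphisms of twisted groups: the abstract setting

`G` is generated by "fundamental root subgroups" `x i (k i)`, `y i (k i)` parametrised by subfields `k i` of a finite
field `K`.
-/

namespace Cfsg.Agent.Lib.Helper18.TwOut

variable {G : Type*} [Group G] {K : Type*} [Field K]

/-- `n(t) = x(t) y(-t⁻¹) x(t)`. -/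
def nn (x y : K → G) (t : K) : G := x t * y (-t⁻¹) * x t

/-- `h(t) = n(t) n(-1)`. -/
def hh (x y : K → G) (t : K) : G := nn x y t * nn x y (-1)

/-- the abstract data. -/
structure TD (G : Type*) [Group G] (K : Type*) [Field K] (ι : Type*) where
  k : ι → Subfield K
  x : ι → K → G
  y : ι → K → G
  H : Subgroup G
  x_add : ∀ i, ∀ s ∈ k i, ∀ t ∈ k i, x i (s + t) = x i s * x i t
  y_add : ∀ i, ∀ s ∈ k i, ∀ t ∈ k i, y i (s + t) = y i s * y i t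
  x_inj : ∀ i, ∀ t ∈ k i, x i t = 1 → t = 0
  y_inj : ∀ i, ∀ t ∈ k i, y i t = 1 → t = 0
  gen : Subgroup.closure {g : G | ∃ i, ∃ t ∈ k i, g = x i t ∨ g = y i t} = ⊤
  n_conj : ∀ i, ∀ t ∈ k i, t ≠ 0 → ∃ κ ∈ k i, κ ≠ 0 ∧
    nn (x i) (y i) t * x i 1 * (nn (x i) (y i) t)⁻¹ = y i κ
  rank1 : ∀ i, ∀ a ∈ k i, ∀ c ∈ k i, ∀ s ∈ k i, ∀ s' ∈ k i, c ≠ 0 → s ≠ 0 →
    (x i a * y i c * x i a) * x i s * (x i a * y i c * x i a)⁻¹ = y i s' → a + c⁻¹ = 0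
  h_self : ∀ i, ∀ c ∈ k i, c ≠ 0 → ∀ t ∈ k i,
    hh (x i) (y i) c * x i t * (hh (x i) (y i) c)⁻¹ = x i (c ^ 2 * t)
  i0 : ι
  k_root : ∀ t, t ∈ k i0
  par : ι → ι
  μ : ι → ℕ
  tree : ∀ i, i = i0 ∨ (μ (par i) < μ i ∧ k i ≤ k (par i) ∧ ∀ c ∈ k i, c ≠ 0 → ∀ t ∈ k (par i),
    hh (x i) (y i) c * x (par i) t * (hh (x i) (y i) c)⁻¹ = x (par i) (c⁻¹ * t))
  k_stable : ∀ σ : K ≃+* K, ∀ i, ∀ t ∈ k i, σ t ∈ k i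
  fieldAut : ∀ σ : K ≃+* K, ∃ φ : G ≃* G, ∀ i, ∀ t ∈ k i, φ (x i t) = x i (σ t) ∧ φ (y i t) = y i (σ t)
  diagAut : ∀ α : ι → K, (∀ i, α i ∈ k i ∧ α i ≠ 0) → ∃ δ : G ≃* G, ∀ i, ∀ t ∈ k i,
    δ (x i t) = x i (α i * t) ∧ δ (y i t) = y i ((α i)⁻¹ * t)
  std : ∀ θ : G ≃* G, ∃ g : G, ∀ i, ∀ t ∈ k i,
    (∃ s ∈ k i, θ (x i t) = g * x i s * g⁻¹) ∧ (∃ s ∈ k i, θ (y i t) = g * y i s * g⁻¹)
  mem_H : ∀ g : G, (∀ i, ∀ t ∈ k i, (∃ s ∈ k i, g * x i t * g⁻¹ = x i s) ∧ (∃ s ∈ k i, g * y i t * g⁻¹ = y i s)) →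
    g ∈ H
  H_act : ∀ h ∈ H, ∃ α : ι → K, (∀ i, α i ∈ k i ∧ α i ≠ 0) ∧ ∀ i, ∀ t ∈ k i,
    h * x i t * h⁻¹ = x i (α i * t) ∧ h * y i t * h⁻¹ = y i ((α i)⁻¹ * t)
  center : ∀ g : G, (∀ g' : G, g * g' = g' * g) → g = 1

end Cfsg.Agent.Lib.Helper18.TwOut
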