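import Cfsg.Agent.Lib.Helper18.TwOut.C3
import Cfsg.Agent.Lib.Helper36.ChevAut8

set_option autoImplicit false

/-! # Commuting and non commuting root subgroups of a twisted group -/

namespace Cfsg.Agent.Lib.Helper18.TwOut

open Cfsg.Lie Matrix Cfsg.Agent.Lib.Helper6 Cfsg.Agent.Lib.Helper18 Cfsg.Agent.Lib.Lead.FixTwist

variable {D : ChevalleyDatum} {K : Type*} [Field K] {X : BNData D K}

theorem commute_yl_yl (hB : Base D K) (R R' : ℕ → ℕ) (O O' : List ℕ)
    (h : ∀ a ∈ O, ∀ b ∈ O', ∀ t u : K, Commute (hB.xg (R a) t) (hB.xg (R' b) u)) (g g' : ℕ → K) :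
    Commute (hB.yl R O g) (hB.yl R' O' g') := by
  unfold Base.yl
  apply Commute.list_prod_left
  intro x hx
  obtain ⟨a, ha, rfl⟩ := List.mem_map.mp hx
  apply Commute.list_prod_right
  intro y hy
  obtain ⟨b, hb, rfl⟩ := List.mem_map.mp hy
  exact h a ha b hb _ _

theorem yl_mem_Up (hB : Base D K) (R : ℕ → ℕ) (O : List ℕ) (b : ℕ) (h : ∀ j ∈ O, Good D b (R j)) (g : ℕ → K) :
    hB.yl R O g ∈ hB.Up b := by
  apply Subgroup.list_prod_mem
  intro x hx
  obtain ⟨j, hj, rfl⟩ := List.mem_map.mp hx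
  exact hB.xg_mem_Up (h j hj) _

theorem eq_zero_of_yl_mem_Up (hB : Base D K) (hT : Tabs2 D) {O : List ℕ} (hlt : ∀ j ∈ O, j < D.rank)
    (hnd : O.Nodup) {b : ℕ} (hb : b ∈ O) {g : ℕ → K} (h : hB.yl D.simple O g ∈ hB.Up b) : g b = 0 := by
  have hTt := hT.tab
  induction O with
  | nil => simp at hb
  | cons a O ih =>
    have hnd' := List.nodup_cons.mp hnd
    rw [Base.yl_cons] at h
    by_cases hab : a = b
    · subst hab
      have h1 : hB.yl D.simple O g ∈ hB.Up a := by
        apply yl_mem_Up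
        intro j hj
        refine ⟨hTt.isPos_simple (hlt j (by simp [hj])), fun e => ?_⟩
        have e1 := hTt.simple_inj _ _ (hlt j (by simp [hj])) (hlt a (by simp)) e
        exact hnd'.1 (e1 ▸ hj)
      have h2 : hB.xg (D.simple a) (g a) ∈ hB.Up a := by
        have := mul_mem h (inv_mem h1)
        rwa [mul_inv_cancel_right] at this
      exact hB.xg_simple_not_mem_Up hT (hlt a (by simp)) h2
    · have hb' : b ∈ O := by
        rcases List.mem_cons.mp hb with e | e
        · exact absurd e.symm hab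
        · exact e
      have h1 : hB.xg (D.simple a) (g a) ∈ hB.Up b := by
        apply hB.xg_mem_Up
        refine ⟨hTt.isPos_simple (hlt a (by simp)), fun e => ?_⟩
        exact hab (hTt.simple_inj _ _ (hlt a (by simp)) (hlt b (by simp [hb'])) e)
      have h2 : hB.yl D.simple O g ∈ hB.Up b := by
        have := mul_mem (inv_mem h1) h
        rwa [inv_mul_cancel_left] at this
      exact ih (fun j hj => hlt j (by simp [hj])) hnd'.2 hb' h2

theorem ng_conj_yl (hB : Base D K) {a : ℕ} (ha : a < D.rank) (R : ℕ → ℕ) (O : List ℕ)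
    (hR : ∀ j ∈ O, R j < D.nroots) (g : ℕ → K) : ∃ g' : ℕ → K,
    hB.ng (D.simple a) 1 * hB.yl R O g * (hB.ng (D.simple a) 1)⁻¹ =
      hB.yl (fun j => D.reflectRoot a (R j)) O g' := by
  have h : ∀ j, ∃ η : K, j ∈ O → ∀ t : K,
      hB.ng (D.simple a) 1 * hB.xg (R j) t * (hB.ng (D.simple a) 1)⁻¹ =
        hB.xg (D.reflectRoot a (R j)) (η * t) := by
    intro j
    by_cases hj : j ∈ O
    · obtain ⟨η, -, h⟩ := hB.ng_conj_xg ha (hR j hj)
      exact ⟨η, fun _ t => (h t).1⟩
    · exact ⟨0, fun h => absurd h hj⟩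
  choose η hη using h
  refine ⟨fun j => η j * g j, ?_⟩
  clear hR
  induction O with
  | nil => simp
  | cons b O ih =>
    rw [Base.yl_cons, Base.yl_cons, ← ih (fun j hj => hη j (by simp [hj])), ← hη b (by simp)]
    group

namespace OD

variable {T : CommData X} {ι : Type*} (S : OD T ι)

theorem commute_x (hD : D ∈ [chevG2, chevB2, chevD4, chevF4, chevE6, chevE7, chevE8]) {i i' : ι}
    (h : ∀ a ∈ S.o i, ∀ b ∈ S.o i', a ≠ b ∧ D.cartan a (D.simple b) = 0) {s t : K}
    (hs : s ∈ S.k i) (ht : t ∈ S.k i') : S.x i s * S.x i' t = S.x i' t * S.x i s := by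
  have hA := Helper36.autTab_of_mem hD
  have hTt := X.hT.tab
  apply Subtype.ext
  rw [Subgroup.coe_mul, Subgroup.coe_mul, S.coe_x i hs, S.coe_x i' ht]
  apply (commute_yl_yl X.hB _ _ _ _ _ _ _).eq
  intro a ha b hb t u
  have ha' := (S.orth i).lt a ha
  have hb' := (S.orth i').lt b hb
  obtain ⟨c1, c2, c3⟩ := hA.comm_pp a ha' b hb' (h a ha b hb).1 (h a ha b hb).2
  exact (Helper36.commute_of_commTerms X.hB (hTt.simple_lt a ha') (hTt.simple_lt b hb') c1 c2 c3 t u).symm

theorem not_commute_x (hD : D ∈ [chevG2, chevB2, chevD4, chevF4, chevE6, chevE7, chevE8]) {i i' : ι}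
    {a b : ℕ} (ho : S.o i = [a]) (hb : b ∈ S.o i') (hne : a ∉ S.o i')
    (hg : ∀ j ∈ S.o i', Good D b (D.reflectRoot a (D.simple j))) :
    S.x i 1 * S.x i' 1 ≠ S.x i' 1 * S.x i 1 := by
  intro h
  have hA := Helper36.autTab_of_mem hD
  have hTt := X.hT.tab
  have ha : a < D.rank := (S.orth i).lt a (by rw [ho]; simp)
  have h' := congrArg (fun z : ↥T.G1 => (z : GL D.Idx K)) h
  simp only [Subgroup.coe_mul] at h'
  rw [S.coe_x i (one_mem _), S.coe_x i' (one_mem _), ho, Base.yl_cons, Base.yl_nil, mul_one, S.pr_one] at h'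
  set A := X.hB.yl D.simple (S.o i') (S.pr i' 1) with hAdef
  set B := X.hB.xg (D.simple a) 1 with hBdef
  set C := X.hB.xg (D.neg (D.simple a)) (-(1 : K)⁻¹) with hCdef
  have hCA : C * A = A * C := by
    have : Commute (X.hB.yl (fun j => D.neg (D.simple j)) [a] (fun _ => -(1 : K)⁻¹)) A := by
      apply commute_yl_yl
      intro a' ha' b' hb' t u
      have e : a' = a := by simpa using ha'
      subst e
      have hb'' := (S.orth i').lt b' hb'
      have hab : b' ≠ a' := fun e => hne (e ▸ hb')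
      obtain ⟨c1, c2, c3⟩ := hA.comm_pn b' hb'' a' ha hab
      exact Helper36.commute_of_commTerms X.hB (hTt.simple_lt b' hb'') (hTt.neg_lt (hTt.simple_lt a' ha))
        c1 c2 c3 u t
    rw [Base.yl_cons, Base.yl_nil, mul_one] at this
    exact this.eq
  have h2 : X.hB.ng (D.simple a) 1 * A * (X.hB.ng (D.simple a) 1)⁻¹ = A := by
    rw [mul_inv_eq_iff_eq_mul]
    unfold Base.ng
    calc B * C * B * A = B * C * (B * A) := by group
      _ = B * (C * A) * B := by rw [h']; group
      _ = (B * A) * C * B := by rw [hCA]; group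
      _ = A * (B * C * B) := by rw [h']; group
  obtain ⟨g', e⟩ := ng_conj_yl X.hB ha D.simple (S.o i') (simple_lt' hTt (S.orth i')) (S.pr i' 1)
  rw [← hAdef, h2] at e
  have h3 : A ∈ X.hB.Up b := by
    rw [e]
    exact yl_mem_Up X.hB _ _ b hg g'
  have h4 := eq_zero_of_yl_mem_Up X.hB X.hT (S.orth i').lt (S.orth i').nodup hb h3
  rw [S.pr_one] at h4
  exact one_ne_zero h4

end OD

end Cfsg.Agent.Lib.Helper18.TwOut
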