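import Cfsg.Agent.Lib.Helper18.TwOut.Asm
import Cfsg.Agent.Lib.Helper18.TwOut.P1
import Cfsg.Agent.Lib.Helper18.TwOut.P2
import Cfsg.Agent.Lib.Helper18.TwOut.P3
import Cfsg.Agent.Lib.Helper18.TwOut.Chk
import Cfsg.Agent.Lib.Helper18.TwistHE6
import Cfsg.Agent.Lib.Helper18.TwistSimple
import Cfsg.Agent.Lib.Helper43.PA.FieldAut

set_option autoImplicit false

namespace Cfsg.Agent.Lib.Helper18.TwOut

open Cfsg.Lie Matrix Cfsg.Agent.Lib.Helper6 Cfsg.Agent.Lib.Helper18 Cfsg.Agent.Lib.Lead.FixTwist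

section rel

variable {D : ChevalleyDatum} {K : Type*} [Field K] {X : BNData D K} {T : CommData X} {ι : Type*} (S : OD T ι)

/-- `θ` maps the root subgroup of `i` onto that of `i'`. -/
def OD.Rel (θ : ↥T.G1 ≃* ↥T.G1) (i i' : ι) : Prop :=
  (∀ t ∈ S.k i, ∃ s ∈ S.k i', θ (S.x i t) = S.x i' s) ∧
    (∀ s ∈ S.k i', ∃ t ∈ S.k i, θ (S.x i t) = S.x i' s) ∧ Nat.card (S.k i) = Nat.card (S.k i')

variable {S}

theorem OD.Rel.inj {θ : ↥T.G1 ≃* ↥T.G1} {a b i' : ι} (h1 : S.Rel θ a i') (h2 : S.Rel θ b i') : a = b := by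
  obtain ⟨s, hs, e⟩ := h1.1 1 (one_mem _)
  obtain ⟨t, ht, e'⟩ := h2.2.1 s hs
  have : S.x a 1 = S.x b t := θ.injective (e.trans e'.symm)
  exact S.eq_of_x_eq (one_mem _) ht one_ne_zero this

theorem OD.Rel.back {θ : ↥T.G1 ≃* ↥T.G1} {i j i' j' : ι} (h1 : S.Rel θ i i') (h2 : S.Rel θ j j')
    (hc : ∀ s ∈ S.k i', ∀ t ∈ S.k j', S.x i' s * S.x j' t = S.x j' t * S.x i' s) :
    S.x i 1 * S.x j 1 = S.x j 1 * S.x i 1 := by
  obtain ⟨s, hs, e⟩ := h1.1 1 (one_mem _)
  obtain ⟨t, ht, e'⟩ := h2.1 1 (one_mem _)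
  apply θ.injective
  rw [map_mul, map_mul, e, e', hc s hs t ht]

theorem OD.exists_rel [Finite K] (S : OD T ι) (hopp : Opp (fb T)) {θ : ↥T.G1 ≃* ↥T.G1} (hθ : Std1 (fb T) θ) (i : ι) :
    ∃ i', S.Rel θ i i' := by
  obtain ⟨O', hO', h1, -⟩ := hθ.root hopp (S.o_mem i)
  obtain ⟨i', rfl⟩ := S.o_surj O' hO'
  exact ⟨i', S.root_onto hopp hθ h1⟩

end rel

variable {K : Type*} [Field K]

/-- the orbits of `²E₆`. -/
def oE6' : Fin 4 → List ℕ := ![[0, 5], [2, 4], [3], [1]]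

set_option maxRecDepth 100000 in
theorem selfE6 : ∀ i : Fin 4, ∀ a ∈ oE6' i, ∀ j ∈ oE6' i,
    chevE6.cartan a (chevE6.simple j) = if a = j then 2 else 0 := by decide +kernel

/-- the neighbours. -/
def mE6 : Fin 4 → ℕ → ℕ := ![fun _ => 0, fun j => if j = 0 then 2 else 4, fun _ => 3, fun _ => 1]

/-- the parents. -/
def parE6 : Fin 4 → Fin 4 := ![0, 0, 1, 2]

set_option maxRecDepth 100000 in
theorem edgeE6 : ∀ i : Fin 4, i = 0 ∨ ((![0, 1, 2, 3] : Fin 4 → ℕ) (parE6 i) < (![0, 1, 2, 3] : Fin 4 → ℕ) i ∧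
    (oE6' i).length ∣ (oE6' (parE6 i)).length ∧
    ∀ j ∈ oE6' (parE6 i), mE6 i j ∈ oE6' i ∧ (oE6' i).idxOf (mE6 i j) = (oE6' (parE6 i)).idxOf j % (oE6' i).length ∧
      ∀ a ∈ oE6' i, chevE6.cartan a (chevE6.simple j) = if a = mE6 i j then -1 else 0) := by decide +kernel

/-- the combinatorial data of `²E₆(q)`. -/
noncomputable def odE6 [Fintype K] {q : ℕ} (hK : Fintype.card K = q ^ 2) (T : CommData (bnData_of_mem K memE6))
    (hf : ∀ t, T.f t = t ^ q) (hO : T.orbs = orbsE6) (hρ : T.ρ = byte rhoTE6) : OD T (Fin 4) where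
  o := oE6'
  base := ![0, 2, 3, 1]
  o_mem := by
    rw [hO]; decide
  o_surj := by
    rw [hO]; decide
  disj := by decide
  cyc := by
    rw [hρ]; decide +kernel
  cyc' := by
    rw [hρ]; decide +kernel
  self := selfE6
  i0 := 0
  root := by
    intro t
    show T.f (T.f t) = t
    have e : q * q = q ^ 2 := by ring
    rw [hf, hf, ← pow_mul, e, ← hK, FiniteField.pow_card]
  par := parE6
  μ := ![0, 1, 2, 3]
  m := mE6
  tree := edgeE6
  q := q
  hf := hf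

set_option maxRecDepth 100000 in
theorem commE6a : ∀ a ∈ oE6' 0, ∀ b ∈ oE6' 2, a ≠ b ∧ chevE6.cartan a (chevE6.simple b) = 0 := by decide +kernel

set_option maxRecDepth 100000 in
theorem commE6b : ∀ a ∈ oE6' 0, ∀ b ∈ oE6' 3, a ≠ b ∧ chevE6.cartan a (chevE6.simple b) = 0 := by decide +kernel

set_option maxRecDepth 100000 in
theorem commE6c : ∀ a ∈ oE6' 1, ∀ b ∈ oE6' 3, a ≠ b ∧ chevE6.cartan a (chevE6.simple b) = 0 := by decide +kernel

set_option maxRecDepth 100000 in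
theorem goodE6 : ∀ j ∈ oE6' 1, chevE6.IsPosRoot (chevE6.reflectRoot 3 (chevE6.simple j)) ∧
    chevE6.reflectRoot 3 (chevE6.simple j) ≠ chevE6.simple 2 := by decide +kernel

theorem sq_sub_one (q : ℕ) (hq : 1 ≤ q) : q ^ 2 - 1 = (q - 1) * (q + 1) := by
  obtain ⟨m, rfl⟩ : ∃ m, q = m + 1 := ⟨q - 1, by omega⟩
  apply Nat.sub_eq_of_eq_add
  simp only [Nat.add_sub_cancel]
  ring

theorem sq_sub_one_ne (q : ℕ) (hq : 2 ≤ q) : q ^ 2 - 1 ≠ q - 1 := by
  rw [sq_sub_one q (by omega)]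
  intro h
  have h1 : 0 < q - 1 := by omega
  have h2 : (q - 1) * (q + 1) = (q - 1) * 1 := by rw [h, mul_one]
  have h3 := Nat.eq_of_mul_eq_mul_left h1 h2
  omega

theorem card_out_E6 [Fintype K] (p f : ℕ) [Fact p.Prime] [CharP K p] (hK : Fintype.card K = p ^ (2 * f))
    (hf : 1 ≤ f) : Nat.card (Cfsg.Out ↥(twistedE6 K (p ^ f))) = 2 * Nat.gcd 3 (p ^ f + 1) * f := by
  have hp : p.Prime := Fact.out
  set q := p ^ f with hq0
  have hq : IsPrimePow q := ⟨p, f, hp.prime, by omega, rfl⟩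
  have hK' : Fintype.card K = q ^ 2 := by rw [hK, hq0, ← pow_mul, mul_comm]
  have hq2 : 2 ≤ q := hq.two_le
  obtain ⟨T, hG, hf', hO, hρ, -, hch⟩ := exists_commData_E6 hq hK'
  let S := odE6 hK' T hf' hO hρ
  have hopp : Opp (fb T) := by
    intro O hO' r
    have hO'' : O ∈ orbsE6 := hO ▸ hO'
    have := oppE6 O hO'' r
    rw [← hch] at this
    exact this
  have hsim := simple_E6 hq hK'
  rw [← hG] at hsim
  have hcen := center_trivial hsim.1 hsim.2
  have c0 : Nat.card (S.k 0) = q ^ 2 := by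
    rw [← hK', ← Nat.card_eq_fintype_card]
    exact card_fixSub_top T.f _ S.root
  have c1 : Nat.card (S.k 1) = q ^ 2 := by
    rw [← hK', ← Nat.card_eq_fintype_card]
    exact card_fixSub_top T.f _ S.root
  have c2 : Nat.card (S.k 2) - 1 = q - 1 := card_fixSub_one T.f (by omega) hf' hK'
  have c3 : Nat.card (S.k 3) - 1 = q - 1 := card_fixSub_one T.f (by omega) hf' hK'
  -- the relation "θ maps the root subgroup of `i` into that of `i'`"
  have hperm : ∀ θ : ↥T.G1 ≃* ↥T.G1, Std1 (fb T) θ → ∀ O ∈ T.orbs, ∀ O' ∈ T.orbs,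
      (∀ (u : GL chevE6.Idx K) (hu : u ∈ T.G1), u ∈ Um chevE6 K ((bnData_of_mem K memE6).hB.nW O) →
        ((θ ⟨u, hu⟩ : ↥T.G1) : GL chevE6.Idx K) ∈ Um chevE6 K ((bnData_of_mem K memE6).hB.nW O')) → O' = O := by
    intro θ hθ
    have hne : ∀ a b : ℕ, a = q ^ 2 → b - 1 = q - 1 → a ≠ b := by
      intro a b ha hb e
      rw [← e, ha] at hb
      exact sq_sub_one_ne q hq2 hb
    have n02 := hne _ _ c0 c2
    have n03 := hne _ _ c0 c3
    have n12 := hne _ _ c1 c2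
    have n13 := hne _ _ c1 c3
    have C02 : ∀ s ∈ S.k 0, ∀ t ∈ S.k 2, S.x 0 s * S.x 2 t = S.x 2 t * S.x 0 s :=
      fun s hs t ht => S.commute_x memE6 (i := 0) (i' := 2) commE6a hs ht
    have C03 : ∀ s ∈ S.k 0, ∀ t ∈ S.k 3, S.x 0 s * S.x 3 t = S.x 3 t * S.x 0 s :=
      fun s hs t ht => S.commute_x memE6 (i := 0) (i' := 3) commE6b hs ht
    have C13 : ∀ s ∈ S.k 1, ∀ t ∈ S.k 3, S.x 1 s * S.x 3 t = S.x 3 t * S.x 1 s :=
      fun s hs t ht => S.commute_x memE6 (i := 1) (i' := 3) commE6c hs ht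
    have N21 : S.x 2 1 * S.x 1 1 ≠ S.x 1 1 * S.x 2 1 :=
      S.not_commute_x memE6 (i := 2) (i' := 1) (a := 3) (b := 2) rfl
        (show 2 ∈ oE6' 1 by decide) (show 3 ∉ oE6' 1 by decide) goodE6
    have N12 : S.x 1 1 * S.x 2 1 ≠ S.x 2 1 * S.x 1 1 := fun e => N21 e.symm
    have r1 : ∀ a, S.Rel θ 1 a → a = 1 := by
      intro a ha
      obtain ⟨b, hb⟩ := S.exists_rel hopp hθ 2
      fin_cases a
      · exfalso
        fin_cases b
        · exact n02 hb.2.2.symm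
        · exact n12 hb.2.2.symm
        · exact N12 (ha.back hb C02)
        · exact N12 (ha.back hb C03)
      · rfl
      · exact absurd ha.2.2 n12
      · exact absurd ha.2.2 n13
    have R1 : S.Rel θ 1 1 := by
      obtain ⟨b, hb⟩ := S.exists_rel hopp hθ 1
      have := r1 b hb
      rwa [this] at hb
    have r0 : ∀ a, S.Rel θ 0 a → a = 0 := by
      intro a ha
      fin_cases a
      · rfl
      · exact absurd (ha.inj R1) (by decide)
      · exact absurd ha.2.2 n02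
      · exact absurd ha.2.2 n03
    have r2 : ∀ a, S.Rel θ 2 a → a = 2 := by
      intro a ha
      fin_cases a
      · exact absurd ha.2.2.symm n02
      · exact absurd ha.2.2.symm n12
      · rfl
      · exact absurd (R1.back ha C13) N12
    have R2 : S.Rel θ 2 2 := by
      obtain ⟨b, hb⟩ := S.exists_rel hopp hθ 2
      have := r2 b hb
      rwa [this] at hb
    have r3 : ∀ a, S.Rel θ 3 a → a = 3 := by
      intro a ha
      fin_cases a
      · exact absurd ha.2.2.symm n03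
      · exact absurd ha.2.2.symm n13
      · exact absurd (ha.inj R2) (by decide)
      · rfl
    intro O hO1 O' hO2 h
    obtain ⟨i, rfl⟩ := S.o_surj O hO1
    obtain ⟨i', rfl⟩ := S.o_surj O' hO2
    have hR : S.Rel θ i i' := S.root_onto hopp hθ h
    have : i' = i := by
      fin_cases i
      · exact r0 _ hR
      · exact r1 _ hR
      · exact r2 _ hR
      · exact r3 _ hR
    rw [this]
  have key := S.card_out memE6 hopp hperm hcen
  have hH := card_H1_E6 hq hK'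
  rw [hG, Fin.prod_univ_four, c0, c1, c2, c3, Cfsg.Agent.Lib.Helper43.PA.card_ringAut hK,
    sq_sub_one q (by omega)] at key
  have hpos : 0 < Nat.card ↥(chevE6.diagonalSubgroup K ⊓ twistedE6 K q) := by
    rcases Nat.eq_zero_or_pos (Nat.card ↥(chevE6.diagonalSubgroup K ⊓ twistedE6 K q)) with h0 | h0
    · rw [h0, mul_zero] at hH
      have : 0 < q - 1 := by omega
      have : 0 < (q - 1) ^ 4 * (q + 1) ^ 2 := by positivity
      omega
    · exact h0
  apply Nat.eq_of_mul_eq_mul_right hpos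
  rw [key]
  calc (q - 1) * (q + 1) * ((q - 1) * (q + 1)) * (q - 1) * (q - 1) * (2 * f)
      = ((q - 1) ^ 4 * (q + 1) ^ 2) * (2 * f) := by ring
    _ = _ := by rw [← hH]; ring

end Cfsg.Agent.Lib.Helper18.TwOut
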