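import Cfsg.Agent.Lib.Helper18.TwOut.FIDefs

set_option autoImplicit false

/-! # The fundamental root subgroups of the large Ree groups -/

namespace Cfsg.Agent.Lib.Helper18.F4Tw

open Cfsg.Lie Matrix Cfsg.Agent.Lib.Helper6 Cfsg.Agent.Lib.Helper18 Cfsg.Agent.Lib.Lead.FixTwist

variable {K : Type*} [Field K] [Fintype K] {m : ℕ} (W : F4Tw K m)

lemma coe_ga_eq (t : K) : ((W.ga t : ↥(twistedF4 K (2 ^ m))) : GL chevF4.Idx K) =
    W.X.hB.xg 24 t * W.X.hB.xg 33 (t ^ 2 ^ m) := by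
  rw [W.coe_ga, ← W.coe_pair pairPos]
  rfl

theorem ga_add (s t : K) : W.ga (s + t) = W.ga s * W.ga t := by
  have := W.char2
  have : Fact (Nat.Prime 2) := ⟨Nat.prime_two⟩
  apply Subtype.ext
  rw [Subgroup.coe_mul, W.coe_ga_eq, W.coe_ga_eq, W.coe_ga_eq, add_pow_char_pow, ← W.X.hB.xg_add,
    ← W.X.hB.xg_add]
  have hc := (W.comm pairPos.c (s ^ 2 ^ m) t).eq
  calc W.X.hB.xg 24 s * W.X.hB.xg 24 t * (W.X.hB.xg 33 (s ^ 2 ^ m) * W.X.hB.xg 33 (t ^ 2 ^ m))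
      = W.X.hB.xg 24 s * (W.X.hB.xg 24 t * W.X.hB.xg 33 (s ^ 2 ^ m)) * W.X.hB.xg 33 (t ^ 2 ^ m) := by group
    _ = _ := by rw [← hc]; group

theorem ga_inj {s t : K} (h : W.ga s = W.ga t) : s = t := by
  have h1 := congrArg (fun g : ↥(twistedF4 K (2 ^ m)) => (g : GL chevF4.Idx K)) h
  simp only [W.coe_ga_eq] at h1
  exact (W.pair_inj h1).1

theorem gw_mul (t u t' u' : K) : W.gw t u * W.gw t' u' = W.gw (t + t') (u + u' + t ^ 2 ^ m * t') := by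
  have : Fact (Nat.Prime 2) := ⟨Nat.prime_two⟩
  have := W.char2
  apply Subtype.ext
  rw [Subgroup.coe_mul, W.coe_gw, W.coe_gw, W.coe_gw, ← W.coe_word quadPos, ← W.coe_word quadPos,
    ← W.coe_word quadPos, ← Subgroup.coe_mul, (W.sys quadPos).word_mul]
  have e1 : (W.sys quadPos).f t = t ^ (2 ^ m) := iterateFrobenius_def 2 m t
  rw [e1]

theorem gw_inj {t u t' u' : K} (h : W.gw t u = W.gw t' u') : t = t' ∧ u = u' := by
  have h1 := congrArg (fun g : ↥(twistedF4 K (2 ^ m)) => (g : GL chevF4.Idx K)) h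
  simp only [W.coe_gw, ← W.coe_word quadPos] at h1
  exact (W.sys quadPos).word_inj W.huniq (Subtype.ext h1)

theorem gen_F4 : Subgroup.closure {g : ↥(twistedF4 K (2 ^ m)) |
    (∃ t, g = W.ga t ∨ g = W.ga' t) ∨ ∃ t u, g = W.gw t u ∨ g = W.gw' t u} = ⊤ := by
  have h : Subgroup.closure ((fun g : ↥(twistedF4 K (2 ^ m)) => (g : GL chevF4.Idx K)) ⁻¹'
      {g : GL chevF4.Idx K | ∃ w ∈ f4Words K (2 ^ m), (g : Matrix chevF4.Idx chevF4.Idx K) = chevF4.wordMat K w}) = ⊤ :=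
    Subgroup.closure_closure_coe_preimage
  rw [eq_top_iff, ← h]
  apply Subgroup.closure_mono
  rintro ⟨g, hg1⟩ ⟨w, hw, e⟩
  have ex : g = W.X.hB.wg w := Units.ext (by rw [e, W.X.hB.coe_wg])
  rcases hw with ⟨t, rfl | rfl⟩ | ⟨t, u, rfl | rfl⟩
  · exact Or.inl ⟨t, Or.inl (Subtype.ext ex)⟩
  · exact Or.inl ⟨t, Or.inr (Subtype.ext ex)⟩
  · exact Or.inr ⟨t, u, Or.inl (Subtype.ext ex)⟩
  · exact Or.inr ⟨t, u, Or.inr (Subtype.ext ex)⟩

end Cfsg.Agent.Lib.Helper18.F4Tw
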