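import Cfsg.Agent.Lib.Helper18.TwOut.FIDefs
import Cfsg.Agent.Lib.Helper18.TwOut.C2

set_option autoImplicit false

/-! # The action of the diagonal subgroup of a large Ree group on the fundamental root subgroups -/

namespace Cfsg.Agent.Lib.Helper18.F4Tw

open Cfsg.Lie Matrix Cfsg.Agent.Lib.Helper6 Cfsg.Agent.Lib.Helper18 Cfsg.Agent.Lib.Lead.FixTwist
open Cfsg.Agent.Lib.Helper18.TwOut

theorem chiL_add {D : ChevalleyDatum} {K : Type*} [Field K] (c : ℕ → K) (L : List ℕ) (hc : ∀ i ∈ L, c i ≠ 0)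
    {r r' r'' : ℕ} (h : ∀ i ∈ L, D.cartan i r'' = D.cartan i r + D.cartan i r') :
    chiL D c L r'' = chiL D c L r * chiL D c L r' := by
  unfold chiL
  induction L with
  | nil => simp
  | cons a L ih =>
    simp only [List.map_cons, List.prod_cons]
    rw [ih (fun i hi => hc i (by simp [hi])) (fun i hi => h i (by simp [hi])), h a (by simp),
      zpow_add₀ (hc a (by simp))]
    ring

set_option maxRecDepth 100000 in
theorem f4_add28 : ∀ i ∈ List.range chevF4.rank, chevF4.cartan i 28 = chevF4.cartan i 27 + chevF4.cartan i 25 := by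
  decide +kernel

set_option maxRecDepth 100000 in
theorem f4_add30 : ∀ i ∈ List.range chevF4.rank, chevF4.cartan i 30 = chevF4.cartan i 27 + chevF4.cartan i 28 := by
  decide +kernel

variable {K : Type*} [Field K] [Fintype K] {m : ℕ} (W : F4Tw K m)

theorem chi_rho {h : GL chevF4.Idx K} (hF : h ∈ W.T.F) {r : ℕ} (hr : r < chevF4.nroots)
    (hr' : rhoRF4 r < chevF4.nroots) {c c' : K}
    (hc : ∀ t, h * W.X.hB.xg r t * h⁻¹ = W.X.hB.xg r (c * t))
    (hc' : ∀ t, h * W.X.hB.xg (rhoRF4 r) t * h⁻¹ = W.X.hB.xg (rhoRF4 r) (c' * t)) :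
    c' = c ^ (2 ^ (m + kF4 r)) := by
  have hσ := W.σ_of_mem_F hF
  have e1 : (⟨h, hF.1⟩ : ↥(chevF4.group K)) * W.xG r hr 1 * (⟨h, hF.1⟩ : ↥(chevF4.group K))⁻¹ =
      W.xG r hr (c * 1) := Subtype.ext (hc 1)
  have e2 := congrArg W.T.σ e1
  rw [map_mul, map_mul, map_inv, hσ, W.σ_xG r hr _ hr', W.σ_xG r hr _ hr'] at e2
  have e3 := congrArg (fun g : ↥(chevF4.group K) => (g : GL chevF4.Idx K)) e2
  have e4 : h * W.X.hB.xg (rhoRF4 r) (1 ^ (2 ^ (m + kF4 r))) * h⁻¹ =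
      W.X.hB.xg (rhoRF4 r) ((c * 1) ^ (2 ^ (m + kF4 r))) := e3
  rw [hc'] at e4
  have e5 := W.X.hB.xg_inj hr' e4
  rwa [one_pow, mul_one, mul_one] at e5

theorem H_act_F4 : ∀ h ∈ W.Hd, ∃ γ β : K, γ ≠ 0 ∧ β ≠ 0 ∧ (∀ t, h * W.ga t * h⁻¹ = W.ga (γ * t)) ∧
    (∀ t u, h * W.gw t u * h⁻¹ = W.gw (β * t) (β ^ (2 ^ m + 1) * u)) := by
  intro h hh
  have hh' : (h : GL chevF4.Idx K) ∈ chevF4.diagonalSubgroup K := hh
  have hF : (h : GL chevF4.Idx K) ∈ W.T.F := W.G1_fixed _ h.2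
  obtain ⟨c, hc, e⟩ := W.X.hB.exists_hprod hh'
  have hL : ∀ a ∈ List.range chevF4.rank, a < chevF4.rank ∧ c a ≠ 0 :=
    fun a ha => ⟨List.mem_range.mp ha, hc a (List.mem_range.mp ha)⟩
  set χ : ℕ → K := chiL chevF4 c (List.range chevF4.rank) with hχ
  have hne : ∀ s, χ s ≠ 0 := chiL_ne_zero c _ (fun a ha => (hL a ha).2)
  have hconj : ∀ s, s < chevF4.nroots → ∀ t, (h : GL chevF4.Idx K) * W.X.hB.xg s t * (h : GL chevF4.Idx K)⁻¹ =
      W.X.hB.xg s (χ s * t) := by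
    intro s hs t
    rw [e]
    exact W.X.hB.hl_conj_xg c hs _ hL t
  have r33 : χ 33 = χ 24 ^ 2 ^ m := by
    have := W.chi_rho hF (r := 24) (by decide) (by decide) (hconj 24 (by decide)) (c' := χ 33)
      (hconj 33 (by decide))
    rwa [pairPos.kr', add_zero] at this
  have r27 : χ 27 = χ 25 ^ 2 ^ m := by
    have := W.chi_rho hF (r := 25) (by decide) (by decide) (hconj 25 (by decide)) (c' := χ 27)
      (hconj 27 (by decide))
    rwa [quadPos.kb, add_zero] at this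
  have r28 : χ 28 = χ 27 * χ 25 := chiL_add c _ (fun a ha => (hL a ha).2) f4_add28
  have r30 : χ 30 = χ 27 * χ 28 := chiL_add c _ (fun a ha => (hL a ha).2) f4_add30
  refine ⟨χ 24, χ 25, hne _, hne _, fun t => Subtype.ext ?_, fun t u => Subtype.ext ?_⟩
  · rw [Subgroup.coe_mul, Subgroup.coe_mul, Subgroup.coe_inv, W.coe_ga, W.coe_ga]
    simp only [f4PairWord, Base.wg, List.map_cons, List.map_nil, List.prod_cons, List.prod_nil, mul_one]
    rw [mul_pow, ← r33, ← hconj 33 (by decide), ← hconj 24 (by decide)]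
    group
  · rw [Subgroup.coe_mul, Subgroup.coe_mul, Subgroup.coe_inv, W.coe_gw, W.coe_gw]
    simp only [b2ClassWord, Base.wg, List.map_cons, List.map_nil, List.prod_cons, List.prod_nil, mul_one]
    have hq : χ 25 ^ (2 ^ (2 * m + 1)) = χ 25 := W.pow_card _
    have f27 : (χ 25 * t) ^ 2 ^ m = χ 27 * t ^ 2 ^ m := by rw [mul_pow, r27]
    have f28 : (χ 25 * t) ^ (2 ^ m + 1) + χ 25 ^ (2 ^ m + 1) * u = χ 28 * (t ^ (2 ^ m + 1) + u) := by
      rw [r28, r27, mul_pow]; ring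
    have f30 : (χ 25 ^ (2 ^ m + 1) * u) ^ (2 * 2 ^ m) = χ 30 * u ^ (2 * 2 ^ m) := by
      have e1 : (χ 25 ^ (2 ^ m + 1)) ^ (2 * 2 ^ m) = χ 25 ^ (2 ^ (2 * m + 1)) * χ 25 ^ (2 * 2 ^ m) := by
        rw [← pow_mul, ← pow_add]
        congr 1
        ring
      rw [mul_pow, e1, hq, r30, r28, r27]
      ring
    rw [f27, f28, f30, ← hconj 27 (by decide), ← hconj 25 (by decide), ← hconj 28 (by decide),
      ← hconj 30 (by decide)]
    group

end Cfsg.Agent.Lib.Helper18.F4Tw
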