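import Cfsg.Agent.Lib.Helper18.TwOut.FIDefs

set_option autoImplicit false

/-! # The torus of the rank one subgroup `⟨a, a'⟩` of a large Ree group -/

namespace Cfsg.Agent.Lib.Helper18.F4Tw

open Cfsg.Lie Matrix Cfsg.Agent.Lib.Helper6 Cfsg.Agent.Lib.Helper18 Cfsg.Agent.Lib.Lead.FixTwist

theorem rearr {G : Type*} [Group G] {a a' b b' : G} (h1 : Commute a b) (h2 : Commute a b')
    (h3 : Commute a' b) : (a * a' * a) * (b * b' * b) = (a * b) * (a' * b') * (a * b) := by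
  calc (a * a' * a) * (b * b' * b) = a * a' * (a * b) * b' * b := by group
    _ = a * a' * (b * a) * b' * b := by rw [h1.eq]
    _ = a * (a' * b) * (a * b') * b := by group
    _ = a * (b * a') * (b' * a) * b := by rw [h3.eq, h2.eq]
    _ = _ := by group

set_option maxRecDepth 100000 in
theorem f4_cartan : chevF4.cartan 0 27 = -1 ∧ chevF4.cartan 3 27 = 0 ∧ chevF4.cartan 0 25 = 0 ∧
    chevF4.cartan 3 25 = -1 ∧ chevF4.cartan 0 28 = -1 ∧ chevF4.cartan 3 28 = -1 ∧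
    chevF4.cartan 0 30 = -2 ∧ chevF4.cartan 3 30 = -1 := by decide +kernel

variable {K : Type*} [Field K] [Fintype K] {m : ℕ} (W : F4Tw K m)

theorem hA_eq_prod (a : Kˣ) : W.hA a =
    (((W.ga a * W.ga' (a : K)⁻¹ * W.ga a) * (W.ga 1 * W.ga' 1 * W.ga 1) : ↥(twistedF4 K (2 ^ m))) :
      GL chevF4.Idx K) := by
  have := W.char2
  have n1 : chevF4.neg 33 = 14 := by decide +kernel
  have n2 : chevF4.neg 24 = 23 := by decide +kernel
  have c1 : ∀ s t : K, Commute (W.X.hB.xg 33 s) (W.X.hB.xg 24 t) := W.comm (by decide)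
  have c2 : ∀ s t : K, Commute (W.X.hB.xg 33 s) (W.X.hB.xg 23 t) := W.comm (by decide)
  have c3 : ∀ s t : K, Commute (W.X.hB.xg 14 s) (W.X.hB.xg 24 t) := W.comm (by decide)
  have c4 : ∀ s t : K, Commute (W.X.hB.xg 14 s) (W.X.hB.xg 23 t) := W.comm (by decide)
  simp only [Subgroup.coe_mul, W.coe_ga, W.coe_ga', f4PairWord, Base.wg, List.map_cons, List.map_nil,
    List.prod_cons, List.prod_nil, mul_one, one_pow]
  unfold hA Base.hg Base.ng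
  simp only [n1, n2, CharTwo.neg_eq, inv_one]
  rw [← rearr (c1 _ _) (c2 _ _) (c3 _ _), ← rearr (c1 _ _) (c2 _ _) (c3 _ _), inv_pow]
  set A := W.X.hB.xg 33 ((a : K) ^ 2 ^ m) * W.X.hB.xg 14 ((a : K) ^ 2 ^ m)⁻¹ * W.X.hB.xg 33 ((a : K) ^ 2 ^ m)
  set P := W.X.hB.xg 33 (1 : K) * W.X.hB.xg 14 1 * W.X.hB.xg 33 1 with hP
  set B := W.X.hB.xg 24 (a : K) * W.X.hB.xg 23 (a : K)⁻¹ * W.X.hB.xg 24 (a : K) with hB
  set Q := W.X.hB.xg 24 (1 : K) * W.X.hB.xg 23 1 * W.X.hB.xg 24 1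
  have hPB : Commute P B := by
    rw [hP, hB]
    apply Commute.mul_left (Commute.mul_left _ _)
    · exact Commute.mul_right (Commute.mul_right (c1 _ _) (c2 _ _)) (c1 _ _)
    · exact Commute.mul_right (Commute.mul_right (c1 _ _) (c2 _ _)) (c1 _ _)
    · exact Commute.mul_right (Commute.mul_right (c3 _ _) (c4 _ _)) (c3 _ _)
  calc A * P * (B * Q) = A * (P * B) * Q := by group
    _ = A * (B * P) * Q := by rw [hPB.eq]
    _ = _ := by group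

theorem hA_F4 : ∀ c : K, c ≠ 0 →
    ∃ h ∈ Subgroup.closure {g : ↥(twistedF4 K (2 ^ m)) | ∃ t, g = W.ga t ∨ g = W.ga' t},
      ∀ t u, h * W.gw t u * h⁻¹ = W.gw (c * t) (c ^ (2 ^ m + 1) * u) := by
  intro c hc
  set a : Kˣ := (Units.mk0 c hc)⁻¹ with ha
  have hac : (a : K) = c⁻¹ := by rw [ha, Units.val_inv_eq_inv_val, Units.val_mk0]
  have hg : ∀ t, W.ga t ∈ Subgroup.closure {g : ↥(twistedF4 K (2 ^ m)) | ∃ t, g = W.ga t ∨ g = W.ga' t} :=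
    fun t => Subgroup.subset_closure ⟨t, Or.inl rfl⟩
  have hg' : ∀ t, W.ga' t ∈ Subgroup.closure {g : ↥(twistedF4 K (2 ^ m)) | ∃ t, g = W.ga t ∨ g = W.ga' t} :=
    fun t => Subgroup.subset_closure ⟨t, Or.inr rfl⟩
  refine ⟨(W.ga a * W.ga' (a : K)⁻¹ * W.ga a) * (W.ga 1 * W.ga' 1 * W.ga 1),
    mul_mem (mul_mem (mul_mem (hg _) (hg' _)) (hg _)) (mul_mem (mul_mem (hg _) (hg' _)) (hg _)), ?_⟩
  intro t u
  apply Subtype.ext
  rw [Subgroup.coe_mul, Subgroup.coe_mul, Subgroup.coe_inv, ← W.hA_eq_prod a, W.coe_gw, W.coe_gw]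
  simp only [b2ClassWord, Base.wg, List.map_cons, List.map_nil, List.prod_cons, List.prod_nil, mul_one]
  obtain ⟨k1, k2, k3, k4, k5, k6, k7, k8⟩ := f4_cartan
  have e27 := W.hA_conj a (s := 27) (by decide) (t ^ 2 ^ m)
  have e25 := W.hA_conj a (s := 25) (by decide) t
  have e28 := W.hA_conj a (s := 28) (by decide) (t ^ (2 ^ m + 1) + u)
  have e30 := W.hA_conj a (s := 30) (by decide) (u ^ (2 * 2 ^ m))
  rw [k1, k2] at e27
  rw [k3, k4] at e25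
  rw [k5, k6] at e28
  rw [k7, k8] at e30
  have hq : c ^ (2 ^ (2 * m + 1)) = c := W.pow_card c
  have f27 : ((a : K) ^ 2 ^ m) ^ (-1 : ℤ) * ((a : K) ^ (0 : ℤ) * t ^ 2 ^ m) = (c * t) ^ 2 ^ m := by
    rw [hac, _root_.zpow_zero, one_mul, _root_.zpow_neg_one, inv_pow, inv_inv, mul_pow]
  have f25 : ((a : K) ^ 2 ^ m) ^ (0 : ℤ) * ((a : K) ^ (-1 : ℤ) * t) = c * t := by
    rw [hac, _root_.zpow_zero, one_mul, _root_.zpow_neg_one, inv_inv]
  have f28 : ((a : K) ^ 2 ^ m) ^ (-1 : ℤ) * ((a : K) ^ (-1 : ℤ) * (t ^ (2 ^ m + 1) + u)) =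
      (c * t) ^ (2 ^ m + 1) + c ^ (2 ^ m + 1) * u := by
    rw [hac, _root_.zpow_neg_one, _root_.zpow_neg_one, inv_pow, inv_inv, inv_inv, mul_pow]
    ring
  have f30 : ((a : K) ^ 2 ^ m) ^ (-2 : ℤ) * ((a : K) ^ (-1 : ℤ) * u ^ (2 * 2 ^ m)) =
      (c ^ (2 ^ m + 1) * u) ^ (2 * 2 ^ m) := by
    have e1 : (c ^ (2 ^ m + 1)) ^ (2 * 2 ^ m) = c ^ (2 ^ (2 * m + 1)) * c ^ (2 * 2 ^ m) := by
      rw [← pow_mul, ← pow_add]
      congr 1
      ring
    rw [hac, _root_.zpow_neg_one, inv_inv, mul_pow, e1, hq, inv_pow, _root_.zpow_neg, _root_.inv_zpow, inv_inv]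
    have : (c ^ 2 ^ m) ^ (2 : ℤ) = c ^ (2 * 2 ^ m) := by
      rw [zpow_ofNat, ← pow_mul, mul_comm]
    rw [this]
    ring
  rw [f27] at e27
  rw [f25] at e25
  rw [f28] at e28
  rw [f30] at e30
  rw [← e27, ← e25, ← e28, ← e30]
  group

end Cfsg.Agent.Lib.Helper18.F4Tw
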