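import Cfsg.Agent.Lib.Helper18.TwOut.FIDefs
import Cfsg.Agent.Lib.Helper18.ReeOutInst

set_option autoImplicit false

/-! # Field automorphisms of the large Ree groups -/

namespace Cfsg.Agent.Lib.Helper18.F4Tw

open Cfsg.Lie Matrix Cfsg.Agent.Lib.Helper6 Cfsg.Agent.Lib.Helper18 Cfsg.Agent.Lib.Lead.FixTwist
open Cfsg.Agent.Lib.Helper18.TwOut Cfsg.Agent.Lib.Helper18.ReeOut

section

variable {K : Type*} [Field K] (σ : K →+* K)

lemma fa_mem_U (D : ChevalleyDatum) {g : GL D.Idx K} (hg : g ∈ D.posUnipotent K) :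
    fa σ D g ∈ D.posUnipotent K := by
  unfold ChevalleyDatum.posUnipotent at hg ⊢
  induction hg using Subgroup.closure_induction with
  | mem x hx =>
    obtain ⟨r, t, hr, e1⟩ := hx
    apply Subgroup.subset_closure
    exact ⟨r, σ t, hr, by rw [coe_fa, e1, map_x]⟩
  | one => rw [map_one]; exact Subgroup.one_mem _
  | mul x y _ _ hx hy => rw [map_mul]; exact Subgroup.mul_mem _ hx hy
  | inv x _ hx => rw [map_inv]; exact Subgroup.inv_mem _ hx

lemma map_pairWord (e r r' : ℕ) (t : K) :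
    (f4PairWord e r r' t).map (fun p => (p.1, σ p.2)) = f4PairWord e r r' (σ t) := by
  simp [f4PairWord]

lemma map_classWord (e a b ab aab : ℕ) (t u : K) :
    (b2ClassWord e a b ab aab t u).map (fun p => (p.1, σ p.2)) = b2ClassWord e a b ab aab (σ t) (σ u) := by
  simp [b2ClassWord]

lemma fa_mem_F4 (e : ℕ) {g : GL chevF4.Idx K} (hg : g ∈ twistedF4 K e) : fa σ chevF4 g ∈ twistedF4 K e := by
  unfold twistedF4 ChevalleyDatum.genSubgroup at hg ⊢
  induction hg using Subgroup.closure_induction with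
  | mem x hx =>
    obtain ⟨w, hw, e1⟩ := hx
    apply Subgroup.subset_closure
    refine ⟨w.map fun p => (p.1, σ p.2), ?_, ?_⟩
    · rcases hw with ⟨t, rfl | rfl⟩ | ⟨t, u, rfl | rfl⟩
      · exact Or.inl ⟨σ t, Or.inl (map_pairWord σ _ _ _ _)⟩
      · exact Or.inl ⟨σ t, Or.inr (map_pairWord σ _ _ _ _)⟩
      · exact Or.inr ⟨σ t, σ u, Or.inl (map_classWord σ _ _ _ _ _ _ _)⟩
      · exact Or.inr ⟨σ t, σ u, Or.inr (map_classWord σ _ _ _ _ _ _ _)⟩
    · rw [coe_fa, e1, map_wordMat]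
  | one => rw [map_one]; exact Subgroup.one_mem _
  | mul x y _ _ hx hy => rw [map_mul]; exact Subgroup.mul_mem _ hx hy
  | inv x _ hx => rw [map_inv]; exact Subgroup.inv_mem _ hx

end

/-- the field automorphisms of `²F₄`. -/
noncomputable def phiF4 {K : Type*} [Field K] (e : ℕ) (σ : K ≃+* K) : ↥(twistedF4 K e) ≃* ↥(twistedF4 K e) where
  toFun g := ⟨fa (σ : K →+* K) chevF4 g, fa_mem_F4 _ e g.2⟩
  invFun g := ⟨fa (σ.symm : K →+* K) chevF4 g, fa_mem_F4 _ e g.2⟩
  left_inv g := by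
    apply Subtype.ext
    apply Units.ext
    ext i j
    simp [coe_fa]
  right_inv g := by
    apply Subtype.ext
    apply Units.ext
    ext i j
    simp [coe_fa]
  map_mul' g h := by
    apply Subtype.ext
    simp

variable {K : Type*} [Field K] [Fintype K] {m : ℕ} (W : F4Tw K m)

theorem fieldAut_F4 : ∀ σ : K ≃+* K, ∃ φ : ↥(twistedF4 K (2 ^ m)) ≃* ↥(twistedF4 K (2 ^ m)),
    Std1 W.fixBN φ ∧ ∀ t, φ (W.ga t) = W.ga (σ t) := by
  intro σ
  have hback : ∀ g : GL chevF4.Idx K, fa (σ.symm : K →+* K) chevF4 (fa (σ : K →+* K) chevF4 g) = g := by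
    intro g
    apply Units.ext
    ext i j
    simp [coe_fa]
  refine ⟨phiF4 (2 ^ m) σ, ⟨fun g => ⟨fun h => ?_, fun h => fa_mem_U _ chevF4 h⟩,
    fun g => ⟨fun h => ?_, fun h => fa_mem_V _ chevF4 h⟩⟩, fun t => ?_⟩
  · have h' : fa (σ : K →+* K) chevF4 (g : GL chevF4.Idx K) ∈ chevF4.posUnipotent K := h
    have := fa_mem_U (σ.symm : K →+* K) chevF4 h'
    rwa [hback] at this
  · have h' : fa (σ : K →+* K) chevF4 (g : GL chevF4.Idx K) ∈ chevF4.negUnipotent K := h
    have := fa_mem_V (σ.symm : K →+* K) chevF4 h'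
    rwa [hback] at this
  · apply Subtype.ext
    apply Units.ext
    show ((fa (σ : K →+* K) chevF4 (W.ga t : GL chevF4.Idx K) : GL chevF4.Idx K) :
      Matrix chevF4.Idx chevF4.Idx K) = _
    rw [coe_fa, W.coe_ga, W.coe_ga, W.X.hB.coe_wg, W.X.hB.coe_wg, map_wordMat, map_pairWord]
    rfl

end Cfsg.Agent.Lib.Helper18.F4Tw
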