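import Cfsg.Agent.Lib.Helper18.TwOut.FI1
import Cfsg.Agent.Lib.Helper18.TwOut.Chk

set_option autoImplicit false

/-! # The fundamental root subgroups of the large Ree groups and the groups `Um` -/

namespace Cfsg.Agent.Lib.Helper18.F4Tw

open Cfsg.Lie Matrix Cfsg.Agent.Lib.Helper6 Cfsg.Agent.Lib.Helper18 Cfsg.Agent.Lib.Lead.FixTwist
open Cfsg.Agent.Lib.Helper18.TwOut

set_option maxRecDepth 100000 in
theorem oppF4' : ∀ O ∈ orbsF4, ∀ r, chevF4.IsPosRoot r → chevF4.IsNegRoot (wAct chevF4 O r) →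
    chevF4.IsPosRoot (wAct chevF4 (cw chainF4t) (wAct chevF4 O r)) ∧
      chevF4.IsNegRoot (wAct chevF4 O (wAct chevF4 (cw chainF4t) (wAct chevF4 O r))) :=
  opp_of_check tabF4 agreeF4 (by decide +kernel) (by decide +kernel) (by decide +kernel)

set_option maxRecDepth 100000 in
theorem f4_negA1 : ∀ r ∈ [14, 23], r < chevF4.nroots ∧ chevF4.IsNegRoot r ∧
    chevF4.IsPosRoot (wAct chevF4 [0, 3].reverse r) := by decide +kernel

set_option maxRecDepth 100000 in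
theorem f4_negB2 : ∀ r ∈ [20, 22, 19, 17], r < chevF4.nroots ∧ chevF4.IsNegRoot r ∧
    chevF4.IsPosRoot (wAct chevF4 [1, 2, 1, 2].reverse r) := by decide +kernel

set_option maxRecDepth 100000 in
theorem f4_good3 : ∀ r ∈ [33, 27, 25, 28, 30], chevF4.IsPosRoot r ∧ r ≠ chevF4.simple 3 := by decide +kernel

variable {K : Type*} [Field K] [Fintype K] {m : ℕ} (W : F4Tw K m)

theorem oppF4 : Opp W.fixBN := oppF4'

theorem ga_mem_Um (t : K) : ((W.ga t : ↥(twistedF4 K (2 ^ m))) : GL chevF4.Idx K) ∈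
    Um chevF4 K (W.X.hB.nW [0, 3]) := by
  rw [W.Um_nW (by decide)]
  exact W.pairWord_mem_UmW t

theorem gw_mem_Um (t u : K) : ((W.gw t u : ↥(twistedF4 K (2 ^ m))) : GL chevF4.Idx K) ∈
    Um chevF4 K (W.X.hB.nW [1, 2, 1, 2]) := by
  rw [W.Um_nW (by decide)]
  exact W.word_mem_UmW t u

theorem exists_ga {x : GL chevF4.Idx K} (hx : x ∈ Um chevF4 K (W.X.hB.nW [0, 3]))
    (hx1 : x ∈ twistedF4 K (2 ^ m)) : ∃ t, x = (W.ga t : ↥(twistedF4 K (2 ^ m))) := by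
  rw [W.Um_nW (by decide)] at hx
  exact W.exists_pairWord_of_fixed hx (W.G1_fixed x hx1)

theorem exists_gw {x : GL chevF4.Idx K} (hx : x ∈ Um chevF4 K (W.X.hB.nW [1, 2, 1, 2]))
    (hx1 : x ∈ twistedF4 K (2 ^ m)) : ∃ t u, x = (W.gw t u : ↥(twistedF4 K (2 ^ m))) := by
  rw [W.Um_nW (by decide)] at hx
  exact W.exists_word_of_fixed hx (W.G1_fixed x hx1)

theorem neg_conj_mem_Um {O : List ℕ} (hO : O ∈ orbsF4) (L : List ℕ)
    (hL : ∀ r ∈ L, r < chevF4.nroots ∧ chevF4.IsNegRoot r ∧ chevF4.IsPosRoot (wAct chevF4 O.reverse r))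
    (w : List (ℕ × K)) (hw : ∀ p ∈ w, p.1 ∈ L) :
    (W.X.hB.nW O)⁻¹ * W.X.hB.wg w * W.X.hB.nW O ∈ Um chevF4 K (W.X.hB.nW O) := by
  have hn : W.X.hB.nW O ∈ chevF4.monomialSubgroup K := W.X.hB.nW_mem W.X.hT.tab (sTabF4.lt O hO)
  apply W.X.mem_Um_of_conj_mem_V hn
  · apply Base.U_le_B
    apply W.X.XP_le_U (P := fun r => chevF4.IsPosRoot r) (fun _ h => h)
    have hy : W.X.hB.wg w ∈ W.X.XP (fun r => (r : ℕ) ∈ L) := by
      apply Subgroup.list_prod_mem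
      intro x hx
      obtain ⟨p, hp, rfl⟩ := List.mem_map.mp hx
      exact Subgroup.subset_closure ⟨⟨p.1, (hL _ (hw p hp)).1⟩, p.2, hw p hp, rfl⟩
    have := W.X.conj_XP (inv_mem hn) (P := fun r => (r : ℕ) ∈ L) (Q := fun r => chevF4.IsPosRoot r) (by
      intro r hr
      rw [W.X.act_inv hn, W.act_nW hO hn]
      exact (hL r hr).2.2) hy
    rwa [inv_inv] at this
  · have e : W.X.hB.nW O * ((W.X.hB.nW O)⁻¹ * W.X.hB.wg w * W.X.hB.nW O) * (W.X.hB.nW O)⁻¹ = W.X.hB.wg w := by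
      group
    rw [e]
    exact W.X.hB.wg_mem_V w (fun p hp => (hL _ (hw p hp)).2.1)

theorem ga'_mem_Um (t : K) : (W.X.hB.nW [0, 3])⁻¹ * ((W.ga' t : ↥(twistedF4 K (2 ^ m))) : GL chevF4.Idx K) *
    W.X.hB.nW [0, 3] ∈ Um chevF4 K (W.X.hB.nW [0, 3]) := by
  apply W.neg_conj_mem_Um (by decide) [14, 23] f4_negA1
  intro p hp
  simp only [f4PairWord, List.mem_cons, List.not_mem_nil, or_false] at hp
  rcases hp with rfl | rfl <;> simp

theorem gw'_mem_Um (t u : K) :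
    (W.X.hB.nW [1, 2, 1, 2])⁻¹ * ((W.gw' t u : ↥(twistedF4 K (2 ^ m))) : GL chevF4.Idx K) *
    W.X.hB.nW [1, 2, 1, 2] ∈ Um chevF4 K (W.X.hB.nW [1, 2, 1, 2]) := by
  apply W.neg_conj_mem_Um (by decide) [20, 22, 19, 17] f4_negB2
  intro p hp
  simp only [b2ClassWord, List.mem_cons, List.not_mem_nil, or_false] at hp
  rcases hp with rfl | rfl | rfl | rfl <;> simp

/-- the two positive root subgroups meet trivially. -/
theorem ga_ne_gw {s t u : K} (h : W.ga s = W.gw t u) : s = 0 := by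
  have h1 := congrArg (fun g : ↥(twistedF4 K (2 ^ m)) => (g : GL chevF4.Idx K)) h
  simp only [W.coe_ga_eq, W.coe_gw] at h1
  have s3 : chevF4.simple 3 = 24 := by decide +kernel
  have hw : W.X.hB.wg (b2ClassWord (2 ^ m) 27 25 28 30 t u) ∈ W.X.hB.Up 3 := by
    apply Subgroup.list_prod_mem
    intro x hx
    obtain ⟨p, hp, rfl⟩ := List.mem_map.mp hx
    apply W.X.hB.xg_mem_Up
    apply f4_good3
    simp only [b2ClassWord, List.mem_cons, List.not_mem_nil, or_false] at hp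
    rcases hp with rfl | rfl | rfl | rfl <;> simp
  have h33 : W.X.hB.xg 33 (s ^ 2 ^ m) ∈ W.X.hB.Up 3 := W.X.hB.xg_mem_Up (f4_good3 33 (by simp)) _
  have h24 : W.X.hB.xg (chevF4.simple 3) s ∈ W.X.hB.Up 3 := by
    rw [s3]
    have : W.X.hB.xg 24 s = W.X.hB.wg (b2ClassWord (2 ^ m) 27 25 28 30 t u) * (W.X.hB.xg 33 (s ^ 2 ^ m))⁻¹ := by
      rw [← h1]; group
    rw [this]
    exact mul_mem hw (inv_mem h33)
  exact W.X.hB.xg_simple_not_mem_Up W.X.hT (by decide) h24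

end Cfsg.Agent.Lib.Helper18.F4Tw
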