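import Cfsg.Agent.Lib.Helper18.TwOut.FT
import Cfsg.Agent.Lib.Helper18.TwOut.A9
import Cfsg.Agent.Lib.Helper18.TwOut.FI1
import Cfsg.Agent.Lib.Helper18.TwOut.FI2
import Cfsg.Agent.Lib.Helper18.TwOut.FI3
import Cfsg.Agent.Lib.Helper18.TwOut.FI4
import Cfsg.Agent.Lib.Helper18.TwOut.FI5
import Cfsg.Agent.Lib.Helper18.TwOut.A4
import Cfsg.Agent.Lib.Helper18.TwOut.P2
import Cfsg.Agent.Lib.Helper43.PA.FieldAut

set_option autoImplicit false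

/-! # Outer automorphisms of the large Ree groups: assembly -/

namespace Cfsg.Agent.Lib.Helper18.F4Tw

open Cfsg.Lie Matrix Cfsg.Agent.Lib.Helper6 Cfsg.Agent.Lib.Helper18 Cfsg.Agent.Lib.Lead.FixTwist
open Cfsg.Agent.Lib.Helper18.TwOut

variable {K : Type*} [Field K] [Fintype K] {m : ℕ} (W : F4Tw K m)

lemma ga_zero : W.ga 0 = 1 := by
  have := W.ga_add 0 0
  rw [add_zero] at this
  exact (mul_eq_left.mp this.symm)

lemma gw_zero : W.gw 0 0 = 1 := by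
  have := W.gw_mul 0 0 0 0
  rw [add_zero, mul_zero, add_zero] at this
  exact (mul_eq_left.mp this)

/-- the statement "`θ` stabilises `X_O` and `Y_O`". -/
def Stab (θ : ↥(twistedF4 K (2 ^ m)) ≃* ↥(twistedF4 K (2 ^ m))) (O : List ℕ) : Prop :=
  (∀ (u : GL chevF4.Idx K) (hu : u ∈ twistedF4 K (2 ^ m)), u ∈ Um chevF4 K (W.X.hB.nW O) →
      ((θ ⟨u, hu⟩ : ↥(twistedF4 K (2 ^ m))) : GL chevF4.Idx K) ∈ Um chevF4 K (W.X.hB.nW O)) ∧
    (∀ (u : GL chevF4.Idx K) (hu : u ∈ twistedF4 K (2 ^ m)),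
      (W.X.hB.nW O)⁻¹ * u * W.X.hB.nW O ∈ Um chevF4 K (W.X.hB.nW O) →
      (W.X.hB.nW O)⁻¹ * ((θ ⟨u, hu⟩ : ↥(twistedF4 K (2 ^ m))) : GL chevF4.Idx K) * W.X.hB.nW O ∈ Um chevF4 K (W.X.hB.nW O))

theorem stab2 {θ : ↥(twistedF4 K (2 ^ m)) ≃* ↥(twistedF4 K (2 ^ m))} (hθ : Std1 W.fixBN θ) : W.Stab θ [1, 2, 1, 2] := by
  have := W.char2
  obtain ⟨O', hO', h1, h2⟩ := hθ.root W.oppF4 (O := [1, 2, 1, 2]) (by show _ ∈ orbsF4; decide)
  have hO'' : O' ∈ orbsF4 := hO'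
  simp only [orbsF4, List.mem_cons, List.not_mem_nil, or_false] at hO''
  rcases hO'' with rfl | rfl
  · exfalso
    obtain ⟨s, hs⟩ := W.exists_ga (h1 _ (W.gw 1 0).2 (W.gw_mem_Um 1 0)) (θ _).2
    have hs' : θ (W.gw 1 0) = W.ga s := Subtype.ext hs
    have e : θ (W.gw 1 0 * W.gw 1 0) = 1 := by
      rw [map_mul, hs', ← W.ga_add, CharTwo.add_self_eq_zero, W.ga_zero]
    have e2 : W.gw 1 0 * W.gw 1 0 = W.gw 0 0 := by
      rw [W.gw_zero]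
      exact θ.injective (e.trans (map_one θ).symm)
    rw [W.gw_mul] at e2
    have := (W.gw_inj e2).2
    simp at this
  · exact ⟨h1, h2⟩

theorem stab1 {θ : ↥(twistedF4 K (2 ^ m)) ≃* ↥(twistedF4 K (2 ^ m))} (hθ : Std1 W.fixBN θ) : W.Stab θ [0, 3] := by
  obtain ⟨O', hO', h1, h2⟩ := hθ.root W.oppF4 (O := [0, 3]) (by show _ ∈ orbsF4; decide)
  have hO'' : O' ∈ orbsF4 := hO'
  simp only [orbsF4, List.mem_cons, List.not_mem_nil, or_false] at hO''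
  rcases hO'' with rfl | rfl
  · exact ⟨h1, h2⟩
  · exfalso
    obtain ⟨t, u, hs⟩ := W.exists_gw (h1 _ (W.ga 1).2 (W.ga_mem_Um 1)) (θ _).2
    have hs' : θ (W.ga 1) = W.gw t u := Subtype.ext hs
    obtain ⟨t', u', hs2⟩ := W.exists_gw ((W.stab2 hθ.symm).1 _ (W.gw t u).2 (W.gw_mem_Um t u)) (θ.symm _).2
    have hs2' : θ.symm (W.gw t u) = W.gw t' u' := Subtype.ext hs2
    rw [← hs', MulEquiv.symm_apply_apply] at hs2'
    exact one_ne_zero (W.ga_ne_gw hs2')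

theorem sd_a {θ : ↥(twistedF4 K (2 ^ m)) ≃* ↥(twistedF4 K (2 ^ m))} (hθ : Std1 W.fixBN θ) (t : K) : ∃ s, θ (W.ga t) = W.ga s := by
  obtain ⟨s, hs⟩ := W.exists_ga ((W.stab1 hθ).1 _ (W.ga t).2 (W.ga_mem_Um t)) (θ _).2
  exact ⟨s, Subtype.ext hs⟩

theorem sd_w {θ : ↥(twistedF4 K (2 ^ m)) ≃* ↥(twistedF4 K (2 ^ m))} (hθ : Std1 W.fixBN θ) (t u : K) : ∃ t' u', θ (W.gw t u) = W.gw t' u' := by
  obtain ⟨t', u', hs⟩ := W.exists_gw ((W.stab2 hθ).1 _ (W.gw t u).2 (W.gw_mem_Um t u)) (θ _).2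
  exact ⟨t', u', Subtype.ext hs⟩

theorem sd_a' {θ : ↥(twistedF4 K (2 ^ m)) ≃* ↥(twistedF4 K (2 ^ m))} (hθ : Std1 W.fixBN θ) (h : ∀ t, θ (W.ga t) = W.ga t) (t : K) :
    θ (W.ga' t) = W.ga' t := by
  refine hθ.fix_neg (O := [0, 3]) (by show _ ∈ orbsF4; decide) ?_ (W.stab1 hθ).2 _ (W.ga' t).2 (W.ga'_mem_Um t)
  intro u hu hu'
  obtain ⟨s, hs⟩ := W.exists_ga hu' hu
  have : (⟨u, hu⟩ : ↥(twistedF4 K (2 ^ m))) = W.ga s := Subtype.ext hs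
  show θ (⟨u, hu⟩ : ↥(twistedF4 K (2 ^ m))) = (⟨u, hu⟩ : ↥(twistedF4 K (2 ^ m)))
  rw [this]
  exact h s

theorem sd_w' {θ : ↥(twistedF4 K (2 ^ m)) ≃* ↥(twistedF4 K (2 ^ m))} (hθ : Std1 W.fixBN θ) (h : ∀ t u, θ (W.gw t u) = W.gw t u) (t u : K) :
    θ (W.gw' t u) = W.gw' t u := by
  refine hθ.fix_neg (O := [1, 2, 1, 2]) (by show _ ∈ orbsF4; decide) ?_ (W.stab2 hθ).2 _ (W.gw' t u).2
    (W.gw'_mem_Um t u)
  intro x hx hx'
  obtain ⟨s, s', hs⟩ := W.exists_gw hx' hx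
  have : (⟨x, hx⟩ : ↥(twistedF4 K (2 ^ m))) = W.gw s s' := Subtype.ext hs
  show θ (⟨x, hx⟩ : ↥(twistedF4 K (2 ^ m))) = (⟨x, hx⟩ : ↥(twistedF4 K (2 ^ m)))
  rw [this]
  exact h s s'

/-- an automorphism fixing the generators is trivial. -/
theorem eq_of_fix {θ : ↥(twistedF4 K (2 ^ m)) ≃* ↥(twistedF4 K (2 ^ m))} (h1 : ∀ t, θ (W.ga t) = W.ga t) (h2 : ∀ t, θ (W.ga' t) = W.ga' t)
    (h3 : ∀ t u, θ (W.gw t u) = W.gw t u) (h4 : ∀ t u, θ (W.gw' t u) = W.gw' t u) (x : ↥(twistedF4 K (2 ^ m))) : θ x = x := by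
  have hx : x ∈ Subgroup.closure {g : ↥(twistedF4 K (2 ^ m)) |
      (∃ t, g = W.ga t ∨ g = W.ga' t) ∨ ∃ t u, g = W.gw t u ∨ g = W.gw' t u} := by
    rw [W.gen_F4]; trivial
  induction hx using Subgroup.closure_induction with
  | mem y hy =>
    rcases hy with ⟨t, rfl | rfl⟩ | ⟨t, u, rfl | rfl⟩
    · exact h1 t
    · exact h2 t
    · exact h3 t u
    · exact h4 t u
  | one => exact map_one θ
  | mul y z _ _ hy hz => rw [map_mul, hy, hz]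
  | inv y _ hy => rw [map_inv, hy]

theorem card_Hd : Nat.card W.Hd = (Fintype.card K - 1) ^ 2 := by
  rw [← W.card_H1]
  unfold Hd
  rw [← Subgroup.inf_subgroupOf_right]
  exact Nat.card_congr (Subgroup.subgroupOfEquivOfLe inf_le_right).toEquiv

theorem H_surj_F4 (hm : 1 ≤ m) : ∀ γ β : K, γ ≠ 0 → β ≠ 0 → ∃ h ∈ W.Hd, (∀ t, h * W.ga t * h⁻¹ = W.ga (γ * t)) ∧
    (∀ t u, h * W.gw t u * h⁻¹ = W.gw (β * t) (β ^ (2 ^ m + 1) * u)) := by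
  classical
  have hact := W.H_act_F4
  choose γ β hγ hβ h1 h2 using hact
  let Φ : W.Hd → Kˣ × Kˣ := fun h => (Units.mk0 (γ h.1 h.2) (hγ h.1 h.2), Units.mk0 (β h.1 h.2) (hβ h.1 h.2))
  have hcen := center_trivial (W.simple hm).1 (W.simple hm).2
  have hinj : Function.Injective Φ := by
    intro h h' e
    have e1 : γ h.1 h.2 = γ h'.1 h'.2 := congrArg (fun z : Kˣ × Kˣ => (z.1 : K)) e
    have e2 : β h.1 h.2 = β h'.1 h'.2 := congrArg (fun z : Kˣ × Kˣ => (z.2 : K)) e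
    have hk : ((h.1⁻¹ * h'.1 : ↥(twistedF4 K (2 ^ m))) : GL chevF4.Idx K) ∈ chevF4.diagonalSubgroup K :=
      mul_mem (inv_mem h.2) h'.2
    have hS : Std1 W.fixBN (MulAut.conj (h.1⁻¹ * h'.1)) := std1_conj (T := W.fixBN) hk
    have f1 : ∀ t, MulAut.conj (h.1⁻¹ * h'.1) (W.ga t) = W.ga t := by
      intro t
      rw [MulAut.conj_apply]
      have a1 := h1 h.1 h.2 t
      have a2 := h1 h'.1 h'.2 t
      rw [← e1, ← a1] at a2
      calc h.1⁻¹ * h'.1 * W.ga t * (h.1⁻¹ * h'.1)⁻¹ = h.1⁻¹ * (h'.1 * W.ga t * h'.1⁻¹) * h.1 := by group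
        _ = _ := by rw [a2]; group
    have f2 : ∀ t u, MulAut.conj (h.1⁻¹ * h'.1) (W.gw t u) = W.gw t u := by
      intro t u
      rw [MulAut.conj_apply]
      have a1 := h2 h.1 h.2 t u
      have a2 := h2 h'.1 h'.2 t u
      rw [← e2, ← a1] at a2
      calc h.1⁻¹ * h'.1 * W.gw t u * (h.1⁻¹ * h'.1)⁻¹ = h.1⁻¹ * (h'.1 * W.gw t u * h'.1⁻¹) * h.1 := by group
        _ = _ := by rw [a2]; group
    have f3 := W.eq_of_fix f1 (W.sd_a' hS f1) f2 (W.sd_w' hS f2)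
    have f4 : h.1⁻¹ * h'.1 = 1 := by
      apply hcen
      intro g'
      have := f3 g'
      rw [MulAut.conj_apply] at this
      calc h.1⁻¹ * h'.1 * g' = (h.1⁻¹ * h'.1 * g' * (h.1⁻¹ * h'.1)⁻¹) * (h.1⁻¹ * h'.1) := by group
        _ = _ := by rw [this]
    exact Subtype.ext (inv_mul_eq_one.mp f4)
  have hcard : Nat.card (Kˣ × Kˣ) ≤ Nat.card W.Hd := by
    rw [W.card_Hd, Nat.card_prod, Nat.card_eq_fintype_card, Fintype.card_units, sq]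
  have hbij := hinj.bijective_of_nat_card_le hcard
  intro c d hc hd
  obtain ⟨h, hh⟩ := hbij.2 (Units.mk0 c hc, Units.mk0 d hd)
  have e1 : γ h.1 h.2 = c := congrArg (fun z : Kˣ × Kˣ => (z.1 : K)) hh
  have e2 : β h.1 h.2 = d := congrArg (fun z : Kˣ × Kˣ => (z.2 : K)) hh
  refine ⟨h.1, h.2, ?_, ?_⟩
  · intro t; rw [h1 h.1 h.2 t, e1]
  · intro t u; rw [h2 h.1 h.2 t u, e2]

/-- the abstract data of `²F₄(q)`. -/
noncomputable def toFD (hm : 1 ≤ m) : FD ↥(twistedF4 K (2 ^ m)) K (2 ^ m) where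
  a := W.ga
  a' := W.ga'
  w := W.gw
  w' := W.gw'
  H := W.Hd
  Sd := fun θ => Std1 W.fixBN θ
  a_add := W.ga_add
  a_inj := fun _ _ h => W.ga_inj h
  w_mul := W.gw_mul
  w_inj := fun _ _ _ _ h => W.gw_inj h
  gen := W.gen_F4
  H_act := W.H_act_F4
  H_surj := W.H_surj_F4 hm
  hA := W.hA_F4
  fieldAut := W.fieldAut_F4
  sd_conj := fun h hh => std1_conj (T := W.fixBN) hh
  sd_mul := fun θ θ' h h' => Std1.trans (T := W.fixBN) h' h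
  sd_inv := fun θ h => Std1.symm (T := W.fixBN) h
  std := by
    intro θ
    obtain ⟨g, θ', h1, h2⟩ := exists_std1 (T := W.fixBN) memF4 θ
    refine ⟨g, θ', h1, ?_⟩
    apply MulEquiv.ext
    intro x
    exact h2 x
  sd_a := fun θ h => W.sd_a h
  sd_w := fun θ h => W.sd_w h
  sd_H := fun θ h g hg => (Std1.H (T := W.fixBN) W.oppF4 h g).mpr hg
  sd_a' := fun θ h => W.sd_a' h
  sd_w' := fun θ h => W.sd_w' h
  mem_H := fun g h => mem_H_of_std1_conj (T := W.fixBN) W.oppF4 h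

end Cfsg.Agent.Lib.Helper18.F4Tw

namespace Cfsg.Agent.Lib.Helper18.TwOut

open Cfsg.Lie

theorem card_out_F4 {K : Type*} [Field K] [Fintype K] {m : ℕ} (hm : 1 ≤ m)
    (hK : Fintype.card K = 2 ^ (2 * m + 1)) : Nat.card (Cfsg.Out ↥(twistedF4 K (2 ^ m))) = 2 * m + 1 := by
  obtain ⟨W⟩ := exists_F4Tw hK
  have : Fact (Nat.Prime 2) := ⟨Nat.prime_two⟩
  rw [(W.toFD hm).card_out hm hK, Cfsg.Agent.Lib.Helper43.PA.card_ringAut hK]

end Cfsg.Agent.Lib.Helper18.TwOut
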