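import Mathlib

set_option autoImplicit false

namespace Cfsg.Agent.Lib.Helper18.TwOut

theorem suz_core {K : Type*} [Field K] (e : ℕ) (he : 1 ≤ e) (h2 : (2 : K) = 0)
    (hfrob : ∀ x y : K, (x + y) ^ e = x ^ e + y ^ e) (hpow : ∀ x : K, x ^ (2 * e * e) = x)
    (hex : ∃ a : K, a ^ e ≠ a) (F G : K → K → K)
    (hmul : ∀ t u t' u', F (t + t') (u + u' + t ^ e * t') = F t u + F t' u' ∧
      G (t + t') (u + u' + t ^ e * t') = G t u + G t' u' + (F t u) ^ e * F t' u')
    (hsc : ∀ c : K, c ≠ 0 → ∀ t u, F (c * t) (c ^ (e + 1) * u) = c * F t u ∧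
      G (c * t) (c ^ (e + 1) * u) = c ^ (e + 1) * G t u)
    (hinj : ∀ t u, F t u = 0 → G t u = 0 → t = 0 ∧ u = 0) :
    ∃ c : K, c ≠ 0 ∧ ∀ t u, F t u = c * t ∧ G t u = c ^ (e + 1) * u := by
  have hadd : ∀ x : K, x + x = 0 := fun x => by linear_combination x * h2
  have h0e : (0 : K) ^ e = 0 := zero_pow (by omega)
  have F00 : F 0 0 = 0 := by
    have := (hmul 0 0 0 0).1
    simp only [add_zero, mul_zero] at this
    linear_combination -this
  have G00 : G 0 0 = 0 := by
    have := (hmul 0 0 0 0).2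
    simp only [add_zero, mul_zero, F00] at this
    linear_combination -this
  have hsq : ∀ t u, F 0 (t ^ (e + 1)) = 0 ∧ G 0 (t ^ (e + 1)) = (F t u) ^ (e + 1) := by
    intro t u
    have := hmul t u t u
    rw [hadd t, hadd u, zero_add, ← pow_succ, hadd, hadd, zero_add, ← pow_succ] at this
    exact this
  have honto : ∀ b : K, ∃ a : K, a ^ (e + 1) = b := by
    intro b
    obtain ⟨k, rfl⟩ : ∃ k, e = k + 1 := ⟨e - 1, by omega⟩
    refine ⟨b ^ ((2 * k + 1) * (2 * (k + 1))), ?_⟩
    calc (b ^ ((2 * k + 1) * (2 * (k + 1)))) ^ (k + 1 + 1)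
        = (b ^ (2 * (k + 1) * (k + 1)) * b ^ k) ^ (2 * (k + 1)) := by
          rw [← pow_add, ← pow_mul, ← pow_mul]; congr 1; ring
      _ = (b * b ^ k) ^ (2 * (k + 1)) := by rw [hpow]
      _ = b ^ (2 * (k + 1) * (k + 1)) := by rw [← pow_succ', ← pow_mul]; congr 1; ring
      _ = b := hpow b
  have F0 : ∀ u, F 0 u = 0 := by
    intro u
    obtain ⟨a, rfl⟩ := honto u
    exact (hsq a 0).1
  have hsplit : ∀ t u, F t u = F t 0 ∧ G t u = G t 0 + G 0 u := by
    intro t u
    have := hmul t 0 0 u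
    simp only [add_zero, zero_add, mul_zero, F0] at this
    exact this
  set c0 : K := F 1 0 with hc0
  have hf : ∀ t, F t 0 = c0 * t := by
    intro t
    by_cases ht : t = 0
    · rw [ht, F00, mul_zero]
    · have := (hsc t ht 1 0).1
      rw [mul_one, mul_zero] at this
      rw [this, mul_comm]
  have hψ1 : G 0 1 = c0 ^ (e + 1) := by
    have := (hsq 1 0).2
    rwa [one_pow] at this
  have hψ : ∀ u, G 0 u = c0 ^ (e + 1) * u := by
    intro u
    by_cases hu : u = 0
    · rw [hu, G00, mul_zero]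
    · obtain ⟨a, rfl⟩ := honto u
      have ha : a ≠ 0 := by
        rintro rfl
        exact hu (zero_pow (by omega))
      have := (hsc a ha 0 1).2
      rw [mul_zero, mul_one, hψ1] at this
      rw [this, mul_comm]
  have hc0ne : c0 ≠ 0 := by
    intro h
    have h1 := hinj 0 1 (F0 1) (by rw [hψ1, h, zero_pow (by omega)])
    exact one_ne_zero h1.2
  have hDadd : ∀ t t', G (t + t') 0 = G t 0 + G t' 0 := by
    intro t t'
    have h1 := (hmul t 0 t' 0).2
    rw [add_zero, zero_add, (hsplit (t + t') _).2, hψ, hf, hf, mul_pow] at h1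
    linear_combination h1
  have hDsc : ∀ t, t ≠ 0 → G t 0 = t ^ (e + 1) * G 1 0 := by
    intro t ht
    have := (hsc t ht 1 0).2
    rwa [mul_one, mul_zero] at this
  have hD1 : G 1 0 = 0 := by
    obtain ⟨a, ha⟩ := hex
    have ha0 : a ≠ 0 := by
      rintro rfl
      exact ha h0e
    have ha1 : 1 + a ≠ 0 := by
      intro h
      have : a = 1 := by linear_combination h - hadd 1
      rw [this, one_pow] at ha
      exact ha rfl
    have h1 := hDadd 1 a
    rw [hDsc (1 + a) ha1, hDsc a ha0, pow_succ, hfrob, one_pow] at h1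
    have h3 : (a + a ^ e) * G 1 0 = 0 := by
      rw [pow_succ] at h1
      linear_combination h1
    rcases mul_eq_zero.1 h3 with h4 | h4
    · exfalso
      apply ha
      linear_combination h4 - hadd a
    · exact h4
  have hD : ∀ t, G t 0 = 0 := by
    intro t
    by_cases ht : t = 0
    · rw [ht, G00]
    · rw [hDsc t ht, hD1, mul_zero]
  refine ⟨c0, hc0ne, fun t u => ⟨?_, ?_⟩⟩
  · rw [(hsplit t u).1, hf]
  · rw [(hsplit t u).2, hD, hψ, zero_add]

theorem suz_rigid {K : Type*} [Field K] [Fintype K] {m : ℕ} (hm : 1 ≤ m)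
    (hK : Fintype.card K = 2 ^ (2 * m + 1)) (F G : K → K → K)
    (hmul : ∀ t u t' u', F (t + t') (u + u' + t ^ 2 ^ m * t') = F t u + F t' u' ∧
      G (t + t') (u + u' + t ^ 2 ^ m * t') = G t u + G t' u' + (F t u) ^ 2 ^ m * F t' u')
    (hsc : ∀ c : K, c ≠ 0 → ∀ t u, F (c * t) (c ^ (2 ^ m + 1) * u) = c * F t u ∧
      G (c * t) (c ^ (2 ^ m + 1) * u) = c ^ (2 ^ m + 1) * G t u)
    (hinj : ∀ t u, F t u = 0 → G t u = 0 → t = 0 ∧ u = 0) :
    ∃ c : K, c ≠ 0 ∧ ∀ t u, F t u = c * t ∧ G t u = c ^ (2 ^ m + 1) * u := by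
  classical
  have h2 : (2 : K) = 0 := by
    have := Nat.cast_card_eq_zero K
    rw [hK] at this
    push_cast at this
    exact pow_eq_zero_iff (by omega) |>.1 this
  have : CharP K 2 := CharTwo.of_one_ne_zero_of_two_eq_zero one_ne_zero h2
  have hpow : ∀ x : K, x ^ (2 * 2 ^ m * 2 ^ m) = x := by
    intro x
    have := FiniteField.pow_card x
    rw [hK] at this
    have e : 2 * 2 ^ m * 2 ^ m = 2 ^ (2 * m + 1) := by ring
    rw [e]; exact this
  apply suz_core (2 ^ m) Nat.one_le_two_pow h2 (fun x y => add_pow_char_pow x y 2 m) hpow _ F G hmul hsc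
    hinj
  by_contra hcon
  push Not at hcon
  have hall : ∀ a : K, a = 0 ∨ a = 1 := by
    intro a
    have h1 : a ^ 2 = a := by
      have := hpow a
      rw [mul_assoc, mul_comm, pow_mul, pow_mul, hcon, hcon] at this
      exact this
    have h3 : a * (a - 1) = 0 := by linear_combination h1
    rcases mul_eq_zero.1 h3 with h | h
    · exact Or.inl h
    · exact Or.inr (sub_eq_zero.1 h)
  have hle : Fintype.card K ≤ ({0, 1} : Finset K).card := by
    rw [← Finset.card_univ]
    apply Finset.card_le_card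
    intro x _
    rcases hall x with rfl | rfl <;> simp
  have h3 : ({0, 1} : Finset K).card ≤ 2 := Finset.card_le_two
  have h4 : 2 ^ 3 ≤ 2 ^ (2 * m + 1) := Nat.pow_le_pow_right (by norm_num) (by omega)
  omega

end Cfsg.Agent.Lib.Helper18.TwOut
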