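import Mathlib
import Cfsg.Prelude.Def_KGroupFacts

set_option autoImplicit false

/-!
# Outer automorphisms of the large Ree groups: the abstract setting

`G` is generated by two pairs of opposite "fundamental root subgroups": `a t`, `a' t` (isomorphic to the additive group of
`K`) and `w t u`, `w' t u` (of Suzuki type).  `Sd` is the set of the automorphisms stabilising `U` and `V`.
-/

namespace Cfsg.Agent.Lib.Helper18.TwOut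

/-- the abstract data. -/
structure FD (G : Type*) [Group G] (K : Type*) [Field K] (e : ℕ) where
  a : K → G
  a' : K → G
  w : K → K → G
  w' : K → K → G
  H : Subgroup G
  Sd : MulAut G → Prop
  a_add : ∀ s t, a (s + t) = a s * a t
  a_inj : ∀ s t, a s = a t → s = t
  w_mul : ∀ t u t' u', w t u * w t' u' = w (t + t') (u + u' + t ^ e * t')
  w_inj : ∀ t u t' u', w t u = w t' u' → t = t' ∧ u = u'
  gen : Subgroup.closure {g : G | (∃ t, g = a t ∨ g = a' t) ∨ ∃ t u, g = w t u ∨ g = w' t u} = ⊤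
  H_act : ∀ h ∈ H, ∃ γ β : K, γ ≠ 0 ∧ β ≠ 0 ∧ (∀ t, h * a t * h⁻¹ = a (γ * t)) ∧
    (∀ t u, h * w t u * h⁻¹ = w (β * t) (β ^ (e + 1) * u))
  H_surj : ∀ γ β : K, γ ≠ 0 → β ≠ 0 → ∃ h ∈ H, (∀ t, h * a t * h⁻¹ = a (γ * t)) ∧
    (∀ t u, h * w t u * h⁻¹ = w (β * t) (β ^ (e + 1) * u))
  hA : ∀ c : K, c ≠ 0 → ∃ h ∈ Subgroup.closure {g : G | ∃ t, g = a t ∨ g = a' t},
    ∀ t u, h * w t u * h⁻¹ = w (c * t) (c ^ (e + 1) * u)
  fieldAut : ∀ σ : K ≃+* K, ∃ φ : MulAut G, Sd φ ∧ ∀ t, φ (a t) = a (σ t)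
  sd_conj : ∀ h ∈ H, Sd (MulAut.conj h)
  sd_mul : ∀ θ θ', Sd θ → Sd θ' → Sd (θ * θ')
  sd_inv : ∀ θ, Sd θ → Sd θ⁻¹
  std : ∀ θ : MulAut G, ∃ g : G, ∃ θ' : MulAut G, Sd θ' ∧ θ = MulAut.conj g * θ'
  sd_a : ∀ θ, Sd θ → ∀ t, ∃ s, θ (a t) = a s
  sd_w : ∀ θ, Sd θ → ∀ t u, ∃ t' u', θ (w t u) = w t' u'
  sd_H : ∀ θ, Sd θ → ∀ h ∈ H, θ h ∈ H
  sd_a' : ∀ θ, Sd θ → (∀ t, θ (a t) = a t) → ∀ t, θ (a' t) = a' t
  sd_w' : ∀ θ, Sd θ → (∀ t u, θ (w t u) = w t u) → ∀ t u, θ (w' t u) = w' t u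
  mem_H : ∀ g : G, Sd (MulAut.conj g) → g ∈ H

end Cfsg.Agent.Lib.Helper18.TwOut
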