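import Cfsg.Agent.Lib.Helper18.TwOut.ADefs
import Cfsg.Agent.Lib.Helper18.F4Simple
import Cfsg.Agent.Lib.Helper18.F4Card

set_option autoImplicit false

/-! # Outer automorphisms of the large Ree groups: definitions for the instantiation -/

namespace Cfsg.Agent.Lib.Helper18.F4Tw

open Cfsg.Lie Matrix Cfsg.Agent.Lib.Helper6 Cfsg.Agent.Lib.Helper18 Cfsg.Agent.Lib.Lead.FixTwist

variable {K : Type*} [Field K] [Fintype K] {m : ℕ} (W : F4Tw K m)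

/-- `x_{p₁}(t^θ) x_{p₄}(t)`. -/
noncomputable def ga (t : K) : ↥(twistedF4 K (2 ^ m)) := ⟨_, W.pairPos_mem t⟩

/-- `x_{-p₁}(t^θ) x_{-p₄}(t)`. -/
noncomputable def ga' (t : K) : ↥(twistedF4 K (2 ^ m)) := ⟨_, W.pairNeg_mem t⟩

/-- the positive class words. -/
noncomputable def gw (t u : K) : ↥(twistedF4 K (2 ^ m)) := ⟨_, W.wordPos_mem t u⟩

/-- the negative class words. -/
noncomputable def gw' (t u : K) : ↥(twistedF4 K (2 ^ m)) := ⟨_, W.wordNeg_mem t u⟩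

lemma coe_ga (t : K) : ((W.ga t : ↥(twistedF4 K (2 ^ m))) : GL chevF4.Idx K) =
    W.X.hB.wg (f4PairWord (2 ^ m) 33 24 t) := rfl

lemma coe_ga' (t : K) : ((W.ga' t : ↥(twistedF4 K (2 ^ m))) : GL chevF4.Idx K) =
    W.X.hB.wg (f4PairWord (2 ^ m) 14 23 t) := rfl

lemma coe_gw (t u : K) : ((W.gw t u : ↥(twistedF4 K (2 ^ m))) : GL chevF4.Idx K) =
    W.X.hB.wg (b2ClassWord (2 ^ m) 27 25 28 30 t u) := rfl

lemma coe_gw' (t u : K) : ((W.gw' t u : ↥(twistedF4 K (2 ^ m))) : GL chevF4.Idx K) =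
    W.X.hB.wg (b2ClassWord (2 ^ m) 20 22 19 17 t u) := rfl

/-- the diagonal subgroup. -/
def Hd (_ : F4Tw K m) : Subgroup ↥(twistedF4 K (2 ^ m)) :=
  (chevF4.diagonalSubgroup K).subgroupOf (twistedF4 K (2 ^ m))

end Cfsg.Agent.Lib.Helper18.F4Tw
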