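import Cfsg.Agent.Lib.Helper18.TwOut.FDefs
import Cfsg.Agent.Lib.Helper18.TwOut.FA

set_option autoImplicit false

/-! # Outer automorphisms of the large Ree groups: the abstract theory -/

namespace Cfsg.Agent.Lib.Helper18.TwOut

variable {G : Type*} [Group G] {K : Type*} [Field K] {e : ℕ}

namespace FD

variable (R : FD G K e)

lemma a_zero : R.a 0 = 1 := by
  have := R.a_add 0 0
  rw [add_zero] at this
  exact (mul_eq_left.mp this.symm)

lemma w_zero : R.w 0 0 = 1 := by
  have := R.w_mul 0 0 0 0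
  rw [add_zero, mul_zero, add_zero] at this
  exact (mul_eq_left.mp this)

/-- an automorphism fixing the generators is trivial. -/
theorem eq_one_of_fix {θ : MulAut G} (h1 : ∀ t, θ (R.a t) = R.a t) (h2 : ∀ t, θ (R.a' t) = R.a' t)
    (h3 : ∀ t u, θ (R.w t u) = R.w t u) (h4 : ∀ t u, θ (R.w' t u) = R.w' t u) : θ = 1 := by
  ext x
  have hx : x ∈ Subgroup.closure {g : G | (∃ t, g = R.a t ∨ g = R.a' t) ∨ ∃ t u, g = R.w t u ∨ g = R.w' t u} := by
    rw [R.gen]; trivial
  show θ x = x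
  induction hx using Subgroup.closure_induction with
  | mem y hy =>
    rcases hy with ⟨t, rfl | rfl⟩ | ⟨t, u, rfl | rfl⟩
    · exact h1 t
    · exact h2 t
    · exact h3 t u
    · exact h4 t u
  | one => exact map_one θ
  | mul y z _ _ hy hz => rw [map_mul, hy, hz]
  | inv y _ hy => rw [map_inv, hy]

theorem exists_sigma [Finite K] {θ : MulAut G} (hθ : R.Sd θ) :
    ∃ (σ : K ≃+* K) (c : K), c ≠ 0 ∧ ∀ t, θ (R.a t) = R.a (c * σ t) := by
  choose f hf using R.sd_a θ hθ
  have hadd : ∀ s t, f (s + t) = f s + f t := by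
    intro s t
    have := congrArg θ (R.a_add s t)
    rw [map_mul, hf, hf, hf, ← R.a_add] at this
    exact R.a_inj _ _ this
  have hinj : ∀ s t, f s = f t → s = t := by
    intro s t h
    apply R.a_inj
    apply θ.injective
    rw [hf, hf, h]
  have f0 : f 0 = 0 := by
    have := hadd 0 0
    rw [add_zero] at this
    exact left_eq_add.mp this
  have f1 : f 1 ≠ 0 := by
    intro h
    exact one_ne_zero (hinj 1 0 (h.trans f0.symm))
  have hmul : ∀ γ : K, γ ≠ 0 → ∀ t, f (γ * t) * f 1 = f γ * f t := by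
    intro γ hγ t
    obtain ⟨h, hh, h1, -⟩ := R.H_surj γ 1 hγ one_ne_zero
    obtain ⟨γ', β', -, -, h1', -⟩ := R.H_act (θ h) (R.sd_H θ hθ h hh)
    have key : ∀ t, f (γ * t) = γ' * f t := by
      intro t
      have := congrArg θ (h1 t)
      rw [map_mul, map_mul, map_inv, hf, hf, h1'] at this
      exact (R.a_inj _ _ this).symm
    have k1 := key 1
    rw [mul_one] at k1
    rw [key t, k1]
    ring
  let φ : K →+* K :=
    { toFun := fun t => (f 1)⁻¹ * f t
      map_one' := inv_mul_cancel₀ f1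
      map_mul' := by
        intro x y
        by_cases hx : x = 0
        · subst hx
          simp only [zero_mul, f0, mul_zero]
        · have := hmul x hx y
          field_simp
          linear_combination this
      map_zero' := by simp only [f0, mul_zero]
      map_add' := by
        intro x y
        simp only [hadd, mul_add] }
  have hφbij : Function.Bijective φ := Finite.injective_iff_bijective.mp φ.injective
  refine ⟨RingEquiv.ofBijective φ hφbij, f 1, f1, fun t => ?_⟩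
  rw [hf]
  congr 1
  show f t = f 1 * ((f 1)⁻¹ * f t)
  rw [mul_inv_cancel_left₀ f1]

end FD

namespace FD

variable {m : ℕ} [Fintype K] (R : FD G K (2 ^ m))

/-- an `Sd` automorphism fixing the `a t` is the conjugation by an element of `H`. -/
theorem eq_conj_of_fix (hm : 1 ≤ m) (hK : Fintype.card K = 2 ^ (2 * m + 1)) {θ : MulAut G} (hθ : R.Sd θ)
    (hfix : ∀ t, θ (R.a t) = R.a t) : ∃ h ∈ R.H, θ = MulAut.conj h := by
  have ha' := R.sd_a' θ hθ hfix
  have hcl : ∀ k ∈ Subgroup.closure {g : G | ∃ t, g = R.a t ∨ g = R.a' t}, θ k = k := by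
    intro k hk
    induction hk using Subgroup.closure_induction with
    | mem y hy =>
      rcases hy with ⟨t, rfl | rfl⟩
      · exact hfix t
      · exact ha' t
    | one => exact map_one θ
    | mul y z _ _ hy hz => rw [map_mul, hy, hz]
    | inv y _ hy => rw [map_inv, hy]
  choose F G' hFG using R.sd_w θ hθ
  have hmul : ∀ t u t' u', F (t + t') (u + u' + t ^ 2 ^ m * t') = F t u + F t' u' ∧
      G' (t + t') (u + u' + t ^ 2 ^ m * t') = G' t u + G' t' u' + (F t u) ^ 2 ^ m * F t' u' := by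
    intro t u t' u'
    have := congrArg θ (R.w_mul t u t' u')
    rw [map_mul, hFG, hFG, hFG, R.w_mul] at this
    exact R.w_inj _ _ _ _ this.symm
  have hsc : ∀ c : K, c ≠ 0 → ∀ t u, F (c * t) (c ^ (2 ^ m + 1) * u) = c * F t u ∧
      G' (c * t) (c ^ (2 ^ m + 1) * u) = c ^ (2 ^ m + 1) * G' t u := by
    intro c hc t u
    obtain ⟨k, hk, hkw⟩ := R.hA c hc
    have := congrArg θ (hkw t u)
    rw [map_mul, map_mul, map_inv, hcl k hk, hFG, hFG, hkw] at this
    exact R.w_inj _ _ _ _ this.symm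
  have hinj : ∀ t u, F t u = 0 → G' t u = 0 → t = 0 ∧ u = 0 := by
    intro t u h1 h2
    apply R.w_inj
    apply θ.injective
    rw [hFG, h1, h2, R.w_zero, map_one]
  obtain ⟨c, hc, hc'⟩ := suz_rigid hm hK F G' hmul hsc hinj
  obtain ⟨h, hh, h1, h2⟩ := R.H_surj 1 c one_ne_zero hc
  refine ⟨h, hh, ?_⟩
  have hS : R.Sd ((MulAut.conj h)⁻¹ * θ) := R.sd_mul _ _ (R.sd_inv _ (R.sd_conj h hh)) hθ
  have f1 : ∀ t, ((MulAut.conj h)⁻¹ * θ) (R.a t) = R.a t := by
    intro t
    have e1 : MulAut.conj h (R.a t) = R.a t := by rw [MulAut.conj_apply, h1, one_mul]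
    rw [MulAut.mul_apply, hfix]
    nth_rewrite 1 [← e1]
    exact MulAut.inv_apply_self _ _ _
  have f2 : ∀ t u, ((MulAut.conj h)⁻¹ * θ) (R.w t u) = R.w t u := by
    intro t u
    have e1 : MulAut.conj h (R.w t u) = θ (R.w t u) := by
      rw [MulAut.conj_apply, h2, hFG, (hc' t u).1, (hc' t u).2]
    rw [MulAut.mul_apply, ← e1]
    exact MulAut.inv_apply_self _ _ _
  have h3 := R.eq_one_of_fix f1 (R.sd_a' _ hS f1) f2 (R.sd_w' _ hS f2)
  exact (inv_mul_eq_one.mp h3).symm

theorem bijective_out (hm : 1 ≤ m) (hK : Fintype.card K = 2 ^ (2 * m + 1)) (φ : (K ≃+* K) → MulAut G)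
    (hφ : ∀ σ, R.Sd (φ σ) ∧ ∀ t, φ σ (R.a t) = R.a (σ t)) :
    Function.Bijective (fun σ : K ≃+* K => (QuotientGroup.mk (φ σ) : Cfsg.Out G)) := by
  constructor
  · intro σ τ h
    have h1 : (φ σ)⁻¹ * φ τ ∈ Cfsg.Inn G := QuotientGroup.eq.mp h
    obtain ⟨g, hg⟩ := h1
    have hg' : MulAut.conj g = (φ σ)⁻¹ * φ τ := hg
    have hS : R.Sd (MulAut.conj g) := by
      rw [hg']
      exact R.sd_mul _ _ (R.sd_inv _ (hφ σ).1) (hφ τ).1
    obtain ⟨γ, β, -, -, h2, -⟩ := R.H_act g (R.mem_H g hS)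
    have h3 : ∀ t, σ.symm (τ t) = γ * t := by
      intro t
      apply R.a_inj
      rw [← h2 t, ← MulAut.conj_apply, hg', MulAut.mul_apply, (hφ τ).2]
      have h4 := (hφ σ).2 (σ.symm (τ t))
      rw [RingEquiv.apply_symm_apply] at h4
      rw [← h4, MulAut.inv_apply_self]
    have h5 : γ = 1 := by
      have := h3 1
      rw [map_one, map_one, mul_one] at this
      exact this.symm
    ext t
    have := h3 t
    rw [h5, one_mul, RingEquiv.symm_apply_eq] at this
    exact this.symm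
  · intro z
    obtain ⟨θ, rfl⟩ := QuotientGroup.mk_surjective z
    obtain ⟨g, θ', hS, rfl⟩ := R.std θ
    obtain ⟨σ, c, hc, hσ⟩ := R.exists_sigma hS
    obtain ⟨h₁, hh₁, k1, -⟩ := R.H_surj c 1 hc one_ne_zero
    have hψ : R.Sd (MulAut.conj h₁ * φ σ) := R.sd_mul _ _ (R.sd_conj h₁ hh₁) (hφ σ).1
    have hS1 : R.Sd ((MulAut.conj h₁ * φ σ)⁻¹ * θ') := R.sd_mul _ _ (R.sd_inv _ hψ) hS
    have hfix : ∀ t, ((MulAut.conj h₁ * φ σ)⁻¹ * θ') (R.a t) = R.a t := by
      intro t
      have e1 : (MulAut.conj h₁ * φ σ) (R.a t) = θ' (R.a t) := by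
        rw [MulAut.mul_apply, (hφ σ).2, MulAut.conj_apply, k1, hσ]
      rw [MulAut.mul_apply, ← e1]
      exact MulAut.inv_apply_self _ _ _
    obtain ⟨h₂, -, e2⟩ := R.eq_conj_of_fix hm hK hS1 hfix
    have e3 : θ' = MulAut.conj h₁ * φ σ * MulAut.conj h₂ := by
      rw [← e2, mul_inv_cancel_left]
    refine ⟨σ, ?_⟩
    show (QuotientGroup.mk (φ σ) : Cfsg.Out G) = QuotientGroup.mk (MulAut.conj g * θ')
    have i1 : ∀ x : G, (QuotientGroup.mk (MulAut.conj x) : Cfsg.Out G) = 1 :=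
      fun x => (QuotientGroup.eq_one_iff _).mpr ⟨x, rfl⟩
    rw [e3, QuotientGroup.mk_mul, QuotientGroup.mk_mul, QuotientGroup.mk_mul, i1, i1, i1, one_mul, one_mul, mul_one]

include R in
theorem card_out (hm : 1 ≤ m) (hK : Fintype.card K = 2 ^ (2 * m + 1)) :
    Nat.card (Cfsg.Out G) = Nat.card (K ≃+* K) := by
  choose φ hφ using R.fieldAut
  exact (Nat.card_eq_of_bijective _ (R.bijective_out hm hK φ hφ)).symm

end FD

end Cfsg.Agent.Lib.Helper18.TwOut
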