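import Cfsg.Agent.Lib.Helper18.TwOut.Defs

set_option autoImplicit false

/-!
# Piece T1: rigidity of an automorphism normalising all fundamental root subgroups
-/

namespace Cfsg.Agent.Lib.Helper18.TwOut

variable {G : Type*} [Group G] {K : Type*} [Field K] {ι : Type*}

namespace T1

/-- an additive map of a finite field with `f 1 = 1`, `f (c² t) = f(c)² f(t)` is multiplicative
(copy of a lemma of helper36). -/
theorem mul_of_sq' [Finite K] (f : K → K) (hadd : ∀ t u, f (t + u) = f t + f u) (h1 : f 1 = 1)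
    (hsq : ∀ c, c ≠ 0 → ∀ t, f (c ^ 2 * t) = f c ^ 2 * f t) (a b : K) : f (a * b) = f a * f b := by
  have h0 : f 0 = 0 := by
    have := hadd 0 0
    rw [add_zero] at this
    linear_combination -this
  have hsq' : ∀ c t, f (c ^ 2 * t) = f c ^ 2 * f t := by
    intro c t
    by_cases hc : c = 0
    · subst hc; simp [h0]
    · exact hsq c hc t
  by_cases h2 : (2 : K) = 0
  · have : Fintype K := Fintype.ofFinite K
    have hch : ringChar K = 2 := by
      have : CharP K 2 := CharTwo.of_one_ne_zero_of_two_eq_zero one_ne_zero h2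
      exact ringChar.eq K 2
    obtain ⟨c, rfl⟩ := FiniteField.isSquare_of_char_two hch a
    have e1 := hsq' c b
    have e2 := hsq' c 1
    rw [mul_one, h1, mul_one] at e2
    rw [← pow_two, e1, e2]
  · have e1 := hsq' (a + 1) b
    have e2 := hsq' a b
    have e3 : f ((a + 1) ^ 2 * b) = f (a ^ 2 * b) + (f (a * b) + f (a * b)) + f b := by
      have : (a + 1) ^ 2 * b = a ^ 2 * b + (a * b + a * b) + b := by ring
      rw [this, hadd, hadd, hadd]
    rw [e3, e2, hadd, h1] at e1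
    have e4 : 2 * (f (a * b) - f a * f b) = 0 := by linear_combination e1
    rcases mul_eq_zero.mp e4 with h | h
    · exact absurd h h2
    · linear_combination h

section generic

variable {k : Subfield K} {x : K → G}

theorem gx_zero (hadd : ∀ s ∈ k, ∀ t ∈ k, x (s + t) = x s * x t) : x 0 = 1 := by
  have := hadd 0 k.zero_mem 0 k.zero_mem
  rw [add_zero] at this
  exact left_eq_mul.mp this

theorem gx_neg (hadd : ∀ s ∈ k, ∀ t ∈ k, x (s + t) = x s * x t) {t : K} (ht : t ∈ k) :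
    x (-t) = (x t)⁻¹ := by
  have := hadd t ht (-t) (k.neg_mem ht)
  rw [add_neg_cancel, gx_zero hadd] at this
  exact eq_inv_of_mul_eq_one_right this.symm

theorem gx_injOn (hadd : ∀ s ∈ k, ∀ t ∈ k, x (s + t) = x s * x t)
    (hinj : ∀ t ∈ k, x t = 1 → t = 0) {s t : K} (hs : s ∈ k) (ht : t ∈ k) (h : x s = x t) :
    s = t := by
  have h1 := hadd s hs (-t) (k.neg_mem ht)
  rw [gx_neg hadd ht, h, mul_inv_cancel] at h1
  have h2 := hinj _ (k.add_mem hs (k.neg_mem ht)) h1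
  linear_combination h2

variable (θ : G ≃* G) {f : K → K}

theorem gf_add (hadd : ∀ s ∈ k, ∀ t ∈ k, x (s + t) = x s * x t)
    (hinj : ∀ t ∈ k, x t = 1 → t = 0) (hf : ∀ t ∈ k, f t ∈ k ∧ θ (x t) = x (f t))
    {s t : K} (hs : s ∈ k) (ht : t ∈ k) : f (s + t) = f s + f t := by
  apply gx_injOn hadd hinj (hf _ (k.add_mem hs ht)).1 (k.add_mem (hf s hs).1 (hf t ht).1)
  rw [← (hf _ (k.add_mem hs ht)).2, hadd s hs t ht, map_mul, (hf s hs).2, (hf t ht).2,
    hadd _ (hf s hs).1 _ (hf t ht).1]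

theorem gf_eq_zero (hadd : ∀ s ∈ k, ∀ t ∈ k, x (s + t) = x s * x t)
    (hinj : ∀ t ∈ k, x t = 1 → t = 0) (hf : ∀ t ∈ k, f t ∈ k ∧ θ (x t) = x (f t))
    {t : K} (ht : t ∈ k) (h : f t = 0) : t = 0 := by
  apply hinj t ht
  have h1 := (hf t ht).2
  rw [h, gx_zero hadd] at h1
  exact (map_eq_one_iff θ θ.injective).mp h1

theorem gf_zero (hadd : ∀ s ∈ k, ∀ t ∈ k, x (s + t) = x s * x t)
    (hinj : ∀ t ∈ k, x t = 1 → t = 0) (hf : ∀ t ∈ k, f t ∈ k ∧ θ (x t) = x (f t)) :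
    f 0 = 0 := by
  have := gf_add θ hadd hinj hf k.zero_mem k.zero_mem
  rw [add_zero] at this
  linear_combination -this

theorem gf_neg (hadd : ∀ s ∈ k, ∀ t ∈ k, x (s + t) = x s * x t)
    (hinj : ∀ t ∈ k, x t = 1 → t = 0) (hf : ∀ t ∈ k, f t ∈ k ∧ θ (x t) = x (f t))
    {t : K} (ht : t ∈ k) : f (-t) = - f t := by
  have := gf_add θ hadd hinj hf ht (k.neg_mem ht)
  rw [add_neg_cancel, gf_zero θ hadd hinj hf] at this
  linear_combination -this

end generic

/-- `n(-b) = n(b)⁻¹`. -/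
theorem nn_neg (R : TD G K ι) (i : ι) {b : K} (hb : b ∈ R.k i) :
    nn (R.x i) (R.y i) (-b) = (nn (R.x i) (R.y i) b)⁻¹ := by
  unfold nn
  have hb' : b⁻¹ ∈ R.k i := (R.k i).inv_mem hb
  rw [gx_neg (R.x_add i) hb, gx_neg (R.y_add i) hb', inv_neg, neg_neg]
  simp only [mul_inv_rev, inv_inv, mul_assoc]

section main

variable (R : TD G K ι) (θ : G ≃* G) (f g : ι → K → K)
    (hf : ∀ i, ∀ t ∈ R.k i, f i t ∈ R.k i ∧ θ (R.x i t) = R.x i (f i t))
    (hg : ∀ i, ∀ t ∈ R.k i, g i t ∈ R.k i ∧ θ (R.y i t) = R.y i (g i t))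

include hf in
theorem f_ne (i : ι) {t : K} (ht : t ∈ R.k i) (h : t ≠ 0) : f i t ≠ 0 :=
  fun h0 => h (gf_eq_zero θ (R.x_add i) (R.x_inj i) (hf i) ht h0)

include hg in
theorem g_ne (i : ι) {t : K} (ht : t ∈ R.k i) (h : t ≠ 0) : g i t ≠ 0 :=
  fun h0 => h (gf_eq_zero θ (R.y_add i) (R.y_inj i) (hg i) ht h0)

include hf hg in
/-- (b) -/
theorem rel (i : ι) {t : K} (ht : t ∈ R.k i) (h : t ≠ 0) : g i (-t⁻¹) = -(f i t)⁻¹ := by
  obtain ⟨κ, hκ, -, hn⟩ := R.n_conj i t ht h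
  have ht' : -t⁻¹ ∈ R.k i := (R.k i).neg_mem ((R.k i).inv_mem ht)
  have ht0 : -t⁻¹ ≠ 0 := neg_ne_zero.mpr (inv_ne_zero h)
  have h1 : (1 : K) ∈ R.k i := (R.k i).one_mem
  have e := congrArg θ hn
  unfold nn at e
  simp only [map_mul, map_inv, (hf i t ht).2, (hg i _ ht').2, (hf i 1 h1).2, (hg i κ hκ).2] at e
  have := R.rank1 i (f i t) (hf i t ht).1 (g i (-t⁻¹)) (hg i _ ht').1 (f i 1) (hf i 1 h1).1
    (g i κ) (hg i κ hκ).1 (g_ne R θ g hg i ht' ht0) (f_ne R θ f hf i h1 one_ne_zero) e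
  have hc := g_ne R θ g hg i ht' ht0
  have ha := f_ne R θ f hf i ht h
  have h3 : (g i (-t⁻¹))⁻¹ = - f i t := by linear_combination this
  rw [← inv_inv (g i (-t⁻¹)), h3, inv_neg]

include hf hg in
/-- (c) -/
theorem map_nn (i : ι) {t : K} (ht : t ∈ R.k i) (h : t ≠ 0) :
    θ (nn (R.x i) (R.y i) t) = nn (R.x i) (R.y i) (f i t) := by
  have ht' : -t⁻¹ ∈ R.k i := (R.k i).neg_mem ((R.k i).inv_mem ht)
  unfold nn
  simp only [map_mul, (hf i t ht).2, (hg i _ ht').2, rel R θ f g hf hg i ht h]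

include hf hg in
theorem map_hh (i : ι) {c : K} (hc : c ∈ R.k i) (h : c ≠ 0) :
    θ (hh (R.x i) (R.y i) c) = hh (R.x i) (R.y i) (f i c) * (hh (R.x i) (R.y i) (f i 1))⁻¹ := by
  have h1 : (1 : K) ∈ R.k i := (R.k i).one_mem
  have hm1 : (-1 : K) ∈ R.k i := (R.k i).neg_mem h1
  unfold hh
  rw [map_mul, map_nn R θ f g hf hg i hc h, map_nn R θ f g hf hg i hm1 (neg_ne_zero.mpr one_ne_zero),
    gf_neg θ (R.x_add i) (R.x_inj i) (hf i) h1, nn_neg R i (hf i 1 h1).1]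
  group

/-- `h(b)⁻¹ x(u) h(b) = x(b⁻² u)`. -/
theorem h_self_inv (i : ι) {b : K} (hb : b ∈ R.k i) (h : b ≠ 0) {u : K} (hu : u ∈ R.k i) :
    (hh (R.x i) (R.y i) b)⁻¹ * R.x i u * hh (R.x i) (R.y i) b = R.x i ((b ^ 2)⁻¹ * u) := by
  have hm : (b ^ 2)⁻¹ * u ∈ R.k i := (R.k i).mul_mem ((R.k i).inv_mem ((R.k i).pow_mem hb 2)) hu
  have e := R.h_self i b hb h _ hm
  rw [mul_inv_cancel_left₀ (pow_ne_zero 2 h)] at e
  rw [← e]
  group

include hf hg in
/-- (d) -/
theorem f_sq (i : ι) {c : K} (hc : c ∈ R.k i) (h : c ≠ 0) {t : K} (ht : t ∈ R.k i) :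
    f i (c ^ 2 * t) = (f i c) ^ 2 * (((f i 1) ^ 2)⁻¹ * f i t) := by
  have h1 : (1 : K) ∈ R.k i := (R.k i).one_mem
  have hct : c ^ 2 * t ∈ R.k i := (R.k i).mul_mem ((R.k i).pow_mem hc 2) ht
  have hm : ((f i 1) ^ 2)⁻¹ * f i t ∈ R.k i :=
    (R.k i).mul_mem ((R.k i).inv_mem ((R.k i).pow_mem (hf i 1 h1).1 2)) (hf i t ht).1
  apply gx_injOn (R.x_add i) (R.x_inj i) (hf i _ hct).1
    ((R.k i).mul_mem ((R.k i).pow_mem (hf i c hc).1 2) hm)
  have e := congrArg θ (R.h_self i c hc h t ht)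
  rw [map_mul, map_mul, map_inv, map_hh R θ f g hf hg i hc h, (hf i t ht).2, (hf i _ hct).2] at e
  rw [← e, ← R.h_self i _ (hf i c hc).1 (f_ne R θ f hf i hc h) _ hm,
    ← h_self_inv R i (hf i 1 h1).1 (f_ne R θ f hf i h1 one_ne_zero) (hf i t ht).1]
  group

end main

end T1

open T1 in
/-- T1: rigidity. -/
theorem TD.rigid [Finite K] (R : TD G K ι) (θ : G ≃* G) (f g : ι → K → K)
    (hf : ∀ i, ∀ t ∈ R.k i, f i t ∈ R.k i ∧ θ (R.x i t) = R.x i (f i t))
    (hg : ∀ i, ∀ t ∈ R.k i, g i t ∈ R.k i ∧ θ (R.y i t) = R.y i (g i t)) :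
    ∃ (σ : K ≃+* K) (α : ι → K), (∀ i, α i ∈ R.k i ∧ α i ≠ 0) ∧
      ∀ i, ∀ t ∈ R.k i, f i t = α i * σ t ∧ g i t = (α i)⁻¹ * σ t := by
  have h1 : ∀ i, (1 : K) ∈ R.k i := fun i => (R.k i).one_mem
  have hα : ∀ i, f i 1 ≠ 0 := fun i => f_ne R θ f hf i (h1 i) one_ne_zero
  -- the field automorphism
  set F : K → K := fun t => (f R.i0 1)⁻¹ * f R.i0 t with hF
  have hFadd : ∀ t u, F (t + u) = F t + F u := by
    intro t u
    simp only [hF]
    rw [gf_add θ (R.x_add _) (R.x_inj _) (hf R.i0) (R.k_root t) (R.k_root u), mul_add]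
  have hF1 : F 1 = 1 := inv_mul_cancel₀ (hα _)
  have hFsq : ∀ c, c ≠ 0 → ∀ t, F (c ^ 2 * t) = F c ^ 2 * F t := by
    intro c hc t
    simp only [hF]
    rw [f_sq R θ f g hf hg R.i0 (R.k_root c) hc (R.k_root t)]
    have := hα R.i0
    field_simp
  have hFmul := mul_of_sq' F hFadd hF1 hFsq
  have hF0 : F 0 = 0 := by
    simp only [hF]
    rw [gf_zero θ (R.x_add _) (R.x_inj _) (hf R.i0), mul_zero]
  let φ : K →+* K :=
    { toFun := F
      map_one' := hF1
      map_mul' := hFmul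
      map_zero' := hF0
      map_add' := hFadd }
  have hφbij : Function.Bijective φ := Finite.injective_iff_bijective.mp φ.injective
  let σ : K ≃+* K := RingEquiv.ofBijective φ hφbij
  have hσ : ∀ t, σ t = (f R.i0 1)⁻¹ * f R.i0 t := fun t => rfl
  -- propagation along the tree
  have hP : ∀ n : ℕ, ∀ i, R.μ i = n → ∀ t ∈ R.k i, f i t = f i 1 * σ t := by
    intro n
    induction n using Nat.strong_induction_on with
    | _ n ih =>
      intro i hi c hc
      rcases R.tree i with rfl | ⟨hμ, hle, htree⟩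
      · rw [hσ, mul_inv_cancel_left₀ (hα _)]
      · by_cases hc0 : c = 0
        · subst hc0
          rw [gf_zero θ (R.x_add _) (R.x_inj _) (hf i), map_zero, mul_zero]
        set j := R.par i with hj
        have ihj := ih (R.μ j) (hi ▸ hμ) j rfl
        have hcj : c⁻¹ ∈ R.k j := hle ((R.k i).inv_mem hc)
        have e := congrArg θ (htree c hc hc0 1 (h1 j))
        rw [mul_one, map_mul, map_mul, map_inv, map_hh R θ f g hf hg i hc hc0, (hf j 1 (h1 j)).2,
          (hf j _ hcj).2] at e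
        -- conjugation by the inverse
        have hb : f i 1 * f j 1 ∈ R.k j := (R.k j).mul_mem (hle (hf i 1 (h1 i)).1) (hf j 1 (h1 j)).1
        have e1 := htree (f i 1) (hf i 1 (h1 i)).1 (hα i) _ hb
        rw [inv_mul_cancel_left₀ (hα i)] at e1
        have e2 := htree (f i c) (hf i c hc).1 (f_ne R θ f hf i hc hc0) _ hb
        have e3 : R.x j (f j c⁻¹) = R.x j ((f i c)⁻¹ * (f i 1 * f j 1)) := by
          rw [← e, ← e2, ← e1]
          group
        have e4 := gx_injOn (R.x_add j) (R.x_inj j) (hf j _ hcj).1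
          ((R.k j).mul_mem (hle ((R.k i).inv_mem (hf i c hc).1)) hb) e3
        rw [ihj _ hcj, map_inv₀] at e4
        have hσc : σ c ≠ 0 := by
          intro h0
          exact hc0 ((map_eq_zero_iff σ σ.injective).mp h0)
        have hfc := f_ne R θ f hf i hc hc0
        have hj1 := hα j
        have hi1 := hα i
        field_simp at e4
        linear_combination e4
  refine ⟨σ, fun i => f i 1, fun i => ⟨(hf i 1 (h1 i)).1, hα i⟩, fun i t ht => ⟨hP _ i rfl t ht, ?_⟩⟩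
  by_cases ht0 : t = 0
  · subst ht0
    rw [gf_zero θ (R.y_add _) (R.y_inj _) (hg i), map_zero, mul_zero]
  · have hu : -t⁻¹ ∈ R.k i := (R.k i).neg_mem ((R.k i).inv_mem ht)
    have hu0 : -t⁻¹ ≠ 0 := neg_ne_zero.mpr (inv_ne_zero ht0)
    have e := rel R θ f g hf hg i hu hu0
    rw [inv_neg, inv_inv, neg_neg, hP _ i rfl _ hu, map_neg, map_inv₀] at e
    rw [e]
    have hσt : σ t ≠ 0 := by
      intro h0
      exact ht0 ((map_eq_zero_iff σ σ.injective).mp h0)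
    have hi1 := hα i
    field_simp

end Cfsg.Agent.Lib.Helper18.TwOut
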