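import Cfsg.Agent.Lib.Helper18.TwOut.T1

set_option autoImplicit false

/-!
# Piece T2: extensionality of automorphisms on the generators; decomposition
-/

namespace Cfsg.Agent.Lib.Helper18.TwOut

variable {G : Type*} [Group G] {K : Type*} [Field K] {ι : Type*}

/-- T2: two automorphisms agreeing on the generators are equal. -/
theorem TD.aut_ext (R : TD G K ι) (φ ψ : G ≃* G)
    (h : ∀ i, ∀ t ∈ R.k i, φ (R.x i t) = ψ (R.x i t) ∧ φ (R.y i t) = ψ (R.y i t)) : φ = ψ := by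
  have hE : Set.EqOn φ.toMonoidHom ψ.toMonoidHom
      {g : G | ∃ i, ∃ t ∈ R.k i, g = R.x i t ∨ g = R.y i t} := by
    rintro _ ⟨i, t, ht, rfl | rfl⟩
    · exact (h i t ht).1
    · exact (h i t ht).2
  have h2 := MonoidHom.eqOn_closure hE
  ext a
  exact h2 (by rw [R.gen]; exact Subgroup.mem_top a)

theorem TD.decomp [Finite K] (R : TD G K ι) (θ : G ≃* G) :
    ∃ (g : G) (σ : K ≃+* K) (α : ι → K), (∀ i, α i ∈ R.k i ∧ α i ≠ 0) ∧
      ∀ i, ∀ t ∈ R.k i, θ (R.x i t) = g * R.x i (α i * σ t) * g⁻¹ ∧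
        θ (R.y i t) = g * R.y i ((α i)⁻¹ * σ t) * g⁻¹ := by
  classical
  obtain ⟨g, hg⟩ := R.std θ
  set θ' : G ≃* G := θ.trans (MulAut.conj g⁻¹) with hθ'
  have hθ'a : ∀ a, θ' a = g⁻¹ * θ a * g := by
    intro a
    simp [hθ']
  have hx : ∀ i, ∀ t, ∃ s, t ∈ R.k i → (s ∈ R.k i ∧ θ' (R.x i t) = R.x i s) := by
    intro i t
    by_cases ht : t ∈ R.k i
    · obtain ⟨s, hs, e⟩ := (hg i t ht).1
      refine ⟨s, fun _ => ⟨hs, ?_⟩⟩
      rw [hθ'a, e]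
      group
    · exact ⟨0, fun h => absurd h ht⟩
  have hy : ∀ i, ∀ t, ∃ s, t ∈ R.k i → (s ∈ R.k i ∧ θ' (R.y i t) = R.y i s) := by
    intro i t
    by_cases ht : t ∈ R.k i
    · obtain ⟨s, hs, e⟩ := (hg i t ht).2
      refine ⟨s, fun _ => ⟨hs, ?_⟩⟩
      rw [hθ'a, e]
      group
    · exact ⟨0, fun h => absurd h ht⟩
  choose f hf using hx
  choose f' hf' using hy
  obtain ⟨σ, α, hα, h⟩ := R.rigid θ' f f' (fun i t ht => hf i t ht) (fun i t ht => hf' i t ht)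
  refine ⟨g, σ, α, hα, fun i t ht => ⟨?_, ?_⟩⟩
  · rw [← (h i t ht).1, ← (hf i t ht).2, hθ'a]
    group
  · rw [← (h i t ht).2, ← (hf' i t ht).2, hθ'a]
    group

end Cfsg.Agent.Lib.Helper18.TwOut
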